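import Cfsg.Agent.ZStar.HomocyclicMain
import Cfsg.Agent.ZJ.NilpotentMaximal
import Cfsg.Agent.Blocks.SylowDefectCount

/-!
# The automizer of a homocyclic Sylow 2-subgroup of rank two
-/

set_option autoImplicit false
set_option linter.style.haveILetI false
set_option linter.unusedSectionVars false
set_option linter.deprecated false

namespace CfsgLib.ZStar.Homocyclic

open Cfsg CfsgLib.CharBasics CfsgLib.BrauerInd CfsgLib.Blocks
open scoped Classical

universe u

theorem two_mul_cases {m : ℕ} (hm : 1 ≤ m) {a : ZMod (2 ^ m)} (h : a + a = 0) :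
    a = 0 ∨ a = ((2 ^ (m - 1) : ℕ) : ZMod (2 ^ m)) := by
  have : NeZero (2 ^ m) := ⟨by positivity⟩
  obtain ⟨k, rfl⟩ := ZMod.natCast_zmod_surjective a
  rw [← Nat.cast_add, ZMod.natCast_eq_zero_iff, ← two_mul] at h
  have hd : 2 ^ (m - 1) ∣ k := by
    rw [show 2 ^ m = 2 * 2 ^ (m - 1) by rw [← pow_succ', Nat.sub_add_cancel hm]] at h
    exact Nat.dvd_of_mul_dvd_mul_left two_pos h
  obtain ⟨q, rfl⟩ := hd
  rcases Nat.even_or_odd' q with ⟨r, rfl | rfl⟩
  · left
    rw [ZMod.natCast_eq_zero_iff, ← mul_assoc, ← pow_succ, Nat.sub_add_cancel hm]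
    exact dvd_mul_right _ _
  · right
    rw [mul_add, mul_one, ← mul_assoc, ← pow_succ, Nat.sub_add_cancel hm, Nat.cast_add, Nat.cast_mul,
      ZMod.natCast_self, zero_mul, zero_add]

/-- The three involutions of a homocyclic group of rank two. -/
theorem three_involutions {A : Type u} [Group A] {m : ℕ} (hm : 1 ≤ m)
    (e : A ≃* Multiplicative (ZMod (2 ^ m) × ZMod (2 ^ m))) :
    ∃ t : Fin 3 → A, Function.Injective t ∧ (∀ i, orderOf (t i) = 2) ∧ ∀ y, orderOf y = 2 → ∃ i, y = t i := by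
  haveI : NeZero (2 ^ m) := ⟨by positivity⟩
  set h : ZMod (2 ^ m) := ((2 ^ (m - 1) : ℕ) : ZMod (2 ^ m)) with hh
  have hh0 : h ≠ 0 := by
    rw [hh, Ne, ZMod.natCast_eq_zero_iff]
    intro hd
    have := Nat.le_of_dvd (by positivity) hd
    have : 2 ^ (m - 1) < 2 ^ m := Nat.pow_lt_pow_right one_lt_two (by omega)
    omega
  have hhh : h + h = 0 := by
    rw [hh, ← Nat.cast_add, ← two_mul, ← pow_succ', Nat.sub_add_cancel hm, ZMod.natCast_self]
  let v : Fin 3 → ZMod (2 ^ m) × ZMod (2 ^ m) := ![(h, 0), (0, h), (h, h)]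
  refine ⟨fun i => e.symm (Multiplicative.ofAdd (v i)), ?_, fun i => ?_, fun y hy => ?_⟩
  · intro i j hij
    have h' : v i = v j := Multiplicative.ofAdd.injective (e.symm.injective hij)
    fin_cases i <;> fin_cases j <;> simp [v, Prod.ext_iff, hh0, hh0.symm] at h' ⊢
  · rw [MulEquiv.orderOf_eq]
    refine orderOf_eq_prime ?_ ?_
    · rw [pow_two, ← ofAdd_add]
      fin_cases i <;> simp [v, hhh]
    · rw [Ne, ofAdd_eq_one]
      fin_cases i <;> simp [v, Prod.ext_iff, hh0]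
  · have h1 : e y ^ 2 = 1 := by rw [← map_pow, orderOf_dvd_iff_pow_eq_one.1 hy.dvd, map_one]
    have hne : e y ≠ 1 := fun h0 => by
      rw [e.map_eq_one_iff.1 h0, orderOf_one] at hy; omega
    obtain ⟨w, hw⟩ : ∃ w, e y = Multiplicative.ofAdd w := ⟨(e y).toAdd, rfl⟩
    rw [hw, pow_two, ← ofAdd_add, ofAdd_eq_one, Prod.ext_iff] at h1
    rw [hw, Ne, ofAdd_eq_one] at hne
    have hy' : y = e.symm (Multiplicative.ofAdd w) := by rw [← hw, e.symm_apply_apply]
    obtain ⟨a, b⟩ := w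
    rcases two_mul_cases hm h1.1 with ha | ha <;> rcases two_mul_cases hm h1.2 with hb | hb
    · exact absurd (Prod.ext ha hb) hne
    · exact ⟨1, by dsimp only at ha hb; rw [hy', ha, hb]; simp [v, h]⟩
    · exact ⟨0, by dsimp only at ha hb; rw [hy', ha, hb]; simp [v, h]⟩
    · exact ⟨2, by dsimp only at ha hb; rw [hy', ha, hb]; simp [v, h]⟩

variable {G : Type u} [Group G] [Fintype G]

/-- An element of odd order fixing every involution of an abelian 2-group centralizes it. -/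
theorem centralizes_of_fixes {A : Subgroup G} (hab : ∀ y ∈ A, ∀ z ∈ A, y * z = z * y)
    (hA : IsPGroup 2 A) {g : G} (hg : g ∈ Subgroup.normalizer (A : Set G)) (hodd : ¬ 2 ∣ orderOf g)
    (hfix : ∀ y ∈ A, orderOf y = 2 → g * y * g⁻¹ = y) : ∀ y ∈ A, g * y * g⁻¹ = y := by
  have key : ∀ k, ∀ y ∈ A, y ^ 2 ^ k = 1 → g * y * g⁻¹ = y := by
    intro k
    induction k with
    | zero => intro y _ h; rw [pow_zero, pow_one] at h; subst h; group
    | succ k ih =>
      intro y hy h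
      have hgy : g * y * g⁻¹ ∈ A := (Subgroup.mem_normalizer_iff.1 hg y).1 hy
      obtain ⟨d, hd⟩ : ∃ d, d = g * y * g⁻¹ * y⁻¹ := ⟨_, rfl⟩
      have hdA : d ∈ A := hd ▸ mul_mem hgy (inv_mem hy)
      have hdy : g * y * g⁻¹ = d * y := by rw [hd, inv_mul_cancel_right]
      have hd2 : d ^ 2 = 1 := by
        have h2 := ih (y ^ 2) (pow_mem hy 2) (by rw [← pow_mul, ← pow_succ', h])
        have hc : Commute (g * y * g⁻¹) y⁻¹ := hab _ hgy _ (inv_mem hy)
        rw [hd, hc.mul_pow, conj_pow, h2, inv_pow, mul_inv_cancel]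
      have hdfix : g * d * g⁻¹ = d := by
        by_cases hd1 : d = 1
        · rw [hd1]; group
        · exact hfix d hdA (orderOf_eq_prime hd2 hd1)
      have hpow : ∀ j : ℕ, g ^ j * y * (g ^ j)⁻¹ = d ^ j * y := by
        intro j
        induction j with
        | zero => simp
        | succ j ihj =>
          calc g ^ (j + 1) * y * (g ^ (j + 1))⁻¹ = g * (g ^ j * y * (g ^ j)⁻¹) * g⁻¹ := by rw [pow_succ']; group
            _ = g * d ^ j * g⁻¹ * (g * y * g⁻¹) := by rw [ihj]; group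
            _ = (g * d * g⁻¹) ^ j * (g * y * g⁻¹) := by rw [conj_pow]
            _ = d ^ (j + 1) * y := by rw [hdfix, hdy, pow_succ]; group
      have h1 := hpow (orderOf g)
      rw [pow_orderOf_eq_one, one_mul, inv_one, mul_one, eq_comm, mul_eq_right] at h1
      obtain ⟨j, hj⟩ := Nat.odd_iff.2 (Nat.mod_two_ne_zero.1 fun e => hodd (Nat.dvd_of_mod_eq_zero e))
      rw [hj, pow_succ, pow_mul, hd2, one_pow, one_mul] at h1
      rw [hdy, h1, one_mul]
  intro y hy
  obtain ⟨k, hk⟩ := hA ⟨y, hy⟩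
  exact key k y hy (congrArg Subtype.val hk)

/-- Either the automizer is trivial or the hypotheses of the setup hold. -/
theorem exists_setup [Fact (Nat.Prime 2)] (P : Sylow 2 G) (hab : ∀ y ∈ (P : Subgroup G), ∀ z ∈ (P : Subgroup G), y * z = z * y)
    (t : Fin 3 → (P : Subgroup G)) (htinj : Function.Injective t) (ht2 : ∀ i, orderOf (t i) = 2)
    (htall : ∀ y, orderOf y = 2 → ∃ i, y = t i) :
    Subgroup.normalizer ((P : Subgroup G) : Set G) ≤ Subgroup.centralizer ((P : Subgroup G) : Set G) ∨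
      ∃ n, Setup P n := by
  set N := Subgroup.normalizer ((P : Subgroup G) : Set G) with hN
  have hparts : ∀ z ∈ N, ppart 2 z ∈ (P : Subgroup G) ∧ prest 2 z ∈ N := by
    intro z hz
    obtain ⟨-, -, ⟨k, hk⟩, -, hpz, hrz⟩ := part_spec (p := 2) z
    exact ⟨CfsgLib.ZJ.mem_sylow_of_pow_eq_one P (Subgroup.zpowers_le.2 hz hpz) k (by rw [← hk, pow_orderOf_eq_one]),
      Subgroup.zpowers_le.2 hz hrz⟩
  have hreduce : ∀ z ∈ N, (∀ y ∈ (P : Subgroup G), prest 2 z * y * (prest 2 z)⁻¹ = y) →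
      ∀ y ∈ (P : Subgroup G), z * y * z⁻¹ = y := by
    intro z hz h y hy
    calc z * y * z⁻¹ = ppart 2 z * (prest 2 z * y * (prest 2 z)⁻¹) * (ppart 2 z)⁻¹ := by
          conv_lhs => rw [← (part_spec (p := 2) z).1]
          group
      _ = y := by rw [h y hy, hab _ (hparts z hz).1 y hy, mul_inv_cancel_right]
  by_cases hall : ∀ g ∈ N, ¬ 2 ∣ orderOf g → ∀ y ∈ (P : Subgroup G), orderOf y = 2 → g * y * g⁻¹ = y
  · left
    intro z hz
    rw [Subgroup.mem_centralizer_iff]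
    intro y hy
    have := hreduce z hz (fun w hw => centralizes_of_fixes hab P.2 (hparts z hz).2 (part_spec (p := 2) z).2.2.2.1
      (hall _ (hparts z hz).2 (part_spec (p := 2) z).2.2.2.1) w hw) y hy
    exact (mul_inv_eq_iff_eq_mul.1 this).symm
  right
  push Not at hall
  obtain ⟨g, hg, hodd, y₀, hy₀, hy₀2, hmove⟩ := hall
  -- the action on the three involutions
  have hexact : ∀ h, h ∈ N → ∀ i, ∃ j, h * (t i : G) * h⁻¹ = t j := fun h hh i => by
    have ho : orderOf (h * (t i : G) * h⁻¹) = 2 := by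
      rw [← MulAut.conj_apply, MulEquiv.orderOf_eq, Subgroup.orderOf_coe, ht2]
    obtain ⟨j, hj⟩ := htall ⟨h * t i * h⁻¹, (Subgroup.mem_normalizer_iff.1 hh _).1 (t i).2⟩
      (by rw [← Subgroup.orderOf_coe]; exact ho)
    exact ⟨j, congrArg Subtype.val hj⟩
  choose act hact using hexact
  have hinv3 : ∀ i j k l : Fin 3, i ≠ j → k ≠ i → k ≠ j → l ≠ i → l ≠ j → k = l := by decide
  have hinjact : ∀ h hh, Function.Injective (act h hh) := fun h hh i j e => htinj (Subtype.ext (by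
    have := hact h hh i
    rw [e, ← hact h hh j] at this
    exact mul_left_cancel (mul_right_cancel this)))
  -- an element of odd order fixing one involution fixes them all
  have hfix1 : ∀ h, ∀ hh : h ∈ N, ¬ 2 ∣ orderOf h → ∀ i, act h hh i = i → ∀ j, act h hh j = j := by
    intro h hh hho i hi j
    by_contra hj
    have hij : i ≠ j := fun e => hj (by rw [← e, hi])
    set k := act h hh j with hk
    have hki : k ≠ i := fun e => hij ((hinjact h hh) (hi.trans e.symm))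
    have hkk : act h hh k = j := by
      have h1 : act h hh k ≠ i := fun e => hki ((hinjact h hh) (e.trans hi.symm))
      have h2 : act h hh k ≠ k := fun e => hj ((hinjact h hh) (by rw [e, hk]) : k = j)
      exact hinv3 i k _ j hki.symm h1 h2 hij.symm (Ne.symm hj)
    have hpow : ∀ r : ℕ, h ^ (2 * r) * (t j : G) * (h ^ (2 * r))⁻¹ = t j := by
      intro r
      induction r with
      | zero => simp
      | succ r ihr =>
        calc h ^ (2 * (r + 1)) * (t j : G) * (h ^ (2 * (r + 1)))⁻¹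
            = h * (h * (h ^ (2 * r) * (t j : G) * (h ^ (2 * r))⁻¹) * h⁻¹) * h⁻¹ := by
              rw [show 2 * (r + 1) = 1 + (1 + 2 * r) by ring, pow_add, pow_add]; group
          _ = t j := by rw [ihr, hact h hh j, ← hk, hact h hh k, hkk]
    obtain ⟨r, hr⟩ := Nat.odd_iff.2 (Nat.mod_two_ne_zero.1 fun e => hho (Nat.dvd_of_mod_eq_zero e))
    have h2 : h * (t j : G) * h⁻¹ = t j := by
      calc h * (t j : G) * h⁻¹ = h * (h ^ (2 * r) * (t j : G) * (h ^ (2 * r))⁻¹) * h⁻¹ := by rw [hpow r]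
        _ = h ^ (2 * r + 1) * (t j : G) * (h ^ (2 * r + 1))⁻¹ := by rw [pow_succ']; group
        _ = t j := by rw [← hr, pow_orderOf_eq_one, inv_one, one_mul, mul_one]
    exact hj (htinj (Subtype.ext ((hact h hh j).symm.trans h2)))
  have hcent : ∀ h, ∀ hh : h ∈ N, ¬ 2 ∣ orderOf h → ∀ i, act h hh i = i →
      ∀ y ∈ (P : Subgroup G), h * y * h⁻¹ = y := by
    intro h hh hho i hi
    refine centralizes_of_fixes hab P.2 hh hho fun y hy hy2 => ?_
    obtain ⟨j, hj⟩ := htall ⟨y, hy⟩ (by rw [← Subgroup.orderOf_coe]; exact hy2)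
    rw [show y = (t j : G) from congrArg Subtype.val hj, hact h hh j, hfix1 h hh hho i hi j]
  have hfree : ∀ i, act g hg i ≠ i := fun i hi => hmove (hcent g hg hodd i hi y₀ hy₀)
  obtain ⟨j₁, hj₁⟩ : ∃ j, j = act g hg 0 := ⟨_, rfl⟩
  obtain ⟨j₂, hj₂⟩ : ∃ j, j = act g hg j₁ := ⟨_, rfl⟩
  have h20 : j₂ ≠ 0 := by
    intro e
    have hg2 : g ^ 2 ∈ N := pow_mem hg 2
    have ho2 : ¬ 2 ∣ orderOf (g ^ 2) := fun hd => hodd (hd.trans (orderOf_pow_dvd 2))
    have hf : act (g ^ 2) hg2 0 = 0 := htinj (Subtype.ext (by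
      rw [← hact (g ^ 2) hg2 0, show g ^ 2 * (t 0 : G) * (g ^ 2)⁻¹ = g * (g * t 0 * g⁻¹) * g⁻¹ by rw [pow_two]; group,
        hact g hg 0, ← hj₁, hact g hg j₁, ← hj₂, e]))
    obtain ⟨r, hr⟩ := Nat.odd_iff.2 (Nat.mod_two_ne_zero.1 fun e => hodd (Nat.dvd_of_mod_eq_zero e))
    refine hmove ?_
    have hc2 := hcent (g ^ 2) hg2 ho2 0 hf
    have hall2 : ∀ q : ℕ, g ^ (2 * q) * y₀ * (g ^ (2 * q))⁻¹ = y₀ := by
      intro q
      induction q with
      | zero => simp
      | succ q ihq =>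
        calc g ^ (2 * (q + 1)) * y₀ * (g ^ (2 * (q + 1)))⁻¹
            = g ^ 2 * (g ^ (2 * q) * y₀ * (g ^ (2 * q))⁻¹) * (g ^ 2)⁻¹ := by rw [mul_add, mul_one, add_comm, pow_add]; group
          _ = y₀ := by rw [ihq, hc2 y₀ hy₀]
    have e1 : g = g ^ (2 * (r + 1)) := by
      rw [show 2 * (r + 1) = (2 * r + 1) + 1 by ring, pow_succ, ← hr, pow_orderOf_eq_one, one_mul]
    rw [e1]; exact hall2 _
  have h21 : j₂ ≠ j₁ := hj₂ ▸ hfree j₁
  have h10 : j₁ ≠ 0 := hj₁ ▸ hfree 0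
  have hg0 : act g hg j₂ = 0 := by
    have h1 : act g hg j₂ ≠ j₁ := by rw [hj₁]; exact fun e => h20 (hinjact g hg e)
    exact hinv3 j₁ j₂ _ 0 h21.symm h1 (hfree j₂) h10.symm h20.symm
  have hstep : ∀ i < 3, (g ^ i) * (t 0 : G) * (g ^ i)⁻¹ = t (![0, j₁, j₂] (Fin.ofNat 3 i)) := by
    intro i hi
    interval_cases i
    · simp
    · rw [pow_one, hact g hg 0, ← hj₁]; rfl
    · rw [show g ^ 2 * (t 0 : G) * (g ^ 2)⁻¹ = g * (g * t 0 * g⁻¹) * g⁻¹ by rw [pow_two]; group,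
        hact g hg 0, ← hj₁, hact g hg j₁, ← hj₂]
      simp
  refine ⟨g, hab, hg, ?_, ?_, ?_⟩
  · have hg3 : g ^ 3 ∈ N := pow_mem hg 3
    refine hcent (g ^ 3) hg3 (fun hd => hodd (hd.trans (orderOf_pow_dvd 3))) 0 (htinj (Subtype.ext ?_))
    rw [← hact (g ^ 3) hg3 0, show g ^ 3 * (t 0 : G) * (g ^ 3)⁻¹ = g * (g * (g * t 0 * g⁻¹) * g⁻¹) * g⁻¹ by
        rw [pow_succ, pow_two]; group, hact g hg 0, ← hj₁, hact g hg j₁, ← hj₂, hact g hg j₂, hg0]
  · intro y hy hyfix
    by_contra hy1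
    obtain ⟨k, hk⟩ := IsPGroup.iff_orderOf.1 P.2 ⟨y, hy⟩
    rw [Subgroup.orderOf_mk] at hk
    obtain ⟨k', rfl⟩ : ∃ k', k = k' + 1 := ⟨k - 1, by
      rcases k.eq_zero_or_pos with rfl | hpos
      · rw [pow_zero, orderOf_eq_one_iff] at hk; exact absurd hk hy1
      · omega⟩
    have hz2 : orderOf (y ^ 2 ^ k') = 2 := by
      rw [orderOf_pow_of_dvd (by positivity) (by rw [hk]; exact pow_dvd_pow 2 k'.le_succ), hk, pow_succ,
        Nat.mul_div_cancel_left _ (by positivity)]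
    obtain ⟨i, hi⟩ := htall ⟨y ^ 2 ^ k', pow_mem hy _⟩ (by rw [← Subgroup.orderOf_coe]; exact hz2)
    refine hfree i (htinj (Subtype.ext ?_))
    rw [← hact g hg i, show (t i : G) = y ^ 2 ^ k' from (congrArg Subtype.val hi).symm, ← conj_pow, hyfix]
  · intro h hh
    have hsurj : ∀ j : Fin 3, ∃ i < 3, ![(0 : Fin 3), j₁, j₂] (Fin.ofNat 3 i) = j := by
      intro j
      by_cases e0 : j = 0
      · exact ⟨0, by norm_num, by simp [e0]⟩
      by_cases e1 : j = j₁
      · exact ⟨1, by norm_num, e1.symm ▸ rfl⟩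
      · exact ⟨2, by norm_num, by simpa using hinv3 0 j₁ j₂ j h10.symm h20 h21 e0 e1⟩
    obtain ⟨i, hi, hij⟩ := hsurj (act h hh 0)
    refine ⟨i, hi, ?_⟩
    set z := (g ^ i)⁻¹ * h with hz
    have hzN : z ∈ N := mul_mem (inv_mem (pow_mem hg i)) hh
    have hzt : z * (t 0 : G) * z⁻¹ = t 0 := by
      calc z * (t 0 : G) * z⁻¹ = (g ^ i)⁻¹ * (h * t 0 * h⁻¹) * g ^ i := by rw [hz]; group
        _ = (g ^ i)⁻¹ * (g ^ i * (t 0 : G) * (g ^ i)⁻¹) * g ^ i := by rw [hact h hh 0, ← hij, ← hstep i hi]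
        _ = t 0 := by group
    obtain ⟨hrn, -⟩ := And.intro (hparts z hzN).2 trivial
    have hrfix : prest 2 z * (t 0 : G) * (prest 2 z)⁻¹ = t 0 := by
      have hmem : prest 2 z ∈ Subgroup.centralizer ({(t 0 : G)} : Set G) :=
        Subgroup.zpowers_le.2 (Subgroup.mem_centralizer_singleton_iff.2 (mul_inv_eq_iff_eq_mul.1 hzt))
          (part_spec (p := 2) z).2.2.2.2.2
      rw [Subgroup.mem_centralizer_singleton_iff.1 hmem, mul_inv_cancel_right]
    have hzc := hreduce z hzN (hcent _ hrn (part_spec (p := 2) z).2.2.2.1 0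
      (htinj (Subtype.ext ((hact _ hrn 0).symm.trans hrfix))))
    intro y hy
    calc h * y * h⁻¹ = g ^ i * (z * y * z⁻¹) * (g ^ i)⁻¹ := by rw [hz]; group
      _ = g ^ i * y * (g ^ i)⁻¹ := by rw [hzc y hy]

end CfsgLib.ZStar.Homocyclic
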