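import Cfsg.Agent.ZStar.Main
import Cfsg.Agent.CoprimeAction.Invariant

/-!
# Sylow subgroups normalized by an isolated involution
-/

set_option autoImplicit false
set_option linter.style.haveILetI false
set_option linter.unusedSectionVars false
set_option linter.deprecated false

namespace CfsgLib.ZStar

open Cfsg

universe u

variable {G : Type u} [Group G] [Finite G] {p : ℕ} [Fact p.Prime]

theorem exists_sylow_normalized {z : G} (hz : IsIsolatedInvolution z) :
    ∃ P : Sylow p G, z ∈ Subgroup.normalizer ((P : Subgroup G) : Set G) := by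
  rcases eq_or_ne p 2 with rfl | hp
  · obtain ⟨P, hP⟩ := (IsPGroup.of_card (n := 1) (by rw [Nat.card_zpowers, hz.1, pow_one]) :
      IsPGroup 2 (Subgroup.zpowers z)).exists_le_sylow
    exact ⟨P, Subgroup.le_normalizer (hP (Subgroup.mem_zpowers z))⟩
  set K := pPrimeCore 2 G with hK
  haveI : K.Normal := Cfsg.pPrimeCore_normal 2 G
  obtain ⟨P₀⟩ := (inferInstance : Nonempty (Sylow p (G ⧸ K)))
  set L := (P₀ : Subgroup (G ⧸ K)).comap (QuotientGroup.mk' K) with hL
  have hLcard : Nat.card L = Nat.card K * p ^ (Nat.card (G ⧸ K)).factorization p := by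
    rw [hL, CfsgLib.PCore.card_comap_mk', P₀.card_eq_multiplicity]
  have hzc := zstar_center hz
  have hzL : Subgroup.zpowers z ≤ Subgroup.normalizer (L : Set G) := by
    rw [Subgroup.zpowers_le, Subgroup.mem_normalizer_iff]
    intro h
    rw [hL, Subgroup.mem_comap, Subgroup.mem_comap, map_mul, map_mul, map_inv]
    show _ ↔ ((z : G) : G ⧸ K) * (h : G ⧸ K) * ((z : G) : G ⧸ K)⁻¹ ∈ _
    rw [← Subgroup.mem_center_iff.1 hzc (h : G ⧸ K), mul_inv_cancel_right]
    rfl
  have hodd : (Nat.card (Subgroup.zpowers z)).Coprime (Nat.card L) := by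
    rw [Nat.card_zpowers, hz.1, hLcard]
    exact (CfsgLib.PCore.pPrimeCore_coprime 2 G).symm.mul_right
      (((Nat.coprime_primes Nat.prime_two Fact.out).2 (Ne.symm hp)).pow_right _)
  have hsolv : Group.IsSolvable (Subgroup.zpowers z) := Group.isSolvable_of_comm fun x y => Subtype.ext (by
    obtain ⟨i, hi⟩ := x.2
    obtain ⟨j, hj⟩ := y.2
    show (x : G) * y = y * x
    rw [← hi, ← hj]
    exact zpow_mul_comm z i j)
  obtain ⟨R, hR⟩ := CfsgLib.CoprimeAction.exists_invariant_sylow hzL hodd (Or.inl hsolv) p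
  have hcard : Nat.card ((R : Subgroup L).map L.subtype) = p ^ (Nat.card G).factorization p := by
    rw [CfsgLib.CoprimeAction.card_sylow_map, hLcard, Subgroup.card_eq_card_quotient_mul_card_subgroup K,
      Nat.factorization_mul Nat.card_pos.ne' (pow_pos (Nat.Prime.pos Fact.out) _).ne',
      Nat.factorization_mul Nat.card_pos.ne' Nat.card_pos.ne', Finsupp.add_apply, Finsupp.add_apply,
      Nat.Prime.factorization_pow Fact.out, Finsupp.single_eq_same, add_comm]
  exact ⟨Sylow.ofCard _ hcard, hR (Subgroup.mem_zpowers z)⟩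

/-- A maximal `z`-invariant `p`-subgroup is a Sylow subgroup. -/
theorem maximal_normalized {z : G} (hz : IsIsolatedInvolution z) (Q : Subgroup G) (hQ : IsPGroup p Q)
    (hzQ : z ∈ Subgroup.normalizer (Q : Set G))
    (hmax : ∀ R : Subgroup G, IsPGroup p R → z ∈ Subgroup.normalizer (R : Set G) → Q ≤ R → R = Q) :
    ∃ P : Sylow p G, (P : Subgroup G) = Q := by
  set N := Subgroup.normalizer (Q : Set G) with hN
  obtain ⟨P', hP'⟩ := exists_sylow_normalized (p := p) (isolated_subgroup hz N hzQ)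
  have hQN : Q ≤ N := Subgroup.le_normalizer
  have hnormal : (Q.subgroupOf N).Normal := Subgroup.normal_in_normalizer
  have hQP : Q.subgroupOf N ≤ P' := by
    have hp := hQ.comap_of_injective N.subtype N.subtype_injective
    obtain ⟨P₁, hP₁⟩ := hp.exists_le_sylow
    obtain ⟨c, hc⟩ := MulAction.exists_smul_eq N P₁ P'
    intro x hx
    rw [← hc, show x = c * (c⁻¹ * x * c) * c⁻¹ by group]
    exact Subgroup.smul_mem_pointwise_smul _ (MulAut.conj c) _ (hP₁ (by
      have h := hnormal.conj_mem x hx c⁻¹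
      rwa [inv_inv] at h))
  have heq : (P' : Subgroup N).map N.subtype = Q := by
    refine hmax _ (P'.2.map _) ?_ ?_
    · rw [Subgroup.mem_normalizer_iff]
      intro y
      constructor
      · rintro ⟨x, hx, rfl⟩
        exact ⟨_, (Subgroup.mem_normalizer_iff.1 hP' x).1 hx, rfl⟩
      · rintro ⟨x, hx, hxy⟩
        refine ⟨(⟨z, hzQ⟩ : N)⁻¹ * x * ⟨z, hzQ⟩, (Subgroup.mem_normalizer_iff''.1 hP' x).1 hx, ?_⟩
        simp only [map_mul, map_inv, Subgroup.coe_subtype] at hxy ⊢
        rw [hxy]; group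
    · intro x hx
      exact ⟨⟨x, hQN hx⟩, hQP hx, rfl⟩
  obtain ⟨P, hP⟩ := hQ.exists_le_sylow
  refine ⟨P, le_antisymm ?_ hP⟩
  by_contra hne
  have hlt : Q.subgroupOf (P : Subgroup G) < ⊤ := lt_top_iff_ne_top.2 fun h =>
    hne (Subgroup.subgroupOf_eq_top.1 h)
  obtain ⟨x, hx, hxQ⟩ := SetLike.exists_of_lt
    (Group.normalizerCondition_of_isNilpotent (h := P.isPGroup'.isNilpotent) _ hlt)
  have hxN : (x : G) ∈ N := by
    rw [hN, Subgroup.mem_normalizer_iff]
    intro d
    by_cases hd : d ∈ (P : Subgroup G)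
    · exact Subgroup.mem_normalizer_iff.1 hx ⟨d, hd⟩
    · refine ⟨fun h => absurd (hP h) hd, fun h => absurd ?_ hd⟩
      have := mul_mem (mul_mem (inv_mem x.2) (hP h)) x.2
      simpa [mul_assoc] using this
  -- `Q` is a Sylow subgroup of its normalizer
  have hQc : Nat.card Q = p ^ (Nat.card N).factorization p := by
    rw [← heq, CfsgLib.CoprimeAction.card_sylow_map]
  have hJ : IsPGroup p ↥((P : Subgroup G) ⊓ N) := P.2.to_le inf_le_left
  have hJle : Nat.card ↥((P : Subgroup G) ⊓ N) ≤ Nat.card Q := by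
    obtain ⟨a, ha⟩ := IsPGroup.iff_card.1 hJ
    rw [hQc, ha]
    exact Nat.pow_le_pow_right (Nat.Prime.pos Fact.out)
      ((Nat.Prime.pow_dvd_iff_le_factorization Fact.out Nat.card_pos.ne').1
        (ha ▸ Subgroup.card_dvd_of_le inf_le_right))
  have := Subgroup.eq_of_le_of_card_ge (le_inf hP hQN) hJle
  exact hxQ (by rw [Subgroup.mem_subgroupOf, this]; exact ⟨x.2, hxN⟩)

/-- Sylow subgroups normalized by an isolated involution are conjugate under its centralizer. -/
theorem normalized_conj {z : G} (hz : IsIsolatedInvolution z) (P P' : Sylow p G)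
    (hP : z ∈ Subgroup.normalizer ((P : Subgroup G) : Set G))
    (hP' : z ∈ Subgroup.normalizer ((P' : Subgroup G) : Set G)) :
    ∃ c ∈ Subgroup.centralizer ({z} : Set G), c • P = P' := by
  obtain ⟨g, rfl⟩ := MulAction.exists_smul_eq G P P'
  set N := Subgroup.normalizer ((P : Subgroup G) : Set G) with hN
  have h1 : g⁻¹ * z * g ∈ N := by
    have hP'' : z • (g • P) = g • P := Sylow.smul_eq_iff_mem_normalizer.2 hP'
    refine Sylow.smul_eq_iff_mem_normalizer.1 ?_
    rw [mul_smul, mul_smul, hP'', inv_smul_smul]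
  obtain ⟨-, -, h3, -, h5⟩ := CfsgLib.Isolated.rep_spec hz g⁻¹
  have hk : CfsgLib.Isolated.rep z g⁻¹ ∈ N :=
    CfsgLib.Isolated.rep_mem (by rw [inv_inv]; exact N.mul_mem h1 hP)
  refine ⟨g * CfsgLib.Isolated.rep z g⁻¹, ?_, ?_⟩
  · have := inv_mem h5
    rwa [mul_inv_rev, inv_inv, inv_inv] at this
  · rw [mul_smul, Sylow.smul_eq_iff_mem_normalizer.2 hk]

end CfsgLib.ZStar
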