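import Cfsg.Agent.ZStar.DihedralRot

/-!
The members of the principal 2-block for a dihedral Sylow 2-subgroup and their values on the rotations.
-/

set_option autoImplicit false
set_option linter.style.haveILetI false
set_option linter.unusedSectionVars false
set_option linter.deprecated false

namespace CfsgLib.ZStar.DihedralRot

open Cfsg CfsgLib.CharBasics CfsgLib.BrauerInd
open CfsgLib.ZStar.Dihedral
open scoped ComplexConjugate Classical

universe u

section Sums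

variable {ζ : ℂ} {k : ℕ} (hζ : IsPrimitiveRoot ζ (2 ^ (k + 2)))

include hζ

theorem geom_zpow (a : ℤ) : ∑ l ∈ Finset.range (2 ^ (k + 2)), (ζ ^ a) ^ l
    = if ((2 ^ (k + 2) : ℕ) : ℤ) ∣ a then ((2 ^ (k + 2) : ℕ) : ℂ) else 0 := by
  split_ifs with h
  · rw [(hζ.zpow_eq_one_iff_dvd a).2 h]
    simp
  · rw [geom_sum_eq (fun e => h ((hζ.zpow_eq_one_iff_dvd a).1 e)), ← zpow_natCast, ← zpow_mul, mul_comm a,
      zpow_mul, zpow_natCast, hζ.pow_eq_one, one_zpow, sub_self, zero_div]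

theorem zpow_pow_mul (a b : ℤ) (l : ℕ) : (ζ ^ a) ^ l * (ζ ^ b) ^ l = (ζ ^ (a + b)) ^ l := by
  rw [← mul_pow, zpow_add₀ (hζ.ne_zero (by positivity))]

theorem sum_rotVal (j : ℕ) (a : ℤ) : ∑ l ∈ Finset.range (2 ^ (k + 2)), rotVal ζ j l * (ζ ^ a) ^ l
    = (if ((2 ^ (k + 2) : ℕ) : ℤ) ∣ (j : ℤ) + a then ((2 ^ (k + 2) : ℕ) : ℂ) else 0)
      + (if ((2 ^ (k + 2) : ℕ) : ℤ) ∣ -(j : ℤ) + a then ((2 ^ (k + 2) : ℕ) : ℂ) else 0)
      - 2 * (if ((2 ^ (k + 2) : ℕ) : ℤ) ∣ a then ((2 ^ (k + 2) : ℕ) : ℂ) else 0) := by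
  simp only [rotVal, sub_mul, add_mul, zpow_pow_mul hζ, Finset.sum_sub_distrib, Finset.sum_add_distrib,
    ← Finset.mul_sum, geom_zpow hζ]

theorem neg_one_eq : ζ ^ ((2 ^ (k + 1) : ℕ) : ℤ) = -1 := by
  rw [zpow_natCast]
  have h : IsPrimitiveRoot (ζ ^ 2 ^ (k + 1)) 2 := hζ.pow (pow_pos two_pos _) (by rw [pow_succ])
  exact h.eq_neg_one_of_two_right

theorem conj_rotVal (j l : ℕ) : conj (rotVal ζ j l) = rotVal ζ j l := by
  have h : conj ζ = ζ⁻¹ :=
    (Complex.inv_eq_conj (Complex.norm_eq_one_of_pow_eq_one hζ.pow_eq_one (by positivity))).symm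
  rw [rotVal, map_sub, map_add, map_pow, map_pow, map_zpow₀, map_zpow₀, h, map_ofNat, inv_zpow', inv_zpow', neg_neg]
  ring

theorem rotVal_flip (j l : ℕ) (hj : j ≤ 2 ^ (k + 2)) : rotVal ζ (2 ^ (k + 2) - j) l = rotVal ζ j l := by
  have h0 : ζ ≠ 0 := hζ.ne_zero (by positivity)
  have e : ζ ^ ((2 ^ (k + 2) - j : ℕ) : ℤ) = ζ ^ (-(j : ℤ)) := by
    rw [Nat.cast_sub hj, zpow_sub₀ h0, zpow_natCast ζ (2 ^ (k + 2)), hζ.pow_eq_one, one_div, zpow_neg]
  rw [rotVal, rotVal, zpow_neg, e, zpow_neg, inv_inv]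
  ring

theorem rotVal_swap (a : ℤ) (j l : ℕ) : (ζ ^ a) ^ j * rotVal ζ j l
    = (ζ ^ (a + (l : ℤ))) ^ j + (ζ ^ (a - (l : ℤ))) ^ j - 2 * (ζ ^ a) ^ j := by
  have e : ∀ (s : ℤ), (ζ ^ ((s : ℤ) * j)) ^ l = (ζ ^ (s * (l : ℤ))) ^ j := fun s => by
    rw [← zpow_natCast, ← zpow_mul, ← zpow_natCast, ← zpow_mul, mul_right_comm]
  have e1 := e 1
  have e2 := e (-1)
  rw [one_mul, one_mul] at e1
  rw [neg_one_mul, neg_one_mul] at e2
  rw [rotVal, e1, e2, mul_sub, mul_add, zpow_pow_mul hζ, zpow_pow_mul hζ, ← sub_eq_add_neg]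
  ring

/-- A symmetric function is determined by its sums against the functions on the rotations. -/
theorem eq_zero_of_sums {d : ℕ → ℂ} (hd : ∀ l, 0 < l → l < 2 ^ (k + 2) → d (2 ^ (k + 2) - l) = d l)
    (h : ∀ j, 1 ≤ j → j ≤ 2 ^ (k + 1) → ∑ l ∈ Finset.range (2 ^ (k + 2)), rotVal ζ j l * d l = 0) :
    ∀ l, 0 < l → l < 2 ^ (k + 2) → d l = 0 := by
  intro l0 hl0 hl0'
  set N := 2 ^ (k + 2) with hN
  have hNm : N = 2 * 2 ^ (k + 1) := by rw [hN, pow_succ']
  have hall : ∀ j ∈ Finset.range N, ∑ l ∈ Finset.range N, rotVal ζ j l * d l = 0 := by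
    intro j hj
    rw [Finset.mem_range] at hj
    rcases Nat.eq_zero_or_pos j with rfl | hj0
    · refine Finset.sum_eq_zero fun l _ => ?_
      norm_num [rotVal]
    by_cases hjm : j ≤ 2 ^ (k + 1)
    · exact h j hj0 hjm
    · rw [← h (N - j) (by omega) (by omega)]
      exact Finset.sum_congr rfl fun l _ => by rw [hN, rotVal_flip hζ j l (by omega)]
  have h0 : ∑ j ∈ Finset.range N, (ζ ^ (l0 : ℤ)) ^ j * ∑ l ∈ Finset.range N, rotVal ζ j l * d l = 0 :=
    Finset.sum_eq_zero fun j hj => by rw [hall j hj, mul_zero]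
  simp only [Finset.mul_sum, ← mul_assoc, rotVal_swap hζ] at h0
  rw [Finset.sum_comm] at h0
  simp only [← Finset.sum_mul, Finset.sum_sub_distrib, Finset.sum_add_distrib, ← Finset.mul_sum] at h0
  rw [hN] at h0
  simp only [geom_zpow hζ] at h0
  rw [← hN] at h0
  have hN0 : ¬ (N : ℤ) ∣ (l0 : ℤ) := fun hdv => by
    have := Nat.le_of_dvd hl0 (Int.natCast_dvd_natCast.1 hdv)
    omega
  have key : ∀ l ∈ Finset.range N,
      ((if (N : ℤ) ∣ (l0 : ℤ) + (l : ℤ) then (N : ℂ) else 0) + (if (N : ℤ) ∣ (l0 : ℤ) - (l : ℤ) then (N : ℂ) else 0) -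
        2 * (if (N : ℤ) ∣ (l0 : ℤ) then (N : ℂ) else 0)) * d l
      = (if l = N - l0 then (N : ℂ) * d l else 0) + (if l = l0 then (N : ℂ) * d l else 0) := by
    intro l hl
    rw [Finset.mem_range] at hl
    have i1 : (N : ℤ) ∣ (l0 : ℤ) + (l : ℤ) ↔ l = N - l0 := by
      rw [← Nat.cast_add, Int.natCast_dvd_natCast]
      refine ⟨fun ⟨c, hc⟩ => ?_, fun e => ⟨1, by omega⟩⟩
      rcases c with _ | _ | c
      · omega
      · omega
      · rw [mul_add, mul_one] at hc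
        have : N ≤ N * (c + 1) := Nat.le_mul_of_pos_right _ (by omega)
        omega
    have i2 : (N : ℤ) ∣ (l0 : ℤ) - (l : ℤ) ↔ l = l0 := by
      refine ⟨fun hdv => ?_, fun e => by rw [e, sub_self]; exact dvd_zero _⟩
      have := Int.eq_zero_of_abs_lt_dvd hdv (by rw [abs_lt]; omega)
      omega
    rw [if_neg hN0, mul_zero, sub_zero, add_mul]
    simp only [i1, i2, ite_mul, zero_mul]
  rw [Finset.sum_congr rfl key, Finset.sum_add_distrib, Finset.sum_ite_eq', Finset.sum_ite_eq',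
    if_pos (Finset.mem_range.2 (by omega)), if_pos (Finset.mem_range.2 hl0'), hN, hd l0 hl0 hl0', ← hN,
    ← two_mul] at h0
  simp only [mul_eq_zero, OfNat.ofNat_ne_zero, Nat.cast_eq_zero, false_or] at h0
  exact h0.resolve_left (by omega)

end Sums

/-- The shape of a family of small generalized characters with mutual products one. -/
theorem coherent {α : Type*} [DecidableEq α] {m : ℕ} (hm : 2 ≤ m) (hm4 : m ≠ 3) (S : ℕ → Finset α) (c : ℕ → α → ℤ) (d : α → ℤ)
    (hd : ∀ x, 1 ≤ d x)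
    (hcard : ∀ j, 1 ≤ j → j < m → (S j).card = 2) (hcardm : (S m).card = 3)
    (hpm : ∀ j, 1 ≤ j → j ≤ m → ∀ x ∈ S j, c j x = 1 ∨ c j x = -1)
    (hprod : ∀ i j, 1 ≤ i → i ≤ m → 1 ≤ j → j ≤ m → i ≠ j → ∑ x ∈ S i ∩ S j, c i x * c j x = 1)
    (hdeg : ∀ j, 1 ≤ j → j ≤ m → ∑ x ∈ S j, c j x * d x = 1) :
    ∃ (a : α) (b : ℕ → α) (e f : α), (∀ j, 1 ≤ j → j < m → S j = {a, b j} ∧ c j a = c 1 a ∧ c j (b j) = -c 1 a) ∧
      S m = {a, e, f} ∧ c m a = c 1 a ∧ a ≠ e ∧ a ≠ f ∧ e ≠ f ∧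
      (∀ j, 1 ≤ j → j < m → b j ≠ a ∧ b j ≠ e ∧ b j ≠ f) ∧
      (∀ i j, 1 ≤ i → i < m → 1 ≤ j → j < m → b i = b j → i = j) := by
  -- two members share exactly one constituent
  have hone : ∀ i j, 1 ≤ i → i < m → 1 ≤ j → j ≤ m → i ≠ j → ∃ x, S i ∩ S j = {x} ∧ c i x = c j x := by
    intro i j hi him hj hjm hne
    have hs := hprod i j hi him.le hj hjm hne
    have hle : (S i ∩ S j).card ≤ 2 := (hcard i hi him) ▸ Finset.card_le_card Finset.inter_subset_left
    have hterm : ∀ x ∈ S i ∩ S j, c i x * c j x = 1 ∨ c i x * c j x = -1 := fun x hx => by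
      obtain ⟨h1, h2⟩ := Finset.mem_inter.1 hx
      rcases hpm i hi him.le x h1 with e | e <;> rcases hpm j hj hjm x h2 with e' | e' <;> simp [e, e']
    obtain h0 | h1 | h2 : (S i ∩ S j).card = 0 ∨ (S i ∩ S j).card = 1 ∨ (S i ∩ S j).card = 2 := by omega
    · rw [Finset.card_eq_zero.1 h0] at hs; simp at hs
    · obtain ⟨x, hx⟩ := Finset.card_eq_one.1 h1
      rw [hx, Finset.sum_singleton] at hs
      have hxm : x ∈ S i ∩ S j := by rw [hx]; exact Finset.mem_singleton_self x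
      refine ⟨x, hx, ?_⟩
      rcases hpm i hi him.le x (Finset.mem_inter.1 hxm).1 with e | e <;> rw [e] at hs ⊢ <;> omega
    · obtain ⟨x, y, hxy, hxy'⟩ := Finset.card_eq_two.1 h2
      rw [hxy', Finset.sum_pair hxy] at hs
      have hx : x ∈ S i ∩ S j := by rw [hxy']; simp
      have hy : y ∈ S i ∩ S j := by rw [hxy']; simp
      rcases hterm x hx with e | e <;> rcases hterm y hy with e' | e' <;> rw [e, e'] at hs <;> omega
  -- a small member has constituents of opposite signs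
  have hpair : ∀ j, 1 ≤ j → j < m → ∀ x ∈ S j, ∃ y, S j = {x, y} ∧ x ≠ y ∧ c j y = -c j x := by
    intro j hj hjm x hx
    obtain ⟨y, hy⟩ := Finset.card_eq_one.1 (show ((S j).erase x).card = 1 by
      rw [Finset.card_erase_of_mem hx, hcard j hj hjm])
    have hS : S j = {x, y} := by rw [← Finset.insert_erase hx, hy]
    have hxy : x ≠ y := fun e => by
      have : y ∈ (S j).erase x := by rw [hy]; exact Finset.mem_singleton_self y
      exact Finset.ne_of_mem_erase this e.symm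
    refine ⟨y, hS, hxy, ?_⟩
    have h := hdeg j hj hjm.le
    rw [hS, Finset.sum_pair hxy] at h
    have := hd x
    have := hd y
    rcases hpm j hj hjm.le x hx with e | e <;> rcases hpm j hj hjm.le y (by rw [hS]; simp) with e' | e' <;>
      rw [e, e'] at h ⊢ <;> omega
  obtain ⟨a, ha, hca⟩ := hone 1 m le_rfl (by omega) (by omega) le_rfl (by omega)
  have ha' : a ∈ S 1 ∩ S m := by rw [ha]; exact Finset.mem_singleton_self a
  obtain ⟨ha1, ham⟩ := Finset.mem_inter.1 ha'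
  obtain ⟨b1, hS1, hab1, hcb1⟩ := hpair 1 le_rfl (by omega) a ha1
  have hall : ∀ j, 1 ≤ j → j < m → a ∈ S j := by
    intro j hj hjm
    by_contra hna
    have hj1 : j ≠ 1 := fun e => hna (e ▸ ha1)
    obtain ⟨x, hx, hcx⟩ := hone 1 j le_rfl (by omega) hj hjm.le hj1.symm
    have hxm : x ∈ S 1 ∩ S j := by rw [hx]; exact Finset.mem_singleton_self x
    obtain ⟨hx1, hxj⟩ := Finset.mem_inter.1 hxm
    have hxb : x = b1 := by
      rw [hS1, Finset.mem_insert, Finset.mem_singleton] at hx1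
      exact hx1.resolve_left fun e => hna (e ▸ hxj)
    subst hxb
    obtain ⟨y, hSj, hby, hcy⟩ := hpair j hj hjm x hxj
    have hb1m : x ∉ S m := fun h => hab1 (Finset.mem_singleton.1 (ha ▸ Finset.mem_inter.2 ⟨hx1, h⟩)).symm
    have key : ∀ i, 1 ≤ i → i < m → i ≠ 1 → a ∉ S i → ∀ w, S i = {x, w} → x ≠ w → c i w = -c i x →
        c i x = -c 1 a → w ∈ S m ∧ c m w = c 1 a := by
      intro i hi him hi1 hnai w hSi hxw hcw hcix
      obtain ⟨z, hz, hcz⟩ := hone i m hi him (by omega) le_rfl (by omega)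
      have hzm : z ∈ S i ∩ S m := by rw [hz]; exact Finset.mem_singleton_self z
      obtain ⟨hzi, hzm⟩ := Finset.mem_inter.1 hzm
      rw [hSi, Finset.mem_insert, Finset.mem_singleton] at hzi
      rcases hzi with rfl | rfl
      · exact absurd hzm hb1m
      · exact ⟨hzm, by rw [← hcz, hcw, hcix, neg_neg]⟩
    have hcjx : c j x = -c 1 a := hcx.symm.trans hcb1
    obtain ⟨hym, hcmy⟩ := key j hj hjm hj1 hna y hSj hby hcy hcjx
    obtain ⟨i, hi, him, hi1, hij⟩ : ∃ i, 1 ≤ i ∧ i < m ∧ i ≠ 1 ∧ i ≠ j := by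
      by_cases h2 : j = 2
      · exact ⟨3, by omega, by omega, by omega, by omega⟩
      · exact ⟨2, by omega, by omega, by omega, by omega⟩
    obtain ⟨u, hu, hcu⟩ := hone 1 i le_rfl (by omega) hi him.le hi1.symm
    have hum : u ∈ S 1 ∩ S i := by rw [hu]; exact Finset.mem_singleton_self u
    obtain ⟨hu1, hui⟩ := Finset.mem_inter.1 hum
    obtain ⟨v, hv, hcv⟩ := hone i j hi him hj hjm.le hij
    have hvm : v ∈ S i ∩ S j := by rw [hv]; exact Finset.mem_singleton_self v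
    obtain ⟨hvi, hvj⟩ := Finset.mem_inter.1 hvm
    rw [hS1, Finset.mem_insert, Finset.mem_singleton] at hu1
    obtain ⟨w, hSi, huw, hcw⟩ := hpair i hi him u hui
    rcases hu1 with rfl | rfl
    · -- then the other constituent lies in the third member with the wrong sign
      rw [hSi, Finset.mem_insert, Finset.mem_singleton] at hvi
      rcases hvi with rfl | rfl
      · exact hna hvj
      rw [hSj, Finset.mem_insert, Finset.mem_singleton] at hvj
      rcases hvj with rfl | rfl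
      · refine huw ?_
        have hmem : v ∈ S 1 ∩ S i := Finset.mem_inter.2 ⟨hx1, by rw [hSi]; simp⟩
        rw [hu] at hmem
        exact (Finset.mem_singleton.1 hmem).symm
      · have h1 : c j v = c 1 u := by rw [hcy, hcjx, neg_neg]
        have h2 : c i v = -c 1 u := by rw [hcw, hcu]
        have h3 := hpm 1 le_rfl (by omega) u ha1
        omega
    · have hnai : a ∉ S i := fun h => hab1 (by
        have hmem : a ∈ S 1 ∩ S i := Finset.mem_inter.2 ⟨ha1, h⟩
        rw [hu] at hmem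
        exact Finset.mem_singleton.1 hmem)
      have hcix : c i u = -c 1 a := hcu.symm.trans hcb1
      obtain ⟨hwm, hcmw⟩ := key i hi him hi1 hnai w hSi huw hcw hcix
      have hwy : w ≠ y := by
        rintro rfl
        have hmem : w ∈ S i ∩ S j := Finset.mem_inter.2 ⟨by rw [hSi]; simp, by rw [hSj]; simp⟩
        rw [hv, Finset.mem_singleton] at hmem
        have hmem' : u ∈ S i ∩ S j := Finset.mem_inter.2 ⟨hui, by rw [hSj]; simp⟩
        rw [hv, Finset.mem_singleton] at hmem'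
        exact huw (hmem'.trans hmem.symm)
      have hay : a ≠ y := fun e => hna (by rw [hSj, e]; simp)
      have haw : a ≠ w := fun e => hnai (by rw [hSi, e]; simp)
      have hSm : S m = {a, y, w} := by
        refine (Finset.eq_of_subset_of_card_le (fun z hz => ?_) ?_).symm
        · simp only [Finset.mem_insert, Finset.mem_singleton] at hz
          rcases hz with rfl | rfl | rfl
          exacts [ham, hym, hwm]
        · rw [hcardm, Finset.card_eq_three.2 ⟨a, y, w, hay, haw, hwy.symm, rfl⟩]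
      have h := hdeg m (by omega) le_rfl
      rw [hSm, Finset.sum_insert (by simp [hay, haw]), Finset.sum_pair hwy.symm, hcmy, hcmw, ← hca] at h
      have := hd a
      have := hd y
      have := hd w
      rcases hpm 1 le_rfl (by omega) a ha1 with e | e <;> rw [e] at h <;> omega
  have hb : ∀ j, ∃ b, 1 ≤ j → j < m → S j = {a, b} ∧ a ≠ b ∧ c j a = c 1 a ∧ c j b = -c 1 a := by
    intro j
    by_cases hj : 1 ≤ j ∧ j < m
    · obtain ⟨b, hS, hne, hc⟩ := hpair j hj.1 hj.2 a (hall j hj.1 hj.2)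
      refine ⟨b, fun _ _ => ?_⟩
      have e : c j a = c 1 a := by
        by_cases hj1 : j = 1
        · rw [hj1]
        obtain ⟨x, hx, hcx⟩ := hone j 1 hj.1 hj.2 le_rfl (by omega) hj1
        have hmem : a ∈ S j ∩ S 1 := Finset.mem_inter.2 ⟨hall j hj.1 hj.2, ha1⟩
        rw [hx, Finset.mem_singleton] at hmem
        rw [hmem, hcx]
      exact ⟨hS, hne, e, by rw [hc, e]⟩
    · exact ⟨a, fun h h' => absurd ⟨h, h'⟩ hj⟩
  choose b hb using hb
  obtain ⟨e, f, hef, he⟩ := Finset.card_eq_two.1 (show ((S m).erase a).card = 2 by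
    rw [Finset.card_erase_of_mem ham, hcardm])
  have hSm : S m = {a, e, f} := by rw [← Finset.insert_erase ham, he]
  have hem : e ∈ (S m).erase a := by rw [he]; simp
  have hfm : f ∈ (S m).erase a := by rw [he]; simp
  refine ⟨a, b, e, f, fun j h h' => ⟨(hb j h h').1, (hb j h h').2.2.1, (hb j h h').2.2.2⟩, hSm, hca.symm,
    (Finset.ne_of_mem_erase hem).symm, (Finset.ne_of_mem_erase hfm).symm, hef, fun j h h' => ?_,
    fun i j hi him hj hjm hij => ?_⟩
  · obtain ⟨hS, hne, -, -⟩ := hb j h h'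
    have hnm : b j ∉ S m := by
      intro hbm
      obtain ⟨x, hx, -⟩ := hone j m h h' (by omega) le_rfl (by omega)
      have h1 : b j ∈ S j ∩ S m := Finset.mem_inter.2 ⟨by rw [hS]; simp, hbm⟩
      have h2 : a ∈ S j ∩ S m := Finset.mem_inter.2 ⟨by rw [hS]; simp, ham⟩
      rw [hx, Finset.mem_singleton] at h1 h2
      exact hne (h2.trans h1.symm)
    exact ⟨hne.symm, fun e' => hnm (e' ▸ Finset.mem_of_mem_erase hem),
      fun e' => hnm (e' ▸ Finset.mem_of_mem_erase hfm)⟩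
  · by_contra hne
    obtain ⟨x, hx, -⟩ := hone i j hi him hj hjm.le hne
    obtain ⟨hSi, hai, -, -⟩ := hb i hi him
    obtain ⟨hSj, -, -, -⟩ := hb j hj hjm
    have h1 : b i ∈ S i ∩ S j := Finset.mem_inter.2 ⟨by rw [hSi]; simp, by rw [hSj, hij]; simp⟩
    have h2 : a ∈ S i ∩ S j := Finset.mem_inter.2 ⟨by rw [hSi]; simp, by rw [hSj]; simp⟩
    rw [hx, Finset.mem_singleton] at h1 h2
    exact hai (h2.trans h1.symm)

variable {G : Type u} [Group G] [Fintype G] [Fact (Nat.Prime 2)]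
variable {P : Sylow 2 G} {σ τ : G} {k : ℕ} (D : Data P σ τ k)
variable {ζ : ℂ} (hζ : IsPrimitiveRoot ζ (2 ^ (k + 2)))

include D

theorem apply_symm (χ : IrrCharacter G) (l : ℕ) :
    (χ : G → ℂ) (σ ^ l)⁻¹ = (χ : G → ℂ) (σ ^ l) := by
  rw [← tau_conj D (pow_mem (Subgroup.mem_zpowers σ) l)]
  nth_rewrite 2 [← tau_inv D]
  exact CfsgLib.CharBasics.isClassFunction (isCharacter_of_irr χ.2) _ _

/-- The central involution has nonzero value on the principal block. -/
theorem apply_J_ne_zero {M : Ideal AlgInt} (hM : IsPModular 2 M) {χ : IrrCharacter G}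
    (hχ : χ ∈ principalBlock M G) : (χ : G → ℂ) (σ ^ 2 ^ (k + 1)) ≠ 0 := by
  intro h
  have h1 : MemLocalIdeal M (centralChar (fun _ : G => (1 : ℂ)) (σ ^ 2 ^ (k + 1)) -
      centralChar (χ : G → ℂ) (σ ^ 2 ^ (k + 1))) := hχ _
  simp only [centralChar, h, mul_zero, zero_div, sub_zero, mul_one, div_one] at h1
  exact P.not_dvd_index (((Blocks.memLocalIdeal_natCast_iff hM _).1 h1).trans
    (Subgroup.index_dvd_of_le (P_le_H D)))

include hζ

/-- The principal block. -/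
theorem principal_block {M : Ideal AlgInt} (hM : IsPModular 2 M) :
    Nat.card (principalBlock M G) = 3 + 2 ^ (k + 1) ∧
    ∃ (χ₁ χ₂ χ₃ : IrrCharacter G) (χ' : Fin (2 ^ (k + 1) - 1) → IrrCharacter G) (δ₁ δ₂ δ₃ : ℤ),
      (δ₁ = 1 ∨ δ₁ = -1) ∧ (δ₂ = 1 ∨ δ₂ = -1) ∧ (δ₃ = 1 ∨ δ₃ = -1) ∧ Function.Injective χ' ∧
      (χ₁ : G → ℂ) ≠ (fun _ => 1) ∧ (χ₂ : G → ℂ) ≠ (fun _ => 1) ∧ (χ₃ : G → ℂ) ≠ (fun _ => 1) ∧
      χ₁ ≠ χ₂ ∧ χ₁ ≠ χ₃ ∧ χ₂ ≠ χ₃ ∧
      (∀ j, χ' j ≠ χ₁ ∧ χ' j ≠ χ₂ ∧ χ' j ≠ χ₃ ∧ (χ' j : G → ℂ) ≠ (fun _ => 1)) ∧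
      principalBlock M G = {χ : IrrCharacter G |
        (χ : G → ℂ) = (fun _ => 1) ∨ χ = χ₁ ∨ χ = χ₂ ∨ χ = χ₃ ∨ ∃ j, χ = χ' j} ∧
      (∀ l : ℕ, 0 < l → l < 2 ^ (k + 2) → (χ₁ : G → ℂ) (σ ^ l) = δ₁ ∧
        (χ₂ : G → ℂ) (σ ^ l) = δ₂ * (-1) ^ (l + 1) ∧ (χ₃ : G → ℂ) (σ ^ l) = δ₃ * (-1) ^ (l + 1) ∧
        ∀ j : Fin (2 ^ (k + 1) - 1),
          (χ' j : G → ℂ) (σ ^ l) = δ₁ * (ζ ^ (((j : ℕ) + 1) * l) + (ζ ^ (((j : ℕ) + 1) * l))⁻¹)) ∧
      ∀ ρ : G, Odd (orderOf ρ) → ∀ j : Fin (2 ^ (k + 1) - 1),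
        1 + δ₁ * (χ₁ : G → ℂ) ρ = -δ₂ * (χ₂ : G → ℂ) ρ - δ₃ * (χ₃ : G → ℂ) ρ ∧
        1 + δ₁ * (χ₁ : G → ℂ) ρ = δ₁ * (χ' j : G → ℂ) ρ := by
  haveI : Fintype (IrrCharacter G) := @Fintype.ofFinite _ finite_irrCharacter
  set N := 2 ^ (k + 2) with hN
  set m := 2 ^ (k + 1) with hm
  have hNm : N = 2 * m := by rw [hN, hm, pow_succ']
  have hm2 : 2 ≤ m := by rw [hm, pow_succ]; have := Nat.one_le_two_pow (n := k); omega
  have hm3 : m ≠ 3 := by rw [hm, pow_succ]; omega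
  have hN0 : (N : ℂ) ≠ 0 := Nat.cast_ne_zero.2 (by omega)
  have hP : (Nat.card (P : Subgroup G) : ℂ) = 2 * (N : ℂ) := by rw [card_P D]; push_cast [hN]; ring
  -- divisibility by the order of the rotation group
  have hdiv : ∀ a : ℤ, -(N : ℤ) < a → a < N → ((N : ℤ) ∣ a ↔ a = 0) := fun a h1 h2 =>
    ⟨fun h => Int.eq_zero_of_abs_lt_dvd h (by rw [abs_lt]; exact ⟨h1, h2⟩), fun e => e ▸ dvd_zero _⟩
  have hdiv2 : ∀ a : ℤ, 0 < a → a ≤ N → ((N : ℤ) ∣ a ↔ a = N) := fun a h1 h2 =>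
    ⟨fun h => le_antisymm h2 (Int.le_of_dvd h1 h), fun e => e ▸ dvd_refl _⟩
  -- the sums against the standard functions
  have hc1 : ∀ j, 1 ≤ j → j ≤ m → ∑ l ∈ Finset.range N, rotVal ζ j l = -(2 * (N : ℂ)) := by
    intro j hj hjm
    have h := sum_rotVal hζ j 0
    simp only [zpow_zero, one_pow, mul_one, add_zero, ← hN] at h
    rw [h, if_neg, if_neg, if_pos (dvd_zero _)]
    · ring
    · rw [hdiv _ (by omega) (by omega)]; omega
    · rw [hdiv _ (by omega) (by omega)]; omega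
  have hc2 : ∀ j, 1 ≤ j → j ≤ m →
      ∑ l ∈ Finset.range N, rotVal ζ j l * (-1) ^ l = if j = m then 2 * (N : ℂ) else 0 := by
    intro j hj hjm
    have h := sum_rotVal hζ j ((m : ℕ) : ℤ)
    rw [hm, neg_one_eq hζ] at h
    rw [← hm, ← hN] at h
    rw [h, if_neg (by rw [hdiv _ (by omega) (by omega)]; omega : ¬ (N : ℤ) ∣ (m : ℤ))]
    by_cases hjm' : j = m
    · rw [if_pos hjm', if_pos, if_pos]
      · ring
      · rw [hdiv _ (by omega) (by omega)]; omega
      · rw [hdiv2 _ (by omega) (by omega)]; omega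
    · rw [if_neg hjm', if_neg, if_neg]
      · ring
      · rw [hdiv _ (by omega) (by omega)]; omega
      · rw [hdiv2 _ (by omega) (by omega)]; omega
  have hc3 : ∀ i j, 1 ≤ i → i ≤ m → 1 ≤ j → j ≤ m →
      ∑ l ∈ Finset.range N, rotVal ζ j l * ((ζ ^ (i : ℤ)) ^ l + (ζ ^ (-(i : ℤ))) ^ l)
        = (if i = j then 2 * (N : ℂ) else 0) + (if i = m ∧ j = m then 2 * (N : ℂ) else 0) := by
    intro i j hi him hj hjm
    simp only [mul_add, Finset.sum_add_distrib]
    rw [hN, sum_rotVal hζ, sum_rotVal hζ, ← hN,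
      if_neg (by rw [hdiv _ (by omega) (by omega)]; omega : ¬ (N : ℤ) ∣ (i : ℤ)),
      if_neg (by rw [hdiv _ (by omega) (by omega)]; omega : ¬ (N : ℤ) ∣ -(i : ℤ))]
    have e1 : ((N : ℤ) ∣ (j : ℤ) + i) ↔ (i = m ∧ j = m) := by rw [hdiv2 _ (by omega) (by omega)]; omega
    have e2 : ((N : ℤ) ∣ -(j : ℤ) + i) ↔ i = j := by rw [hdiv _ (by omega) (by omega)]; omega
    have e3 : ((N : ℤ) ∣ (j : ℤ) + -(i : ℤ)) ↔ i = j := by rw [hdiv _ (by omega) (by omega)]; omega
    have e4 : ((N : ℤ) ∣ -(j : ℤ) + -(i : ℤ)) ↔ (i = m ∧ j = m) := by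
      rw [← neg_add, dvd_neg, e1]
    simp only [e1, e2, e3, e4]
    split_ifs <;> ring
  have hww : ∀ i j, 1 ≤ i → i ≤ m → 1 ≤ j → j ≤ m → ∑ l ∈ Finset.range N, rotVal ζ j l * rotVal ζ i l
      = (if i = j then 2 * (N : ℂ) else 0) + (if i = m ∧ j = m then 2 * (N : ℂ) else 0) + 4 * (N : ℂ) := by
    intro i j hi him hj hjm
    have e : ∀ l, rotVal ζ j l * rotVal ζ i l =
        rotVal ζ j l * ((ζ ^ (i : ℤ)) ^ l + (ζ ^ (-(i : ℤ))) ^ l) - 2 * rotVal ζ j l := fun l => by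
      rw [show rotVal ζ i l = (ζ ^ (i : ℤ)) ^ l + (ζ ^ (-(i : ℤ))) ^ l - 2 from rfl]
      ring
    rw [Finset.sum_congr rfl fun l _ => e l, Finset.sum_sub_distrib, hc3 i j hi him hj hjm, ← Finset.mul_sum,
      hc1 j hj hjm]
    ring
  -- inner products
  have hinn : ∀ j (χ : IrrCharacter G), χ ∈ principalBlock M G →
      2 * (N : ℂ) * classInner (rotChar D hζ j) (χ : G → ℂ) = ∑ l ∈ Finset.range N, rotVal ζ j l * (χ : G → ℂ) (σ ^ l) := by
    intro j χ hχ
    rw [inner_principal D hζ j hM hχ, hP, ← mul_assoc, mul_inv_cancel₀ (mul_ne_zero two_ne_zero hN0), one_mul]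
    refine Finset.sum_congr rfl fun l _ => ?_
    rw [← apply_inv (isCharacter_of_irr χ.2), apply_symm D]
  have honeB : (oneChar : IrrCharacter G) ∈ principalBlock M G := Blocks.oneChar_mem_principal hM
  have hItriv : ∀ j, 1 ≤ j → j ≤ m →
      classInner (rotChar D hζ j) ((oneChar : IrrCharacter G) : G → ℂ) = ((-1 : ℤ) : ℂ) := by
    intro j hj hjm
    refine mul_left_cancel₀ (mul_ne_zero two_ne_zero hN0) ?_
    rw [hinn j oneChar honeB]
    simp only [oneChar_apply, mul_one]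
    rw [hc1 j hj hjm]
    push_cast; ring
  have hII : ∀ i j, 1 ≤ i → i ≤ m → 1 ≤ j → j ≤ m → classInner (rotChar D hζ i) (rotChar D hζ j)
      = (if i = j then (1 : ℂ) else 0) + (if i = m ∧ j = m then 1 else 0) + 2 := by
    intro i j hi him hj hjm
    rw [inner_rotChar D hζ i j, hP]
    simp only [conj_rotVal hζ]
    rw [← hN, hww j i hj hjm hi him]
    simp only [eq_comm (a := j) (b := i), and_comm (a := j = m)]
    field_simp
    split_ifs <;> ring
  have hE : ∀ j, ∃ (S : Finset (IrrCharacter G)) (c : IrrCharacter G → ℤ), 1 ≤ j → j ≤ m →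
      S.card = (if j = m then 3 else 2) ∧ oneChar ∉ S ∧
      (∀ χ ∈ S, c χ = 1 ∨ c χ = -1) ∧ (∀ χ ∈ S, classInner (rotChar D hζ j) (χ : G → ℂ) = (c χ : ℂ)) ∧
      (∀ χ, χ ∉ S → χ ≠ oneChar → classInner (rotChar D hζ j) (χ : G → ℂ) = 0) ∧
      ∀ g, rotChar D hζ j g = ((-1 : ℤ) : ℂ) + ∑ χ ∈ S, (c χ : ℂ) * (χ : G → ℂ) g := by
    intro j
    by_cases hj : 1 ≤ j ∧ j ≤ m
    · obtain ⟨S, c, h⟩ := exists_small_expansion (rotChar_mem_genChar D hζ j)
        (CharBasics.isClassFunction_indFun _ _) (c₀ := -1) (N := if j = m then 3 else 2) (by split_ifs <;> omega)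
        (hItriv j hj.1 hj.2) (by
          rw [hII j j hj.1 hj.2 hj.1 hj.2, if_pos rfl]
          split_ifs with h1 h2 h2 <;> norm_num
          all_goals omega)
      exact ⟨S, c, fun _ _ => h⟩
    · exact ⟨∅, 0, fun h h' => absurd ⟨h, h'⟩ hj⟩
  choose S c hSc using hE
  have hprod : ∀ i j, 1 ≤ i → i ≤ m → 1 ≤ j → j ≤ m → i ≠ j → ∑ x ∈ S i ∩ S j, c i x * c j x = 1 := by
    intro i j hi him hj hjm hne
    obtain ⟨-, hoi, -, hini, houti, -⟩ := hSc i hi him
    obtain ⟨-, hoj, -, -, -, hexpj⟩ := hSc j hj hjm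
    have h := hII i j hi him hj hjm
    rw [if_neg hne, if_neg (fun e => hne (e.1.trans e.2.symm))] at h
    rw [show rotChar D hζ j = ∑ χ : IrrCharacter G, (if χ = oneChar then (-1 : ℂ) else
        if χ ∈ S j then (c j χ : ℂ) else 0) • (χ : G → ℂ) from funext fun g => by
      rw [hexpj g, Finset.sum_apply, ← Finset.add_sum_erase _ _ (Finset.mem_univ (oneChar : IrrCharacter G))]
      simp only [Pi.smul_apply, smul_eq_mul, if_pos rfl, oneChar_apply, mul_one, Int.cast_neg, Int.cast_one]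
      congr 1
      rw [← Finset.sum_subset (s₁ := S j) (fun x hx => Finset.mem_erase.2 ⟨fun (e : x = oneChar) => hoj (e ▸ hx), Finset.mem_univ _⟩)
        (fun x hx hno => by rw [if_neg (Finset.ne_of_mem_erase hx), if_neg hno, zero_mul])]
      exact Finset.sum_congr rfl fun x hx => by rw [if_neg (fun e => hoj (by rw [e] at hx; exact hx)), if_pos hx],
      classInner_sum_right] at h
    have h' : ∑ χ : IrrCharacter G, (if χ = oneChar then (1 : ℂ) else
        if χ ∈ S i ∩ S j then ((c i χ * c j χ : ℤ) : ℂ) else 0) = 0 + 0 + 2 := by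
      rw [← h]
      refine Finset.sum_congr rfl fun χ _ => ?_
      rw [classInner_comm ((_ : ℂ) • (χ : G → ℂ)) (rotChar D hζ i), classInner_smul_left, map_mul, ← classInner_comm]
      by_cases h1 : χ = oneChar
      · rw [if_pos h1, if_pos h1, h1, hItriv i hi him]; simp
      · rw [if_neg h1, if_neg h1]
        by_cases hxj : χ ∈ S j
        · rw [if_pos hxj, map_intCast]
          by_cases hxi : χ ∈ S i
          · rw [if_pos (Finset.mem_inter.2 ⟨hxi, hxj⟩), hini χ hxi]; push_cast; ring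
          · rw [if_neg (fun e => hxi (Finset.mem_inter.1 e).1), houti χ hxi h1, mul_zero]
        · rw [if_neg hxj, if_neg (fun e => hxj (Finset.mem_inter.1 e).2), map_zero, zero_mul]
    rw [← Finset.add_sum_erase _ _ (Finset.mem_univ (oneChar : IrrCharacter G)), if_pos rfl,
      ← Finset.sum_subset (s₁ := S i ∩ S j)
        (fun x hx => Finset.mem_erase.2 ⟨fun (e : x = oneChar) => hoi (e ▸ (Finset.mem_inter.1 hx).1), Finset.mem_univ _⟩)
        (fun x hx hno => by rw [if_neg (Finset.ne_of_mem_erase hx), if_neg hno]),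
      Finset.sum_congr rfl (g := fun x => ((c i x * c j x : ℤ) : ℂ))
        (fun x hx => by rw [if_neg (fun e => hoi (by rw [e] at hx; exact (Finset.mem_inter.1 hx).1)), if_pos hx]),
      ← Int.cast_sum] at h'
    refine Int.cast_injective (α := ℂ) ?_
    push_cast at h' ⊢
    linear_combination h'
  have hdeg : ∀ j, 1 ≤ j → j ≤ m → ∑ x ∈ S j, c j x * (charDegree (x : G → ℂ) : ℤ) = 1 := by
    intro j hj hjm
    have h := (hSc j hj hjm).2.2.2.2.2 1
    rw [rotChar_regular D hζ j (by rw [orderOf_one]; norm_num)] at h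
    refine Int.cast_injective (α := ℂ) ?_
    push_cast at h ⊢
    rw [Finset.sum_congr rfl fun x _ => by rw [apply_one (isCharacter_of_irr x.2)]] at h
    linear_combination -h
  obtain ⟨a, b, e, f, hS, hSm, hcma, hae, haf, hef, hbne, hbinj⟩ :=
    coherent hm2 hm3 S c (fun x : IrrCharacter G => (charDegree (x : G → ℂ) : ℤ))
    (fun x => by have := charDegree_pos x.2; omega)
    (fun j h h' => by rw [(hSc j h h'.le).1, if_neg (by omega)])
    (by rw [(hSc m (by omega) le_rfl).1, if_pos rfl])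
    (fun j h h' => (hSc j h h').2.2.1) hprod hdeg
  obtain ⟨-, hom, hpmm, hinm, houtm, hexpm⟩ := hSc m (by omega) le_rfl
  have hmem : ∀ j, 1 ≤ j → j ≤ m → ∀ x ∈ S j, x ∈ principalBlock M G := by
    intro j hj hjm x hx
    by_contra hB
    obtain ⟨-, -, hpm, hin, -, -⟩ := hSc j hj hjm
    have h := (hin x hx).symm.trans (inner_notMem D hζ j hM hB)
    rcases hpm x hx with e | e <;> rw [e] at h <;> norm_num at h
  have haS : a ∈ S m := by rw [hSm]; simp
  have heS : e ∈ S m := by rw [hSm]; simp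
  have hfS : f ∈ S m := by rw [hSm]; simp
  -- all coefficients
  have hcoef : ∀ j, 1 ≤ j → j ≤ m → ∀ (χ : IrrCharacter G) (v : ℤ), χ ≠ oneChar →
      (χ ∈ S j → v = c j χ) → (χ ∉ S j → v = 0) → classInner (rotChar D hζ j) (χ : G → ℂ) = (v : ℂ) := by
    intro j hj hjm χ v h1 hyes hno
    obtain ⟨-, -, -, hin, hout, -⟩ := hSc j hj hjm
    by_cases hx : χ ∈ S j
    · rw [hin χ hx, hyes hx]
    · rw [hout χ hx h1, hno hx, Int.cast_zero]
  have hval : ∀ (χ : IrrCharacter G), χ ∈ principalBlock M G → ∀ v : ℕ → ℂ,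
      (∀ l, 0 < l → l < N → v (N - l) = v l) →
      (∀ j, 1 ≤ j → j ≤ m →
        ∑ l ∈ Finset.range N, rotVal ζ j l * v l = 2 * (N : ℂ) * classInner (rotChar D hζ j) (χ : G → ℂ)) →
      ∀ l, 0 < l → l < N → (χ : G → ℂ) (σ ^ l) = v l := by
    intro χ hχ v hv hsum l hl hl'
    refine sub_eq_zero.1 (eq_zero_of_sums hζ (d := fun l => (χ : G → ℂ) (σ ^ l) - v l) (fun i hi hi' => ?_)
      (fun j hj hjm => ?_) l hl hl')
    · rw [hv i hi hi']
      congr 1
      rw [show σ ^ (2 ^ (k + 2) - i) = (σ ^ i)⁻¹ from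
        eq_inv_of_mul_eq_one_left (by rw [← pow_add, Nat.sub_add_cancel hi'.le, ← D.hord, pow_orderOf_eq_one]),
        apply_symm D]
    · simp only [mul_sub, Finset.sum_sub_distrib]
      rw [← hN, ← hinn j χ hχ, hsum j hj hjm, sub_self]
  have hζN : ∀ (s : ℤ) (l : ℕ), l ≤ N → (ζ ^ s) ^ (N - l) = (ζ ^ (-s)) ^ l := by
    intro s l hl
    have h0 : ζ ^ s ≠ 0 := zpow_ne_zero _ (hζ.ne_zero (by omega))
    rw [pow_sub₀ _ h0 hl, zpow_neg, inv_pow]
    rw [show (ζ ^ s) ^ N = 1 by rw [← zpow_natCast, ← zpow_mul, mul_comm, zpow_mul, zpow_natCast, hζ.pow_eq_one, one_zpow],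
      one_mul]
  have hsgn : ∀ l : ℕ, l ≤ N → (-1 : ℂ) ^ (N - l + 1) = (-1) ^ (l + 1) := by
    intro l hl
    rw [pow_succ, pow_succ, pow_sub₀ (-1 : ℂ) (by norm_num) hl, hNm, pow_mul, neg_one_sq, one_pow, one_mul,
      ← inv_pow]
    norm_num
  have hne1 : ∀ j, 1 ≤ j → j ≤ m → ∀ x ∈ S j, x ≠ oneChar := fun j hj hjm x hx e =>
    (hSc j hj hjm).2.1 (e ▸ hx)
  have hinj1 : ∀ x : IrrCharacter G, x ≠ oneChar → (x : G → ℂ) ≠ (fun _ => 1) := fun x hx e => hx (Subtype.ext e)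
  set δ₁ : ℤ := -c 1 a with hδ₁
  have hjS : ∀ j : Fin (m - 1), 1 ≤ (j : ℕ) + 1 ∧ (j : ℕ) + 1 < m := fun j => by have := j.2; omega
  have ha1 : a ∈ S 1 := by rw [(hS 1 le_rfl (by omega)).1]; simp
  have hbS : ∀ j, 1 ≤ j → j < m → b j ∈ S j := fun j h h' => by rw [(hS j h h').1]; simp
  have hB : principalBlock M G = {χ : IrrCharacter G |
        (χ : G → ℂ) = (fun _ => 1) ∨ χ = a ∨ χ = e ∨ χ = f ∨ ∃ j : Fin (m - 1), χ = b ((j : ℕ) + 1)} := by
    ext χ
    constructor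
    · intro hχ
      by_contra hno
      simp only [Set.mem_setOf_eq, not_or, not_exists] at hno
      obtain ⟨h1, h2, h3, h4, h5⟩ := hno
      have hne : χ ≠ oneChar := fun e => h1 (by rw [e]; rfl)
      have hz := hval χ hχ (fun _ => 0) (fun _ _ _ => rfl) (fun j hj hjm => ?_) (2 ^ (k + 1))
        (pow_pos two_pos _) (by omega)
      · exact apply_J_ne_zero D hM hχ hz
      · rw [hcoef j hj hjm χ 0 hne (fun hx => absurd hx ?_) (fun _ => rfl)]
        · simp
        rcases eq_or_lt_of_le hjm with rfl | hlt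
        · rw [hSm]; simp [h2, h3, h4]
        · rw [(hS j hj hlt).1]
          have := h5 ⟨j - 1, by omega⟩
          simp only [Nat.sub_add_cancel hj] at this
          simp [h2, this]
    · rintro (h | rfl | rfl | rfl | ⟨j, rfl⟩)
      · rw [show χ = oneChar from Subtype.ext h]; exact honeB
      · exact hmem m (by omega) le_rfl _ haS
      · exact hmem m (by omega) le_rfl _ heS
      · exact hmem m (by omega) le_rfl _ hfS
      · exact hmem _ (hjS j).1 (hjS j).2.le _ (hbS _ (hjS j).1 (hjS j).2)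
  have hinjb : Function.Injective fun j : Fin (m - 1) => b ((j : ℕ) + 1) := fun i j h =>
    Fin.ext (by have := hbinj _ _ (hjS i).1 (hjS i).2 (hjS j).1 (hjS j).2 h; omega)
  refine ⟨?_, a, e, f, fun j => b ((j : ℕ) + 1), δ₁, -c m e, -c m f, ?_, ?_, ?_, hinjb,
    hinj1 a (hne1 m (by omega) le_rfl a haS), hinj1 e (hne1 m (by omega) le_rfl e heS),
    hinj1 f (hne1 m (by omega) le_rfl f hfS), hae, haf, hef,
    fun j => ⟨(hbne _ (hjS j).1 (hjS j).2).1, (hbne _ (hjS j).1 (hjS j).2).2.1, (hbne _ (hjS j).1 (hjS j).2).2.2,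
      hinj1 _ (hne1 _ (hjS j).1 (hjS j).2.le _ (hbS _ (hjS j).1 (hjS j).2))⟩,
    hB, fun l hl hl' => ⟨?_, ?_, ?_, fun j => ?_⟩, fun ρ hρ j => ?_⟩
  · have hcard : principalBlock M G = ↑({oneChar, a, e, f} : Finset (IrrCharacter G)) ∪
        Set.range (fun j : Fin (m - 1) => b ((j : ℕ) + 1)) := by
      rw [hB]
      ext χ
      simp only [Set.mem_union, Finset.coe_insert, Finset.coe_singleton, Set.mem_insert_iff, Set.mem_singleton_iff,
        Set.mem_range, Set.mem_setOf_eq]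
      rw [show ((χ : G → ℂ) = fun _ => 1) ↔ χ = oneChar from
        ⟨fun h => Subtype.ext h, fun h => by rw [h]; rfl⟩]
      constructor
      · rintro (h | h | h | h | ⟨j, h⟩)
        exacts [Or.inl (Or.inl h), Or.inl (Or.inr (Or.inl h)), Or.inl (Or.inr (Or.inr (Or.inl h))),
          Or.inl (Or.inr (Or.inr (Or.inr h))), Or.inr ⟨j, h.symm⟩]
      · rintro ((h | h | h | h) | ⟨j, h⟩)
        exacts [Or.inl h, Or.inr (Or.inl h), Or.inr (Or.inr (Or.inl h)), Or.inr (Or.inr (Or.inr (Or.inl h))),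
          Or.inr (Or.inr (Or.inr (Or.inr ⟨j, h.symm⟩)))]
    rw [hcard, Nat.card_coe_set_eq, Set.ncard_union_eq, Set.ncard_coe_finset, Set.ncard_range_of_injective hinjb,
      Nat.card_fin]
    · have h1a := hne1 m (by omega) le_rfl a haS
      have h1e := hne1 m (by omega) le_rfl e heS
      have h1f := hne1 m (by omega) le_rfl f hfS
      rw [Finset.card_insert_of_notMem (by simp [h1a.symm, h1e.symm, h1f.symm]),
        Finset.card_eq_three.2 ⟨a, e, f, hae, haf, hef, rfl⟩]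
      omega
    · rw [Set.disjoint_left]
      rintro χ h ⟨j, rfl⟩
      have h0 := hbne _ (hjS j).1 (hjS j).2
      have h1 := hne1 _ (hjS j).1 (hjS j).2.le _ (hbS _ (hjS j).1 (hjS j).2)
      simp [h0.1, h0.2.1, h0.2.2, h1] at h
  · rcases (hSc 1 le_rfl (by omega)).2.2.1 a ha1 with h | h <;> simp [hδ₁, h]
  · rcases hpmm e heS with h | h <;> simp [h]
  · rcases hpmm f hfS with h | h <;> simp [h]
  · refine hval a (hmem m (by omega) le_rfl a haS) (fun _ => (δ₁ : ℂ)) (fun _ _ _ => rfl) (fun j hj hjm => ?_) l hl hl'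
    rw [hcoef j hj hjm a (-δ₁) (hne1 m (by omega) le_rfl a haS) (fun _ => ?_) (fun h => absurd ?_ h),
      ← Finset.sum_mul, hc1 j hj hjm]
    · push_cast; ring
    · rcases eq_or_lt_of_le hjm with rfl | hlt
      · rw [hδ₁, neg_neg, hcma]
      · rw [hδ₁, neg_neg, (hS j hj hlt).2.1]
    · rcases eq_or_lt_of_le hjm with rfl | hlt
      · exact haS
      · rw [(hS j hj hlt).1]; simp
  all_goals try
    refine hval _ (hmem m (by omega) le_rfl _ (by first | exact heS | exact hfS))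
      (fun l => ((_ : ℤ) : ℂ) * (-1) ^ (l + 1)) (fun i hi hi' => by simp only [hsgn i hi'.le]) (fun j hj hjm => ?_) l hl hl'
    simp only [pow_succ, mul_neg, mul_one, Finset.sum_neg_distrib, ← mul_assoc,
      mul_comm (rotVal ζ _ _) (((_ : ℤ)) : ℂ)]
    simp only [mul_assoc, ← Finset.mul_sum, hc2 j hj hjm]
    by_cases hjm' : j = m
    · subst hjm'
      rw [if_pos rfl, hcoef m (by omega) le_rfl _ _ (hne1 m (by omega) le_rfl _ (by first | exact heS | exact hfS))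
        (fun _ => rfl) (fun h => absurd (by first | exact heS | exact hfS) h)]
      push_cast; ring
    · rw [if_neg hjm', hcoef j hj hjm _ 0 (hne1 m (by omega) le_rfl _ (by first | exact heS | exact hfS))
        (fun h => absurd h ?_) (fun _ => rfl)]
      · simp
      rw [(hS j hj (by omega)).1]
      have := hbne j hj (by omega)
      simp [hae.symm, haf.symm, this.2.1.symm, this.2.2.symm]
  · set i := (j : ℕ) + 1 with hi
    obtain ⟨hi1, him⟩ := hjS j
    have hb1 := hne1 i hi1 him.le _ (hbS i hi1 him)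
    have h := hval (b i) (hmem i hi1 him.le _ (hbS i hi1 him))
      (fun l => (δ₁ : ℂ) * ((ζ ^ (i : ℤ)) ^ l + (ζ ^ (-(i : ℤ))) ^ l))
      (fun l hl hl' => by simp only [hζN _ l hl'.le, neg_neg, add_comm]) (fun j' hj' hjm' => ?_) l hl hl'
    · rw [h, zpow_neg, zpow_natCast, inv_pow, ← pow_mul]
    simp only [mul_left_comm (rotVal ζ j' _), ← Finset.mul_sum]
    rw [hc3 i j' hi1 him.le hj' hjm', if_neg (show ¬ (i = m ∧ j' = m) by omega)]
    by_cases hij : i = j'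
    · subst hij
      rw [if_pos rfl, hcoef i hi1 him.le (b i) δ₁ hb1 (fun _ => by rw [(hS i hi1 him).2.2]) (fun h => absurd (hbS i hi1 him) h)]
      ring
    · rw [if_neg hij, hcoef j' hj' hjm' (b i) 0 hb1 (fun h => absurd h ?_) (fun _ => rfl)]
      · simp
      rcases eq_or_lt_of_le hjm' with rfl | hlt
      · rw [hSm]
        simp [(hbne i hi1 him).1, (hbne i hi1 him).2.1, (hbne i hi1 him).2.2]
      · rw [(hS j' hj' hlt).1]
        simp only [Finset.mem_insert, Finset.mem_singleton, not_or]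
        exact ⟨(hbne i hi1 him).1, fun e => hij (hbinj i j' hi1 him hj' hlt e)⟩
  · obtain ⟨hi1, him⟩ := hjS j
    have hreg : ¬ 2 ∣ orderOf ρ := fun h => Nat.not_even_iff_odd.2 hρ (even_iff_two_dvd.2 h)
    have e1 := hexpm ρ
    rw [rotChar_regular D hζ m hreg, hSm, Finset.sum_insert (by simp [hae, haf]), Finset.sum_pair hef, hcma] at e1
    have e2 := (hSc _ hi1 him.le).2.2.2.2.2 ρ
    obtain ⟨hSj, hcj1, hcj2⟩ := hS _ hi1 him
    rw [rotChar_regular D hζ _ hreg, hSj, Finset.sum_pair (hbne _ hi1 him).1.symm, hcj1, hcj2] at e2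
    rw [hδ₁] at e2 ⊢
    push_cast at e1 e2 ⊢
    exact ⟨by linear_combination e1, by linear_combination e2⟩

end CfsgLib.ZStar.DihedralRot
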