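import Cfsg.Agent.ZStar.DihedralCount

/-!
The order formula for a dihedral Sylow 2-subgroup with one class of involutions.
-/

set_option autoImplicit false
set_option linter.style.haveILetI false
set_option linter.unusedSectionVars false
set_option linter.deprecated false

namespace CfsgLib.ZStar.Dihedral

open Cfsg CfsgLib.CharBasics CfsgLib.BrauerInd
open scoped ComplexConjugate Classical

universe u

variable {G : Type u} [Group G] [Fintype G] [Fact (Nat.Prime 2)]
variable {P : Sylow 2 G} {σ τ : G} {k : ℕ} (D : Data P σ τ k)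

/-- The rotations of nonzero weight. -/
noncomputable def sect (σ : G) (k : ℕ) : Finset G :=
  Finset.univ.filter fun z => z ∈ Subgroup.zpowers σ ∧ wt k z ≠ 0

include D

omit D in
theorem mem_sect {z : G} : z ∈ sect σ k ↔ z ∈ Subgroup.zpowers σ ∧ wt k z ≠ 0 := by simp [sect]

theorem exists_sect (hc1 : IsConj (σ ^ 2 ^ (k + 1)) τ) (hc2 : IsConj (σ ^ 2 ^ (k + 1)) (σ * τ)) {g : G}
    (hg : phi k g ≠ 0) : ∃ z ∈ sect σ k, IsConj (ppart 2 g) z := by
  obtain ⟨-, -, ⟨a, ha⟩, -, -, -⟩ := part_spec (p := 2) g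
  obtain ⟨Q, hQ⟩ := (IsPGroup.of_card (n := a) (by rw [Nat.card_zpowers, ha]) :
    IsPGroup 2 (Subgroup.zpowers (ppart 2 g))).exists_le_sylow
  obtain ⟨c, hc⟩ := MulAction.exists_smul_eq G Q P
  have hmem : c * ppart 2 g * c⁻¹ ∈ (P : Subgroup G) := by
    rw [← hc, Sylow.coe_subgroup_smul]
    exact Subgroup.smul_mem_pointwise_smul _ _ _ (hQ (Subgroup.mem_zpowers _))
  have hwt : wt k (c * ppart 2 g * c⁻¹) = phi k g := wt_eq k (by rw [← MulAut.conj_apply, MulEquiv.orderOf_eq])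
  rcases mem_cases D hmem with h | ⟨s, hs, e⟩
  · exact ⟨_, mem_sect.2 ⟨h, by rw [hwt]; exact hg⟩, isConj_iff.2 ⟨c, rfl⟩⟩
  · rw [e] at hwt
    have ho := refl_orderOf D hs
    refine ⟨σ ^ 2 ^ (k + 1), mem_sect.2 ⟨J_mem_zp D, ?_⟩, ?_⟩
    · rw [wt_eq k ((J_orderOf D).trans ho.symm), hwt]; exact hg
    · exact (isConj_iff.2 ⟨c, e⟩ : IsConj (ppart 2 g) (τ * s)).trans (conj_of_one_class D hc1 hc2 ho).symm

theorem sect_order {z : G} (hz : z ∈ sect σ k) :
    (orderOf z = 2 ∧ z = σ ^ 2 ^ (k + 1)) ∨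
      (2 < orderOf z ∧ 2 ∣ orderOf z ∧ z ^ (orderOf z / 2) = σ ^ 2 ^ (k + 1)) := by
  obtain ⟨hzz, hw⟩ := mem_sect.1 hz
  have h2 : 2 ∣ orderOf z := by
    rcases wt_ne_zero hw with e | e <;> rw [e] <;> exact dvd_pow_self 2 (by omega)
  by_cases h : orderOf z = 2
  · exact Or.inl ⟨h, eq_J D hzz h⟩
  · refine Or.inr ⟨?_, h2, eq_J D (pow_mem hzz _) (orderOf_pow_orderOf_div (orderOf_pos z).ne' h2)⟩
    have := Nat.le_of_dvd (orderOf_pos z) h2
    omega

theorem sect_mem_P {z : G} (hz : z ∈ sect σ k) : z ∈ (P : Subgroup G) := zp_le D (mem_sect.1 hz).1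

theorem cent_le_H {z : G} (hz : z ∈ sect σ k) {h : G} (hh : Commute h z) :
    h ∈ Subgroup.centralizer ({σ ^ 2 ^ (k + 1)} : Set G) := by
  refine Subgroup.mem_centralizer_singleton_iff.2 ?_
  rcases sect_order D hz with ⟨-, e⟩ | ⟨-, -, e⟩
  · rw [← e]; exact hh.eq
  · rw [← e]; exact (hh.pow_right _).eq

/-- The fibre of the 2-part over a section representative. -/
theorem fiber {z : G} (hz : z ∈ sect σ k) :
    Nat.card {p : G // p ∈ (P : Subgroup G) ∧ Commute p z} * Nat.card {g : G // ppart 2 g = z}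
      = Nat.card (Subgroup.centralizer ({z} : Set G)) := by
  have hzP := sect_mem_P D hz
  have hzp : ∃ j, orderOf z = 2 ^ j := by
    rcases wt_ne_zero (mem_sect.1 hz).2 with e | e <;> exact ⟨_, e⟩
  have e1 : Nat.card {g : G // ppart 2 g = z} = Nat.card {y : G // Commute y z ∧ ¬ 2 ∣ orderOf y} := by
    refine Nat.card_congr
      { toFun := fun g => ⟨prest 2 g.1, by
          have h := (part_spec (p := 2) g.1).2.1
          rw [g.2] at h
          exact h.symm, (part_spec (p := 2) g.1).2.2.2.1⟩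
        invFun := fun y => ⟨z * y.1, (part_unique rfl y.2.1.symm hzp y.2.2).1⟩
        left_inv := fun g => Subtype.ext (by
          show z * prest 2 g.1 = g.1
          conv_lhs => arg 1; rw [← g.2]
          exact (part_spec (p := 2) g.1).1)
        right_inv := fun y => Subtype.ext (part_unique rfl y.2.1.symm hzp y.2.2).2 }
  rw [e1, ← Nat.card_prod]
  refine Nat.card_eq_of_bijective (fun x => (⟨x.1.1 * x.2.1,
    Subgroup.mem_centralizer_singleton_iff.2 (x.1.2.2.mul_left x.2.2.1).eq⟩ : Subgroup.centralizer ({z} : Set G))) ⟨?_, ?_⟩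
  · rintro ⟨⟨p, hp, hpz⟩, y, hyz, hy⟩ ⟨⟨p', hp', hpz'⟩, y', hyz', hy'⟩ h
    have h' : p * y = p' * y' := congrArg Subtype.val h
    have e : pr D ⟨p, P_le_H D hp⟩ * pr D ⟨y, cent_le_H D hz hyz⟩ = pr D ⟨p', P_le_H D hp'⟩ * pr D ⟨y', cent_le_H D hz hyz'⟩ := by
      rw [← map_mul, ← map_mul]
      exact congrArg (pr D) (Subtype.ext h')
    rw [pr_self D hp, pr_self D hp', (pr_eq_one D _).2 hy, (pr_eq_one D _).2 hy', mul_one, mul_one] at e
    subst e
    obtain rfl := mul_left_cancel h'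
    rfl
  · rintro ⟨h, hh⟩
    have hc : Commute h z := Subgroup.mem_centralizer_singleton_iff.1 hh
    set h' : Subgroup.centralizer ({σ ^ 2 ^ (k + 1)} : Set G) := ⟨h, cent_le_H D hz hc⟩ with hh'
    have hpz : Commute (pr D h') z := by
      have := congrArg (pr D) (Subtype.ext hc.eq : h' * ⟨z, P_le_H D hzP⟩ = ⟨z, P_le_H D hzP⟩ * h')
      rwa [map_mul, map_mul, pr_self D hzP] at this
    refine ⟨(⟨pr D h', pr_mem D h', hpz⟩, ⟨(pr D h')⁻¹ * h, hpz.inv_left.mul_left hc, ?_⟩),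
      Subtype.ext (mul_inv_cancel_left _ _)⟩
    have := (pr_eq_one D ((⟨pr D h', P_le_H D (pr_mem D h')⟩ : Subgroup.centralizer ({σ ^ 2 ^ (k + 1)} : Set G))⁻¹ * h')).1
      (by rw [map_mul, map_inv, pr_self D (pr_mem D h'), inv_mul_cancel])
    exact this

theorem sect_mult {z0 : G} (hz0 : z0 ∈ sect σ k) :
    ∑ z ∈ sect σ k, (if IsConj z0 z then Nat.card {p : G // p ∈ (P : Subgroup G) ∧ Commute p z} else 0)
      = Nat.card (P : Subgroup G) := by
  rw [← Finset.sum_filter]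
  obtain ⟨hz0z, hw0⟩ := mem_sect.1 hz0
  have hord : ∀ {z}, IsConj z0 z → orderOf z = orderOf z0 := fun h => by
    obtain ⟨g, rfl⟩ := isConj_iff.1 h
    rw [← MulAut.conj_apply, MulEquiv.orderOf_eq]
  rcases sect_order D hz0 with ⟨h2, hJ⟩ | ⟨h2, hd, hpow⟩
  · have hset : (sect σ k).filter (fun z => IsConj z0 z) = {z0} := by
      ext z
      rw [Finset.mem_filter, Finset.mem_singleton]
      refine ⟨fun h => ?_, fun h => by rw [h]; exact ⟨hz0, IsConj.refl z0⟩⟩
      rw [hJ]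
      exact eq_J D (mem_sect.1 h.1).1 ((hord h.2).trans h2)
    rw [hset, Finset.sum_singleton, hJ]
    exact Nat.card_congr (Equiv.subtypeEquivRight fun p => ⟨fun h => h.1, fun h => ⟨h, J_comm D h⟩⟩)
  · have hne : z0 ≠ z0⁻¹ := by
      intro e
      have := Nat.le_of_dvd two_pos (orderOf_dvd_of_pow_eq_one (x := z0) (n := 2)
        (by rw [pow_two]; nth_rewrite 1 [e]; exact inv_mul_cancel z0))
      omega
    have hset : (sect σ k).filter (fun z => IsConj z0 z) = {z0, z0⁻¹} := by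
      ext z
      rw [Finset.mem_filter, Finset.mem_insert, Finset.mem_singleton]
      constructor
      · rintro ⟨hz, hc⟩
        obtain ⟨g, hg⟩ := isConj_iff.1 hc
        have hgH : g ∈ Subgroup.centralizer ({σ ^ 2 ^ (k + 1)} : Set G) := by
          refine Subgroup.mem_centralizer_singleton_iff.2 (mul_inv_eq_iff_eq_mul.1 ?_)
          conv_lhs => rw [← hpow, ← conj_pow, hg, ← hord hc]
          rcases sect_order D hz with ⟨h2', -⟩ | ⟨-, -, e⟩
          · rw [hord hc] at h2'; omega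
          · exact e
        have hp := conj_pr D hgH (sect_mem_P D hz0) (sect_mem_P D hz) hg
        rcases conj_zp D (pr_mem D ⟨g, hgH⟩) hz0z with h | h <;> rw [h] at hp
        · exact Or.inl hp.symm
        · exact Or.inr hp.symm
      · rintro (e | e) <;> rw [e]
        · exact ⟨hz0, IsConj.refl z0⟩
        · refine ⟨mem_sect.2 ⟨inv_mem hz0z, by rw [wt_eq k (orderOf_inv z0)]; exact hw0⟩,
            isConj_iff.2 ⟨τ, ?_⟩⟩
          rw [tau_inv D, tau_conj D hz0z]
    have hC : ∀ z ∈ ({z0, z0⁻¹} : Finset G), Nat.card {p : G // p ∈ (P : Subgroup G) ∧ Commute p z} = 2 ^ (k + 2) := by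
      intro z hz
      have hzz : z ∈ Subgroup.zpowers σ ∧ 2 < orderOf z := by
        rw [Finset.mem_insert, Finset.mem_singleton] at hz
        rcases hz with rfl | rfl
        · exact ⟨hz0z, h2⟩
        · exact ⟨inv_mem hz0z, by rwa [orderOf_inv]⟩
      rw [← D.hord, ← Nat.card_zpowers]
      refine Nat.card_congr (Equiv.subtypeEquivRight fun p => ⟨fun h => ?_, fun h => ⟨zp_le D h, zp_comm D h hzz.1⟩⟩)
      rcases mem_cases D h.1 with h' | ⟨t, ht, rfl⟩
      · exact h'
      · exfalso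
        have h3 : (τ * t) * z * (τ * t) = z⁻¹ := by
          rw [mul_assoc τ t z, (zp_comm D ht hzz.1).eq]
          calc τ * (z * t) * (τ * t) = τ * (z * t) * τ * t := by group
            _ = _ := by rw [tau_conj D (mul_mem hzz.1 ht), (zp_comm D hzz.1 ht).eq, mul_inv_rev, inv_mul_cancel_right]
        rw [h.2.eq, mul_assoc, refl_sq D ht, mul_one] at h3
        have := Nat.le_of_dvd two_pos (orderOf_dvd_of_pow_eq_one (x := z) (n := 2)
          (by rw [pow_two]; nth_rewrite 1 [h3]; exact inv_mul_cancel z))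
        omega
    rw [hset, Finset.sum_congr rfl hC, Finset.sum_const, Finset.card_pair hne, card_P D, smul_eq_mul]

/-- Sums of functions carried by the sections. -/
theorem sum_section (hc1 : IsConj (σ ^ 2 ^ (k + 1)) τ) (hc2 : IsConj (σ ^ 2 ^ (k + 1)) (σ * τ)) {F : G → ℂ}
    (hcls : IsClassFunction G F) (hsup : ∀ g, phi k g = 0 → F g = 0)
    (hpp : ∀ g, phi k g ≠ 0 → F g = F (ppart 2 g)) :
    (Nat.card (P : Subgroup G) : ℂ) * ∑ g, F g = (Nat.card G : ℂ) * ∑ z ∈ sect σ k, F z := by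
  set w : G → ℂ := fun z => (Nat.card {p : G // p ∈ (P : Subgroup G) ∧ Commute p z} : ℂ) with hw
  have hA : ∀ g, (Nat.card (P : Subgroup G) : ℂ) * F g
      = ∑ z ∈ sect σ k, (if IsConj (ppart 2 g) z then w z * F g else 0) := by
    intro g
    by_cases hg : phi k g = 0
    · simp [hsup g hg]
    obtain ⟨z0, hz0, h0⟩ := exists_sect D hc1 hc2 hg
    rw [← sect_mult D hz0, Nat.cast_sum, Finset.sum_mul]
    refine Finset.sum_congr rfl fun z _ => ?_
    have hiff : IsConj z0 z ↔ IsConj (ppart 2 g) z := ⟨fun h => h0.trans h, fun h => h0.symm.trans h⟩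
    by_cases h : IsConj (ppart 2 g) z
    · rw [if_pos h, if_pos (hiff.2 h)]
    · rw [if_neg h, if_neg (mt hiff.1 h), Nat.cast_zero, zero_mul]
  rw [Finset.mul_sum, Finset.sum_congr rfl fun g _ => hA g, Finset.sum_comm, Finset.mul_sum]
  refine Finset.sum_congr rfl fun z hz => ?_
  have hzw := (mem_sect.1 hz).2
  have hcard : (Nat.card {p : G // p ∈ (P : Subgroup G) ∧ Commute p z})
      * (Finset.univ.filter fun g => IsConj (ppart 2 g) z).card = Nat.card G := by
    have h1 : (Finset.univ.filter fun g => IsConj (ppart 2 g) z).card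
        = Nat.card (conjugatesOf z) * Nat.card {g : G // ppart 2 g = z} := by
      let π : {g : G // IsConj (ppart 2 g) z} → conjugatesOf z := fun g => ⟨ppart 2 g.1, g.2.symm⟩
      rw [← Fintype.card_subtype, ← Nat.card_eq_fintype_card, ← Nat.card_congr (Equiv.sigmaFiberEquiv π), Nat.card_sigma,
        Finset.sum_congr rfl (g := fun _ => Nat.card {g : G // ppart 2 g = z}) (fun v _ => ?_), Finset.sum_const,
        Finset.card_univ, ← Nat.card_eq_fintype_card, smul_eq_mul]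
      obtain ⟨c, hc⟩ := isConj_iff.1 (v.2 : IsConj z v.1)
      have hcv : ∀ g : G, ppart 2 g = z → ppart 2 (c * g * c⁻¹) = v.1 := fun g hg => by
        rw [(part_conj (p := 2) g c).1, hg, hc]
      exact (Nat.card_congr
        { toFun := fun g : {g : G // ppart 2 g = z} => (⟨⟨c * g.1 * c⁻¹, by
            show IsConj (ppart 2 (c * g.1 * c⁻¹)) z
            rw [hcv g.1 g.2]; exact (v.2 : IsConj z v.1).symm⟩, Subtype.ext (hcv g.1 g.2)⟩ : {x // π x = v})
          invFun := fun x => ⟨c⁻¹ * x.1.1 * c⁻¹⁻¹, by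
            rw [(part_conj (p := 2) x.1.1 c⁻¹).1, show ppart 2 x.1.1 = v.1 from congrArg Subtype.val x.2, ← hc]
            group⟩
          left_inv := fun g => Subtype.ext (by group)
          right_inv := fun x => Subtype.ext (Subtype.ext (by group)) }).symm
    rw [h1, ← card_centralizer_mul_class z, ← fiber D hz]
    ring
  rw [← Finset.sum_filter, Finset.sum_congr rfl (g := fun _ => w z * F z) (fun g hg => ?_), Finset.sum_const,
    nsmul_eq_mul, ← mul_assoc, hw, mul_comm ((Finset.card _ : ℕ) : ℂ), ← Nat.cast_mul, hcard]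
  · congr 1
    obtain ⟨c, hc⟩ := isConj_iff.1 (Finset.mem_filter.1 hg).2
    have hne : phi k g ≠ 0 := by
      show wt k (ppart 2 g) ≠ 0
      rw [wt_eq k (show orderOf (ppart 2 g) = orderOf z by rw [← hc, ← MulAut.conj_apply, MulEquiv.orderOf_eq])]
      exact hzw
    rw [hpp g hne, ← hcls (ppart 2 g) c, hc]

/-- Members of the principal block are constant on the sections. -/
theorem section_apply (hc1 : IsConj (σ ^ 2 ^ (k + 1)) τ) (hc2 : IsConj (σ ^ 2 ^ (k + 1)) (σ * τ))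
    {M : Ideal AlgInt} (hM : IsPModular 2 M) {χ : IrrCharacter G} (hχ : χ ∈ principalBlock M G) {g : G}
    (hg : phi k g ≠ 0) : (χ : G → ℂ) g = (χ : G → ℂ) (ppart 2 g) := by
  obtain ⟨z, hz, hconj⟩ := exists_sect D hc1 hc2 hg
  obtain ⟨c, hc⟩ := isConj_iff.1 hconj
  have hcls := CfsgLib.CharBasics.isClassFunction (isCharacter_of_irr χ.2)
  rw [← hcls g c, ← hcls (ppart 2 g) c, hc]
  obtain ⟨h1, h2, ⟨j, hj⟩, h4, -, -⟩ := part_spec (p := 2) (c * g * c⁻¹)
  rw [(part_conj (p := 2) g c).1, hc] at h1 h2 hj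
  set y := prest 2 (c * g * c⁻¹) with hy
  let f : Subgroup.centralizer ({z} : Set G) →* G := (pr D).comp (Subgroup.inclusion fun h hh =>
    cent_le_H D hz (Subgroup.mem_centralizer_singleton_iff.1 hh))
  have hcore : f.ker ≤ pPrimeCore 2 (Subgroup.centralizer ({z} : Set G)) := by
    refine CfsgLib.PCore.le_pPrimeCore_of_not_dvd (MonoidHom.normal_ker _) fun hd => ?_
    obtain ⟨w, hw⟩ := exists_prime_orderOf_dvd_card' 2 hd
    have h5 := (pr_eq_one D _).1 (MonoidHom.mem_ker.1 w.2)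
    refine h5 ?_
    rw [Subgroup.coe_inclusion, Subgroup.orderOf_coe, Subgroup.orderOf_coe, hw]
  have hyC : y ∈ Subgroup.centralizer ({z} : Set G) := Subgroup.mem_centralizer_singleton_iff.2 h2.symm.eq
  have hymem : y ∈ centralizerPPrimeCore 2 z :=
    ⟨⟨y, hyC⟩, hcore (MonoidHom.mem_ker.2 ((pr_eq_one D _).2 h4)), rfl⟩
  conv_lhs => rw [← h1]
  exact principal_apply_mul_core hM ⟨j, hj⟩ hχ hymem

/-- A sum over the rotations. -/
theorem sum_zp (F : G → ℂ) :
    ∑ z ∈ Finset.univ.filter (fun z => z ∈ Subgroup.zpowers σ), F z = ∑ l ∈ Finset.range (2 ^ (k + 2)), F (σ ^ l) := by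
  refine (Finset.sum_nbij (fun l => σ ^ l) (fun l _ => Finset.mem_filter.2 ⟨Finset.mem_univ _, pow_mem (Subgroup.mem_zpowers σ) l⟩)
    (fun a ha b hb h => pow_injOn_Iio_orderOf (by simpa [D.hord] using ha) (by simpa [D.hord] using hb) h)
    (fun z hz => ?_) (fun _ _ => rfl)).symm
  obtain ⟨l, hl, e⟩ := exists_pow D (Finset.mem_filter.1 hz).2
  exact ⟨l, Finset.mem_range.2 hl, e⟩

theorem sum_wt_pow : ∑ z ∈ sect σ k, wt k z = (Nat.card (P : Subgroup G) : ℂ) ∧
    ∑ z ∈ sect σ k, wt k z * wt k z = 3 * (Nat.card (P : Subgroup G) : ℂ) := by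
  have key : ∀ F : ℕ → ℂ, ∑ l ∈ Finset.range (2 ^ (k + 2)), F (l % 4) = 2 ^ k * (F 0 + F 1 + F 2 + F 3) := by
    intro F
    have : ∀ m : ℕ, ∑ l ∈ Finset.range (4 * m), F (l % 4) = m * (F 0 + F 1 + F 2 + F 3) := by
      intro m
      induction m with
      | zero => simp
      | succ m ih =>
        rw [show 4 * (m + 1) = 4 * m + 1 + 1 + 1 + 1 by ring, Finset.sum_range_succ, Finset.sum_range_succ,
          Finset.sum_range_succ, Finset.sum_range_succ, ih, show (4 * m + 1 + 1 + 1) % 4 = 3 by omega,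
          show (4 * m + 1 + 1) % 4 = 2 by omega, show (4 * m + 1) % 4 = 1 by omega, show (4 * m) % 4 = 0 by omega]
        push_cast; ring
    rw [show 2 ^ (k + 2) = 4 * 2 ^ k by ring, this]
    push_cast; ring
  have hs : ∀ F : G → ℂ, (∀ z, wt k z = 0 → F z = 0) → ∑ z ∈ sect σ k, F z = ∑ l ∈ Finset.range (2 ^ (k + 2)), F (σ ^ l) := by
    intro F hF
    rw [← sum_zp D]
    refine Finset.sum_subset (fun z hz => Finset.mem_filter.2 ⟨Finset.mem_univ _, (mem_sect.1 hz).1⟩) fun z hz hno => hF z ?_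
    by_contra h
    exact hno (mem_sect.2 ⟨(Finset.mem_filter.1 hz).2, h⟩)
  constructor
  · rw [hs _ (fun z h => h), Finset.sum_congr rfl fun l _ => wt_pow D l,
      key fun r => if r = 0 then 0 else if r = 2 then 4 else 2, card_P D]
    push_cast; norm_num; ring
  · rw [hs (fun z => wt k z * wt k z) (fun z h => by simp [h]), Finset.sum_congr rfl fun l _ => by rw [wt_pow D l],
      key fun r => (if r = 0 then 0 else if r = 2 then 4 else 2) * (if r = 0 then 0 else if r = 2 then 4 else 2),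
      card_P D]
    push_cast; norm_num; ring

theorem wt_formula (l : ℕ) : wt k (σ ^ l) = 2 - (Complex.I ^ l + (-Complex.I) ^ l) := by
  rw [wt_pow D]
  have h4 : Complex.I ^ l = Complex.I ^ (l % 4) := Complex.I_pow_eq_pow_mod l
  rw [neg_pow Complex.I l, h4]
  have hneg : (-1 : ℂ) ^ l = (-1) ^ (l % 4) := by
    conv_lhs => rw [← Nat.mod_add_div l 4, pow_add, pow_mul]
    norm_num
  rw [hneg]
  have : l % 4 = 0 ∨ l % 4 = 1 ∨ l % 4 = 2 ∨ l % 4 = 3 := by omega
  rcases this with h | h | h | h <;> rw [h] <;> norm_num [pow_succ, Complex.I_mul_I]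

theorem inner_int {χ : ↥(P : Subgroup G) → ℂ} (hχ : IsCharacter (P : Subgroup G) χ) :
    ∃ m : ℤ, ∑ y : (P : Subgroup G), wt k (y : G) * χ y = (Nat.card (P : Subgroup G) : ℂ) * m := by
  set N := 2 ^ (k + 2) with hN
  set σ' : (P : Subgroup G) := ⟨σ, D.hσ⟩ with hσ'
  obtain ⟨lam, hlam, hpow⟩ := exists_eigen hχ σ'
  have hord : orderOf σ' = N := by rw [hσ', Subgroup.orderOf_mk, D.hord]
  have hN4 : (4 : ℕ) ∣ N := ⟨2 ^ k, by rw [hN]; ring⟩
  -- geometric sums
  have hgeo : ∀ c : ℂ, c ^ N = 1 → ∃ m : ℕ, ∑ l ∈ Finset.range N, c ^ l * χ (σ' ^ l) = (N : ℂ) * m := by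
    intro c hc
    refine ⟨(Finset.univ.filter fun i => c * lam i = 1).card, ?_⟩
    simp only [hpow, Finset.mul_sum, ← mul_pow]
    rw [Finset.sum_comm]
    have hterm : ∀ i, ∑ l ∈ Finset.range N, (c * lam i) ^ l = if c * lam i = 1 then (N : ℂ) else 0 := by
      intro i
      split_ifs with h
      · simp [h]
      · rw [geom_sum_eq h, mul_pow, hc, ← hord, hlam i, mul_one, sub_self, zero_div]
    rw [Finset.sum_congr rfl fun i _ => hterm i, Finset.sum_ite, Finset.sum_const_zero, add_zero, Finset.sum_const,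
      nsmul_eq_mul, mul_comm]
  obtain ⟨m1, hm1⟩ := hgeo 1 (one_pow _)
  have hI4 : Complex.I ^ N = 1 := by obtain ⟨q, hq⟩ := hN4; rw [hq, pow_mul, Complex.I_pow_four, one_pow]
  have hnI4 : (-Complex.I) ^ N = 1 := by
    obtain ⟨q, hq⟩ := hN4
    rw [hq, pow_mul, show (-Complex.I) ^ 4 = Complex.I ^ 4 by ring, Complex.I_pow_four, one_pow]
  obtain ⟨mi, hmi⟩ := hgeo _ hI4
  -- the two complex sums agree
  have hsym : ∑ l ∈ Finset.range N, (-Complex.I) ^ l * χ (σ' ^ l) = ∑ l ∈ Finset.range N, Complex.I ^ l * χ (σ' ^ l) := by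
    have hinv : ∀ l ≤ N, χ (σ' ^ (N - l)) = χ (σ' ^ l) := by
      intro l hl
      have e1 : σ' ^ (N - l) = (σ' ^ l)⁻¹ := by
        refine eq_inv_of_mul_eq_one_left ?_
        rw [← pow_add, Nat.sub_add_cancel hl, ← hord, pow_orderOf_eq_one]
      have e2 : (⟨τ, D.hτ⟩ : (P : Subgroup G)) * σ' ^ l * (⟨τ, D.hτ⟩ : (P : Subgroup G))⁻¹ = (σ' ^ l)⁻¹ := by
        refine Subtype.ext ?_
        simp only [Subgroup.coe_mul, Subgroup.coe_inv, SubmonoidClass.coe_pow, hσ', tau_inv D]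
        exact tau_conj D (pow_mem (Subgroup.mem_zpowers σ) l)
      rw [e1, ← e2, CfsgLib.CharBasics.isClassFunction hχ]
    have hN0 : N ≠ 0 := by positivity
    refine Finset.sum_nbij' (fun l => if l = 0 then 0 else N - l) (fun l => if l = 0 then 0 else N - l)
      (fun l hl => by simp at hl ⊢; split_ifs <;> omega) (fun l hl => by simp at hl ⊢; split_ifs <;> omega)
      (fun l hl => by simp at hl; split_ifs <;> omega) (fun l hl => by simp at hl; split_ifs <;> omega) (fun l hl => ?_)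
    rw [Finset.mem_range] at hl
    split_ifs with h
    · simp [h]
    · rw [hinv l hl.le]
      congr 1
      have h2 : Complex.I ^ (N - l) * Complex.I ^ l = 1 := by rw [← pow_add, Nat.sub_add_cancel hl.le, hI4]
      have h3 : (-Complex.I) ^ l * Complex.I ^ l = 1 := by rw [← mul_pow, neg_mul, Complex.I_mul_I, neg_neg, one_pow]
      exact mul_right_cancel₀ (pow_ne_zero l Complex.I_ne_zero) (h3.trans h2.symm)
  have hrot : ∑ l ∈ Finset.range N, wt k (σ ^ l) * χ (σ' ^ l) = (Nat.card (P : Subgroup G) : ℂ) * ((m1 : ℂ) - mi) := by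
    simp only [wt_formula D, sub_mul, add_mul, Finset.sum_sub_distrib, Finset.sum_add_distrib, hsym, hmi]
    rw [← Finset.mul_sum]
    simp only [one_pow, one_mul] at hm1
    rw [hm1, card_P D, ← hN]
    push_cast; ring
  -- the reflections
  obtain ⟨m0, hm0⟩ := classInner_genChar (AddSubgroup.subset_closure hχ : χ ∈ genChar (P : Subgroup G))
    (isCharacter_of_irr (oneChar : IrrCharacter (P : Subgroup G)).2)
  rw [classInner_eq, inv_mul_eq_iff_eq_mul₀ (Nat.cast_ne_zero.2 Nat.card_pos.ne')] at hm0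
  simp only [oneChar_apply, map_one, mul_one] at hm0
  set R := Finset.univ.filter fun y : (P : Subgroup G) => (y : G) ∈ Subgroup.zpowers σ with hR
  have hRsum : ∀ F : ↥(P : Subgroup G) → ℂ, ∑ y ∈ R, F y = ∑ l ∈ Finset.range N, F (σ' ^ l) := by
    intro F
    refine (Finset.sum_nbij (fun l => σ' ^ l) (fun l _ => Finset.mem_filter.2 ⟨Finset.mem_univ _, ?_⟩)
      (fun a ha b hb h => pow_injOn_Iio_orderOf (by simpa [hord] using ha) (by simpa [hord] using hb) h)
      (fun z hz => ?_) (fun _ _ => rfl)).symm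
    · rw [SubmonoidClass.coe_pow]; exact pow_mem (Subgroup.mem_zpowers σ) l
    · obtain ⟨l, hl, e⟩ := exists_pow D (Finset.mem_filter.1 hz).2
      exact ⟨l, Finset.mem_range.2 hl, Subtype.ext (by rw [SubmonoidClass.coe_pow]; exact e)⟩
  set r : ℂ := if k = 0 then 4 else 0 with hr
  have hrefl : ∀ y ∈ Rᶜ, wt k (y : G) * χ y = r * χ y := by
    intro y hy
    rcases mem_cases D y.2 with h | ⟨s, hs, e⟩
    · simp [hR, h] at hy
    · congr 1
      rw [e, wt, refl_orderOf D hs, hr]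
      have h1 : (2 : ℕ) ≠ 2 ^ (k + 2) := by
        have := Nat.pow_le_pow_right two_pos (show 2 ≤ k + 2 by omega); omega
      rw [if_neg h1]
      by_cases hk : k = 0
      · subst hk; simp
      · have h2 : (2 : ℕ) ≠ 2 ^ (k + 1) := by
          have := Nat.pow_le_pow_right two_pos (show 2 ≤ k + 1 by omega); omega
        rw [if_neg h2, if_neg hk]
  have hc : ∑ y ∈ Rᶜ, χ y = (Nat.card (P : Subgroup G) : ℂ) * m0 - (N : ℂ) * m1 := by
    simp only [one_pow, one_mul] at hm1
    rw [← hm0, ← Finset.sum_add_sum_compl R χ, hRsum, hm1]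
    ring
  rw [← Finset.sum_add_sum_compl R, Finset.sum_congr rfl hrefl, ← Finset.mul_sum, hc, hRsum]
  simp only [SubmonoidClass.coe_pow, hσ']
  simp only [hσ'] at hrot
  rw [hrot]
  by_cases hk : k = 0
  · refine ⟨(m1 : ℤ) - mi + (4 * m0 - 2 * m1), ?_⟩
    rw [hr, if_pos hk, card_P D, ← hN]
    push_cast; ring
  · refine ⟨(m1 : ℤ) - mi, ?_⟩
    rw [hr, if_neg hk]
    push_cast; ring

/-- The order formula. -/
theorem order_formula (hc1 : IsConj (σ ^ 2 ^ (k + 1)) τ) (hc2 : IsConj (σ ^ 2 ^ (k + 1)) (σ * τ))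
    {M : Ideal AlgInt} (hM : IsPModular 2 M) {χ₁ : IrrCharacter G} (hχ : χ₁ ∈ principalBlock M G) (hne : χ₁ ≠ oneChar)
    {δ : ℤ} (hδ : δ = 1 ∨ δ = -1) (hpows : ∀ l : ℕ, 0 < l → l < 2 ^ (k + 2) → (χ₁ : G → ℂ) (σ ^ l) = δ) :
    (charDegree (χ₁ : G → ℂ) : ℤ) ≠ δ ∧
    (Nat.card G : ℂ) * ((charDegree (χ₁ : G → ℂ) : ℂ) - δ) ^ 2 =
      2 * (charDegree (χ₁ : G → ℂ) : ℂ) * ((charDegree (χ₁ : G → ℂ) : ℂ) + δ) *
        (Nat.card (Subgroup.centralizer ({σ ^ 2 ^ (k + 1)} : Set G)) : ℂ) * ((invC (σ ^ 2 ^ (k + 1))).card : ℂ) ^ 2 := by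
  haveI : Fintype (IrrCharacter (P : Subgroup G)) := @Fintype.ofFinite _ finite_irrCharacter
  set J := σ ^ 2 ^ (k + 1) with hJ
  have hval : ∀ z ∈ sect σ k, (χ₁ : G → ℂ) z = δ := fun z hz => by
    obtain ⟨l, hl, e⟩ := exists_pow D (mem_sect.1 hz).1
    rw [← e]
    refine hpows l (Nat.pos_of_ne_zero fun h0 => ?_) hl
    subst h0
    have hw := (mem_sect.1 hz).2
    rw [← e, wt_pow D] at hw
    exact hw (by simp)
  have hG : (Nat.card G : ℂ) ≠ 0 := Nat.cast_ne_zero.2 Nat.card_pos.ne'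
  have hP0 : (Nat.card (P : Subgroup G) : ℂ) ≠ 0 := Nat.cast_ne_zero.2 Nat.card_pos.ne'
  have hconj : ∀ (g h : G), wt k (h * g * h⁻¹) = wt k g := fun g h =>
    wt_eq k (by rw [← MulAut.conj_apply, MulEquiv.orderOf_eq])
  -- the exceptional character
  have hfgen : (fun y : (P : Subgroup G) => wt k (y : G)) ∈ genChar (P : Subgroup G) := by
    have hcls : IsClassFunction (P : Subgroup G) (fun y : (P : Subgroup G) => wt k (y : G)) := fun g h => by
      simp only [Subgroup.coe_mul, Subgroup.coe_inv]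
      exact hconj _ _
    rw [classFun_expand hcls]
    refine AddSubgroup.sum_mem _ fun χ _ => ?_
    obtain ⟨m, hm⟩ := inner_int D (isCharacter_star (isCharacter_of_irr χ.2))
    rw [show classInner (fun y : (P : Subgroup G) => wt k (y : G)) (χ : ↥(P : Subgroup G) → ℂ) = (m : ℂ) by
      rw [classInner_eq, inv_mul_eq_iff_eq_mul₀ hP0]; exact hm, Int.cast_smul_eq_zsmul]
    exact (genChar ↥(P : Subgroup G)).zsmul_mem (AddSubgroup.subset_closure (isCharacter_of_irr χ.2 : IsCharacter ↥(P : Subgroup G) _)) m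
  obtain ⟨Φ, hΦgen, hΦcls, hΦval⟩ := exists_ppart_ext P hfgen (fun x y h => by
    obtain ⟨c, hc⟩ := isConj_iff.1 h
    rw [← hc, hconj])
  have hΦ : Φ = phi k := by
    funext g
    obtain ⟨-, -, ⟨a, ha⟩, -, -, -⟩ := part_spec (p := 2) g
    obtain ⟨Q, hQ⟩ := (IsPGroup.of_card (n := a) (by rw [Nat.card_zpowers, ha]) :
      IsPGroup 2 (Subgroup.zpowers (ppart 2 g))).exists_le_sylow
    obtain ⟨c, hc⟩ := MulAction.exists_smul_eq G Q P
    have hmem : c * ppart 2 g * c⁻¹ ∈ (P : Subgroup G) := by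
      rw [← hc, Sylow.coe_subgroup_smul]
      exact Subgroup.smul_mem_pointwise_smul _ _ _ (hQ (Subgroup.mem_zpowers _))
    rw [hΦval g ⟨_, hmem⟩ (isConj_iff.2 ⟨c, rfl⟩)]
    exact hconj _ _
  subst hΦ
  have hreal : ∀ g : G, conj (phi k g) = phi k g := fun g => by
    simp only [phi, wt, apply_ite (starRingEnd ℂ), map_ofNat, map_zero]
  have hphi_pp : ∀ g : G, phi k (ppart 2 g) = phi k g := fun g => by
    unfold phi
    rw [(part_of_pelt (p := 2) (part_spec (p := 2) g).2.2.1).1]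
  have hsectphi : ∀ z ∈ sect σ k, phi k z = wt k z := fun z hz => by
    unfold phi
    rw [(part_of_pelt (p := 2) (a := z) (by rcases wt_ne_zero (mem_sect.1 hz).2 with e | e <;> exact ⟨_, e⟩)).1]
  obtain ⟨hs1, hs2⟩ := sum_wt_pow D
  have hinner : ∀ ψ : IrrCharacter G, ψ ∈ principalBlock M G → ∀ v : ℂ, (∀ z ∈ sect σ k, conj ((ψ : G → ℂ) z) = v) →
      classInner (phi k) (ψ : G → ℂ) = v := by
    intro ψ hψ v hv
    rw [classInner_eq, inv_mul_eq_iff_eq_mul₀ hG]
    refine mul_left_cancel₀ hP0 ?_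
    rw [sum_section D hc1 hc2 (F := fun g => phi k g * conj ((ψ : G → ℂ) g))
      (fun g h => by dsimp only; rw [hΦcls g h, CfsgLib.CharBasics.isClassFunction (isCharacter_of_irr ψ.2)])
      (fun g hg => by rw [hg, zero_mul]) (fun g hg => by rw [hphi_pp, section_apply D hc1 hc2 hM hψ hg]),
      Finset.sum_congr rfl (g := fun z => wt k z * v) (fun z hz => by rw [hsectphi z hz, hv z hz]), ← Finset.sum_mul, hs1]
    ring
  have hone := hinner (oneChar : IrrCharacter G) (CfsgLib.Blocks.oneChar_mem_principal hM) ((1 : ℤ) : ℂ) fun z _ => by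
    rw [oneChar_apply, map_one, Int.cast_one]
  have hnorm : classInner (phi k : G → ℂ) (phi k) = ((1 : ℤ) : ℂ) * ((1 : ℤ) : ℂ) + (2 : ℕ) := by
    rw [classInner_eq, inv_mul_eq_iff_eq_mul₀ hG]
    refine mul_left_cancel₀ hP0 ?_
    simp only [hreal]
    rw [sum_section D hc1 hc2 (F := fun g => phi k g * phi k g) (fun g h => by dsimp only; rw [hΦcls g h])
      (fun g hg => by rw [hg, zero_mul]) (fun g _ => by rw [hphi_pp]),
      Finset.sum_congr rfl (g := fun z => wt k z * wt k z) (fun z hz => by rw [hsectphi z hz]), hs2]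
    push_cast; ring
  obtain ⟨S, c, hScard, hS1, hpm, hin, hout, hexp⟩ :=
    exists_small_expansion hΦgen hΦcls (c₀ := 1) (N := 2) (by norm_num) hone hnorm
  have hχv := hinner χ₁ hχ (δ : ℂ) fun z hz => by rw [hval z hz, map_intCast]
  have hχS : χ₁ ∈ S := by
    by_contra h
    rw [hout χ₁ h hne] at hχv
    rcases hδ with e | e <;> rw [e] at hχv <;> norm_num at hχv
  have hcδ : c χ₁ = δ := Int.cast_injective (α := ℂ) ((hin χ₁ hχS).symm.trans hχv)
  obtain ⟨ψ, hψ⟩ := Finset.card_eq_one.1 (show (S.erase χ₁).card = 1 by rw [Finset.card_erase_of_mem hχS, hScard])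
  have hψS : ψ ∈ S := Finset.mem_of_mem_erase (hψ ▸ Finset.mem_singleton_self ψ : ψ ∈ S.erase χ₁)
  have hsplit : ∀ f : IrrCharacter G → ℂ, ∑ χ ∈ S, f χ = f χ₁ + f ψ := fun f => by
    rw [← Finset.add_sum_erase _ _ hχS, hψ, Finset.sum_singleton]
  simp only [hsplit, hcδ, Int.cast_one] at hexp
  set x : ℂ := (charDegree (χ₁ : G → ℂ) : ℂ) with hx
  set y : ℂ := (ψ : G → ℂ) 1 with hy
  set a : ℂ := (c ψ : ℂ) with ha
  have haa : a * a = 1 := by rcases hpm ψ hψS with e | e <;> rw [ha, e] <;> simp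
  have hδδ : (δ : ℂ) * δ = 1 := by rcases hδ with e | e <;> rw [e] <;> simp
  have hx0 : x ≠ 0 := Nat.cast_ne_zero.2 (charDegree_pos χ₁.2).ne'
  have hy0 : y ≠ 0 := apply_one_ne_zero ψ.2
  have h1 := hexp 1
  rw [apply_one (isCharacter_of_irr χ₁.2), ← hx, ← hy] at h1
  have hphi1 : phi k (1 : G) = 0 := by
    unfold phi wt
    rw [(part_of_regular (p := 2) (a := (1 : G)) (by rw [orderOf_one]; norm_num)).1, orderOf_one,
      if_neg (Nat.one_lt_pow (by omega) one_lt_two).ne, if_neg (Nat.one_lt_pow (by omega) one_lt_two).ne]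
  rw [hphi1] at h1
  -- values at the central involution
  have hphiJ : phi k J = if k = 0 then 4 else 0 := by
    unfold phi
    rw [(part_of_pelt (p := 2) (a := J) ⟨1, by rw [J_orderOf D, pow_one]⟩).1, hJ, wt_pow D]
    rcases k with _ | j
    · norm_num
    · rw [if_pos (by rw [show j + 1 + 1 = j + 2 from rfl, pow_add]; omega), if_neg (by omega)]
  have hJval : (χ₁ : G → ℂ) J = δ :=
    hpows _ (pow_pos two_pos _) (Nat.pow_lt_pow_right one_lt_two (by omega))
  have hJψ : a * (ψ : G → ℂ) J = if k = 0 then 2 else -2 := by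
    have h := hexp J
    rw [hphiJ, hJval, hδδ] at h
    split_ifs at h ⊢ <;> linear_combination -h
  have hψ2 : (ψ : G → ℂ) J * (ψ : G → ℂ) J = 4 := by
    have : (a * (ψ : G → ℂ) J) * (a * (ψ : G → ℂ) J) = 4 := by rw [hJψ]; split_ifs <;> norm_num
    linear_combination this - (ψ : G → ℂ) J * (ψ : G → ℂ) J * haa
  -- the class multiplication
  have hsum : ∑ g : G, phi k (g * J * g⁻¹ * J) = (Nat.card G : ℂ) * (1 + (δ : ℂ) / x + a * 4 / y) := by
    simp only [hexp, Finset.sum_add_distrib, Finset.sum_const, Finset.card_univ, ← Nat.card_eq_fintype_card,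
      nsmul_eq_mul, mul_one, ← Finset.mul_sum]
    have k1 := sum_conj_apply_mul χ₁.2 J J
    rw [hJval, apply_one (isCharacter_of_irr χ₁.2), ← hx] at k1
    have k2 := sum_conj_apply_mul ψ.2 J J
    rw [mul_assoc _ ((ψ : G → ℂ) J), hψ2, ← hy] at k2
    field_simp
    linear_combination (δ : ℂ) * y * k1 + a * x * k2 + (Nat.card G : ℂ) * (δ : ℂ) * y * hδδ
  have hfib : ∑ g : G, phi k (g * J * g⁻¹ * J) = (Nat.card (Subgroup.centralizer ({J} : Set G)) : ℂ) *
      (2 * ((invC J).card : ℂ) ^ 2) := by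
    rw [← sum_phi D hc1 hc2]
    set A := Finset.univ.filter (fun v : G => orderOf v = 2) with hA
    rw [← Finset.sum_fiberwise_of_maps_to (t := A) (g := fun g : G => g * J * g⁻¹) (fun g _ => by
      refine Finset.mem_filter.2 ⟨Finset.mem_univ _, ?_⟩
      rw [← MulAut.conj_apply, MulEquiv.orderOf_eq]; exact J_orderOf D), Finset.mul_sum]
    refine Finset.sum_congr rfl fun v hv => ?_
    rw [Finset.sum_congr rfl (g := fun _ => phi k (v * J)) (fun g hg => by
      show phi k (g * J * g⁻¹ * J) = _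
      rw [(Finset.mem_filter.1 hg).2]), Finset.sum_const, nsmul_eq_mul]
    congr 1
    rw [← Fintype.card_subtype, ← Nat.card_eq_fintype_card, Nat.cast_inj]
    obtain ⟨c, hc⟩ := isConj_iff.1 (conj_of_one_class D hc1 hc2 (Finset.mem_filter.1 hv).2)
    rw [← hJ] at hc
    exact Nat.card_congr
      { toFun := fun g => ⟨c⁻¹ * g.1, Subgroup.mem_centralizer_singleton_iff.2 (by
          calc c⁻¹ * g.1 * J = c⁻¹ * (g.1 * J * g.1⁻¹) * g.1 := by group
            _ = c⁻¹ * (c * J * c⁻¹) * g.1 := by rw [g.2, hc]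
            _ = _ := by group)⟩
        invFun := fun g => ⟨c * g.1, by
          show c * (g : G) * J * (c * (g : G))⁻¹ = v
          rw [← hc, mul_inv_rev, mul_assoc c, Subgroup.mem_centralizer_singleton_iff.1 g.2]
          group⟩
        left_inv := fun g => Subtype.ext (mul_inv_cancel_left c g.1)
        right_inv := fun g => Subtype.ext (inv_mul_cancel_left c g.1) }
  have hS : (x + δ) ≠ 0 := fun e => by
    refine mul_ne_zero (by intro h; rw [h] at haa; norm_num at haa : a ≠ 0) hy0 ?_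
    linear_combination -h1 - (δ : ℂ) * e + hδδ
  have key : (Nat.card G : ℂ) * (x - δ) ^ 2 = 2 * x * (x + δ) *
      (Nat.card (Subgroup.centralizer ({J} : Set G)) : ℂ) * ((invC J).card : ℂ) ^ 2 := by
    have h2 := hsum.symm.trans hfib
    have hay : a * 4 / y = -4 * (δ : ℂ) / (x + δ) := by
      rw [div_eq_div_iff hy0 hS]
      linear_combination (-4 * (δ : ℂ) * a) * h1 + (-4 * (δ : ℂ) * y) * haa +
        (4 * (δ : ℂ) * a - 4 * a * (x + δ)) * hδδ
    rw [hay] at h2
    field_simp at h2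
    linear_combination h2
  refine ⟨fun e => ?_, key⟩
  have e' : x = (δ : ℂ) := by rw [hx, ← e]; push_cast; rfl
  rw [e', sub_self, zero_pow two_ne_zero, mul_zero, eq_comm] at key
  have hI : (invC J).card ≠ 0 := by
    refine (Finset.card_pos.2 ⟨τ, mem_invC.2 ⟨D.hτ2, J_comm D D.hτ, fun h => tau_notMem D (h ▸ J_mem_zp D)⟩⟩).ne'
  simp only [mul_eq_zero, pow_eq_zero_iff two_ne_zero, Nat.cast_eq_zero] at key
  rw [e'] at hS
  rcases key with ((((h | h) | h) | h) | h)
  · norm_num at h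
  · rcases hδ with e | e <;> rw [e] at h <;> norm_num at h
  · exact hS h
  · exact Nat.card_pos.ne' h
  · exact hI h

end CfsgLib.ZStar.Dihedral
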