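import Cfsg.Agent.ZStar.KleinBlock
import Cfsg.Agent.Transfer.Frobenius

/-!
The exceptional generalized character of a group with a dihedral Sylow 2-subgroup and one class of
involutions, and the count of pairs of involutions attached to it.
-/

set_option autoImplicit false
set_option linter.style.haveILetI false
set_option linter.unusedSectionVars false
set_option linter.deprecated false

namespace CfsgLib.ZStar.Dihedral

open Cfsg CfsgLib.CharBasics CfsgLib.BrauerInd
open scoped ComplexConjugate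

universe u

variable {G : Type u} [Group G] [Finite G] [Fact (Nat.Prime 2)]

/-- A dihedral Sylow subgroup with its generators. -/
structure Data (P : Sylow 2 G) (σ τ : G) (k : ℕ) : Prop where
  hσ : σ ∈ (P : Subgroup G)
  hτ : τ ∈ (P : Subgroup G)
  hord : orderOf σ = 2 ^ (k + 2)
  hτ2 : orderOf τ = 2
  hrel : τ * σ * τ⁻¹ = σ⁻¹
  hgen : Subgroup.closure ({σ, τ} : Set G) = (P : Subgroup G)

/-- The weight of a 2-element. -/
noncomputable def wt (k : ℕ) (z : G) : ℂ :=
  if orderOf z = 2 ^ (k + 2) then 2 else if orderOf z = 2 ^ (k + 1) then 4 else 0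

theorem wt_eq (k : ℕ) {z z' : G} (h : orderOf z = orderOf z') : wt k z = wt k z' := by simp [wt, h]

theorem wt_ne_zero {k : ℕ} {z : G} (h : wt k z ≠ 0) : orderOf z = 2 ^ (k + 2) ∨ orderOf z = 2 ^ (k + 1) := by
  unfold wt at h
  split_ifs at h with h1 h2
  exacts [Or.inl h1, Or.inr h2, absurd rfl h]

/-- The exceptional function. -/
noncomputable def phi (k : ℕ) (g : G) : ℂ := wt k (ppart 2 g)

theorem phi_conj (k : ℕ) (g h : G) : phi k (h * g * h⁻¹) = phi k g := by
  unfold phi
  rw [(part_conj (p := 2) g h).1]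
  exact wt_eq k (by rw [← MulAut.conj_apply, MulEquiv.orderOf_eq])

variable {P : Sylow 2 G} {σ τ : G} {k : ℕ} (D : Data P σ τ k)

include D

theorem zp_le : Subgroup.zpowers σ ≤ (P : Subgroup G) := Subgroup.zpowers_le.2 D.hσ

theorem tau_sq : τ * τ = 1 := by rw [← pow_two, ← D.hτ2, pow_orderOf_eq_one]

theorem tau_inv : τ⁻¹ = τ := inv_eq_of_mul_eq_one_left (tau_sq D)

theorem tau_conj {s : G} (hs : s ∈ Subgroup.zpowers σ) : τ * s * τ = s⁻¹ := by
  obtain ⟨j, rfl⟩ := Subgroup.mem_zpowers_iff.1 hs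
  have h : τ * σ ^ j * τ⁻¹ = (τ * σ * τ⁻¹) ^ j := (conj_zpow).symm
  rw [D.hrel, inv_zpow, tau_inv D] at h
  exact h

theorem tau_mul {s : G} (hs : s ∈ Subgroup.zpowers σ) : s * τ = τ * s⁻¹ := by
  rw [← tau_conj D hs, ← mul_assoc, ← mul_assoc, tau_sq D, one_mul]

theorem mem_cases {p : G} (hp : p ∈ (P : Subgroup G)) :
    p ∈ Subgroup.zpowers σ ∨ ∃ s ∈ Subgroup.zpowers σ, p = τ * s := by
  rw [← D.hgen] at hp
  induction hp using Subgroup.closure_induction with
  | mem x hx =>
    rcases hx with rfl | rfl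
    · exact Or.inl (Subgroup.mem_zpowers x)
    · exact Or.inr ⟨1, one_mem _, (mul_one x).symm⟩
  | one => exact Or.inl (one_mem _)
  | mul x y _ _ hx hy =>
    rcases hx with hx | ⟨s, hs, rfl⟩ <;> rcases hy with hy | ⟨t, ht, rfl⟩
    · exact Or.inl (mul_mem hx hy)
    · exact Or.inr ⟨x⁻¹ * t, mul_mem (inv_mem hx) ht, by rw [← mul_assoc, tau_mul D hx, mul_assoc]⟩
    · exact Or.inr ⟨s * y, mul_mem hs hy, mul_assoc _ _ _⟩
    · refine Or.inl ?_
      rw [mul_assoc, ← mul_assoc s, tau_mul D hs, mul_assoc τ, ← mul_assoc, tau_sq D, one_mul]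
      exact mul_mem (inv_mem hs) ht
  | inv x _ hx =>
    rcases hx with hx | ⟨s, hs, rfl⟩
    · exact Or.inl (inv_mem hx)
    · exact Or.inr ⟨s, hs, by rw [mul_inv_rev, tau_inv D, tau_mul D (inv_mem hs), inv_inv]⟩

theorem tau_notMem : τ ∉ Subgroup.zpowers σ := by
  intro h
  have hc : τ * σ * τ = σ := by
    obtain ⟨j, hj⟩ := Subgroup.mem_zpowers_iff.1 h
    have : Commute τ σ := hj ▸ (Commute.refl σ).zpow_left j
    rw [this.eq, mul_assoc, tau_sq D, mul_one]
  rw [tau_conj D (Subgroup.mem_zpowers σ)] at hc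
  have h2 : σ ^ 2 = 1 := by rw [pow_two]; nth_rewrite 1 [← hc]; exact inv_mul_cancel σ
  have h4 := Nat.le_of_dvd two_pos (orderOf_dvd_of_pow_eq_one h2)
  rw [D.hord] at h4
  have : 2 ^ 2 ≤ 2 ^ (k + 2) := Nat.pow_le_pow_right two_pos (by omega)
  omega

theorem refl_notMem {s : G} (hs : s ∈ Subgroup.zpowers σ) : τ * s ∉ Subgroup.zpowers σ := fun h =>
  tau_notMem D (by simpa using mul_mem h (inv_mem hs))

theorem refl_sq {s : G} (hs : s ∈ Subgroup.zpowers σ) : (τ * s) * (τ * s) = 1 := by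
  rw [← mul_assoc, tau_conj D hs, inv_mul_cancel]

theorem refl_orderOf {s : G} (hs : s ∈ Subgroup.zpowers σ) : orderOf (τ * s) = 2 :=
  orderOf_eq_prime (by rw [pow_two]; exact refl_sq D hs) fun e => refl_notMem D hs (e ▸ one_mem _)

theorem mem_zp_of_order {p : G} (hp : p ∈ (P : Subgroup G)) (h : 2 < orderOf p) : p ∈ Subgroup.zpowers σ := by
  rcases mem_cases D hp with h' | ⟨s, hs, rfl⟩
  · exact h'
  · rw [refl_orderOf D hs] at h; omega

theorem J_orderOf : orderOf (σ ^ 2 ^ (k + 1)) = 2 := by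
  rw [orderOf_pow, D.hord, Nat.gcd_eq_right (pow_dvd_pow 2 (by omega)), pow_succ _ (k + 1),
    Nat.mul_div_cancel_left _ (pow_pos two_pos _)]

theorem J_mem_zp : σ ^ 2 ^ (k + 1) ∈ Subgroup.zpowers σ := ⟨((2 ^ (k + 1) : ℕ) : ℤ), zpow_natCast σ _⟩

theorem eq_J {p : G} (hp : p ∈ Subgroup.zpowers σ) (h : orderOf p = 2) : p = σ ^ 2 ^ (k + 1) := by
  obtain ⟨l, hl, rfl⟩ : ∃ l, l < orderOf σ ∧ σ ^ l = p := by
    obtain ⟨l, hl⟩ := mem_powers_iff_mem_zpowers.2 hp
    exact ⟨l % orderOf σ, Nat.mod_lt _ (orderOf_pos σ), (pow_mod_orderOf σ l).trans hl⟩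
  have h1 : orderOf σ ∣ l * 2 := orderOf_dvd_of_pow_eq_one (by rw [pow_mul, ← h, pow_orderOf_eq_one])
  rw [D.hord] at h1 hl
  have e : 2 ^ (k + 2) = 2 ^ (k + 1) * 2 := pow_succ _ _
  rw [e, Nat.mul_dvd_mul_iff_right two_pos] at h1
  obtain ⟨j, rfl⟩ := h1
  have hj : j < 2 := by
    rw [e] at hl
    exact Nat.lt_of_mul_lt_mul_left hl
  rcases j with _ | _ | j
  · simp at h
  · rw [zero_add, mul_one]
  · omega

theorem J_comm {p : G} (hp : p ∈ (P : Subgroup G)) : Commute p (σ ^ 2 ^ (k + 1)) := by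
  have hz : ∀ s ∈ Subgroup.zpowers σ, Commute s (σ ^ 2 ^ (k + 1)) := fun s hs => by
    obtain ⟨j, rfl⟩ := Subgroup.mem_zpowers_iff.1 hs
    exact ((Commute.refl σ).zpow_left j).pow_right _
  have hτJ : Commute τ (σ ^ 2 ^ (k + 1)) := by
    have h := tau_conj D (J_mem_zp D)
    rw [inv_eq_of_mul_eq_one_left (a := σ ^ 2 ^ (k + 1)) (by
      have h2 := pow_orderOf_eq_one (σ ^ 2 ^ (k + 1))
      rwa [J_orderOf D, pow_two] at h2)] at h
    show τ * σ ^ 2 ^ (k + 1) = σ ^ 2 ^ (k + 1) * τ
    calc τ * σ ^ 2 ^ (k + 1) = τ * σ ^ 2 ^ (k + 1) * (τ * τ) := by rw [tau_sq D, mul_one]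
      _ = τ * σ ^ 2 ^ (k + 1) * τ * τ := by group
      _ = _ := by rw [h]
  rcases mem_cases D hp with h | ⟨s, hs, rfl⟩
  · exact hz p h
  · exact hτJ.mul_left (hz s hs)

theorem P_le_H : (P : Subgroup G) ≤ Subgroup.centralizer ({σ ^ 2 ^ (k + 1)} : Set G) := fun _ hp =>
  Subgroup.mem_centralizer_singleton_iff.2 (J_comm D hp).eq

theorem card_P : Nat.card (P : Subgroup G) = 2 * 2 ^ (k + 2) := by
  classical
  let f : Bool × Subgroup.zpowers σ → (P : Subgroup G) := fun x =>
    ⟨(if x.1 then τ else 1) * x.2, mul_mem (by split_ifs; exacts [D.hτ, one_mem _]) (zp_le D x.2.2)⟩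
  have hf : Function.Bijective f := by
    refine ⟨?_, fun p => ?_⟩
    · rintro ⟨b, s⟩ ⟨b', s'⟩ h
      have h' : (if b then τ else 1) * (s : G) = (if b' then τ else 1) * s' := congrArg Subtype.val h
      cases b <;> cases b' <;> simp at h'
      · simp [Subtype.ext_iff, h']
      · exact absurd (h' ▸ s.2) (refl_notMem D s'.2)
      · exact absurd (h'.symm ▸ s'.2) (refl_notMem D s.2)
      · simp [Subtype.ext_iff, h']
    · rcases mem_cases D p.2 with h | ⟨s, hs, e⟩
      · exact ⟨(false, ⟨p, h⟩), Subtype.ext (by simp [f])⟩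
      · exact ⟨(true, ⟨s, hs⟩), Subtype.ext (by simp [f, e])⟩
  rw [← Nat.card_eq_of_bijective f hf, Nat.card_prod, Nat.card_zpowers, D.hord]
  simp

/-- The normal 2-complement of the centralizer of the central involution. -/
theorem complement : ∃ K : Subgroup (Subgroup.centralizer ({σ ^ 2 ^ (k + 1)} : Set G)), K.Normal ∧
    ∃ Q : Sylow 2 (Subgroup.centralizer ({σ ^ 2 ^ (k + 1)} : Set G)),
      (Q : Subgroup (Subgroup.centralizer ({σ ^ 2 ^ (k + 1)} : Set G))) =
        (P : Subgroup G).subgroupOf (Subgroup.centralizer ({σ ^ 2 ^ (k + 1)} : Set G)) ∧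
      K.IsComplement' (Q : Subgroup (Subgroup.centralizer ({σ ^ 2 ^ (k + 1)} : Set G))) ∧
      ∀ y, y ∈ K ↔ ¬ 2 ∣ orderOf y := by
  set J := σ ^ 2 ^ (k + 1) with hJ
  set H := Subgroup.centralizer ({J} : Set G) with hH
  set Q : Sylow 2 H := P.subtype (P_le_H D) with hQ
  have hloc : Transfer.LocallyTrivial 2 H := by
    refine Transfer.locallyTrivial_of_sylow Q fun U hU g hg hgo => ?_
    have hgJ : Commute (g : G) J := Subgroup.mem_centralizer_singleton_iff.1 g.2
    have hgo' : (orderOf (g : G)).Coprime 2 := by rw [Subgroup.orderOf_coe]; exact hgo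
    have hcyc : ∀ x ∈ U, (x : G) ∈ Subgroup.zpowers σ → Commute (g : G) (x : G) := by
      intro x hx hxz
      by_cases hle : orderOf (x : G) ≤ 2
      · have hpos := orderOf_pos (x : G)
        interval_cases ho : orderOf (x : G)
        · rw [orderOf_eq_one_iff.1 ho]; exact Commute.one_right _
        · rw [eq_J D hxz ho]; exact hgJ
      have hgx : g * x * g⁻¹ ∈ U := (Subgroup.mem_normalizer_iff.1 hg x).1 hx
      have hox : orderOf ((g : G) * x * (g : G)⁻¹) = orderOf (x : G) := by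
        rw [← MulAut.conj_apply, MulEquiv.orderOf_eq]
      have hgxz : (g : G) * x * (g : G)⁻¹ ∈ Subgroup.zpowers σ :=
        mem_zp_of_order D (hU hgx) (by rw [hox]; omega)
      have heq : (Subgroup.zpowers (x : G)).map (MulAut.conj (g : G)).toMonoidHom = Subgroup.zpowers (x : G) := by
        rw [MonoidHom.map_zpowers]
        show Subgroup.zpowers ((g : G) * x * (g : G)⁻¹) = _
        haveI : IsCyclic (Subgroup.zpowers σ) := inferInstance
        have key : ∀ a b : G, a ∈ Subgroup.zpowers σ → b ∈ Subgroup.zpowers σ → orderOf a = orderOf b →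
            Subgroup.zpowers a ≤ Subgroup.zpowers b := by
          intro a b ha hb hab
          haveI : Fintype (Subgroup.zpowers σ) := Fintype.ofFinite _
          refine Subgroup.zpowers_le.2 ?_
          classical
          have : (⟨a, ha⟩ : Subgroup.zpowers σ) ∈ Subgroup.zpowers (⟨b, hb⟩ : Subgroup.zpowers σ) := by
            have ho : 0 < orderOf b := orderOf_pos b
            have hsub : (Finset.univ.filter fun y : Subgroup.zpowers σ => y ∈ Subgroup.zpowers (⟨b, hb⟩ : Subgroup.zpowers σ))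
                = Finset.univ.filter fun y : Subgroup.zpowers σ => y ^ orderOf b = 1 := by
              refine Finset.eq_of_subset_of_card_le (fun y hy => ?_) ((IsCyclic.card_pow_eq_one_le ho).trans (le_of_eq ?_))
              · obtain ⟨j, rfl⟩ := Subgroup.mem_zpowers_iff.1 (Finset.mem_filter.1 hy).2
                refine Finset.mem_filter.2 ⟨Finset.mem_univ _, Subtype.ext ?_⟩
                rw [SubmonoidClass.coe_pow, Subgroup.coe_zpow, ← zpow_natCast, ← zpow_mul, mul_comm, zpow_mul,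
                  zpow_natCast, pow_orderOf_eq_one, one_zpow]
                rfl
              · rw [← Fintype.card_subtype, ← Nat.card_eq_fintype_card]
                exact ((Nat.card_zpowers (⟨b, hb⟩ : Subgroup.zpowers σ)).trans (Subgroup.orderOf_mk b hb)).symm
            have hmem : (⟨a, ha⟩ : Subgroup.zpowers σ) ∈
                Finset.univ.filter fun y : Subgroup.zpowers σ => y ^ orderOf b = 1 :=
              Finset.mem_filter.2 ⟨Finset.mem_univ _, Subtype.ext (by
                rw [SubmonoidClass.coe_pow, ← hab, pow_orderOf_eq_one]; rfl)⟩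
            rw [← hsub] at hmem
            exact (Finset.mem_filter.1 hmem).2
          obtain ⟨j, hj⟩ := Subgroup.mem_zpowers_iff.1 this
          exact ⟨j, congrArg Subtype.val hj⟩
        exact le_antisymm (key _ _ hgxz hxz hox) (key _ _ hxz hgxz hox.symm)
      have hn : (g : G) ∈ Subgroup.normalizer ((Subgroup.zpowers (x : G) : Subgroup G) : Set G) := by
        refine Subgroup.mem_normalizer_iff.2 fun y => ⟨fun hy => heq ▸ ⟨y, hy, rfl⟩, fun hy => ?_⟩
        rw [← heq] at hy
        obtain ⟨y', hy', e⟩ := hy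
        rwa [← show y' = y from (MulAut.conj (g : G)).injective e]
      set φ := Subgroup.normalizerMonoidHom (Subgroup.zpowers (x : G)) with hφ
      have h1 : orderOf (φ ⟨(g : G), hn⟩) ∣ orderOf (g : G) := by
        refine (orderOf_map_dvd φ _).trans ?_
        rw [Subgroup.orderOf_mk]
      have h2 : orderOf (φ ⟨(g : G), hn⟩) ∣ Nat.card (MulAut (Subgroup.zpowers (x : G))) := orderOf_dvd_natCard _
      rw [IsCyclic.card_mulAut, Nat.card_zpowers] at h2
      obtain ⟨e, he⟩ : ∃ e, orderOf (x : G) = 2 ^ e := by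
        obtain ⟨a, ha⟩ := (Nat.dvd_prime_pow Nat.prime_two).1 (D.hord ▸ orderOf_dvd_of_mem_zpowers hxz)
        exact ⟨a, ha.2⟩
      have hepos : 0 < e := Nat.pos_of_ne_zero fun e0 => by rw [e0, pow_zero] at he; omega
      rw [he, Nat.totient_prime_pow Nat.prime_two hepos, show (2 - 1 : ℕ) = 1 from rfl, mul_one] at h2
      have h3 : φ ⟨(g : G), hn⟩ = 1 :=
        orderOf_eq_one_iff.1 (Nat.eq_one_of_dvd_coprimes (hgo'.pow_right (e - 1)) h1 h2)
      have hker : (⟨(g : G), hn⟩ : Subgroup.normalizer ((Subgroup.zpowers (x : G) : Subgroup G) : Set G)) ∈ φ.ker :=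
        MonoidHom.mem_ker.2 h3
      rw [hφ, Subgroup.normalizerMonoidHom_ker, Subgroup.mem_subgroupOf] at hker
      exact (Subgroup.mem_centralizer_iff.1 hker _ (Subgroup.mem_zpowers _)).symm
    have hfix : ∀ x ∈ U, Commute (g : G) (x : G) := by
      intro x hx
      rcases mem_cases D (hU hx) with h | ⟨s, hs, e⟩
      · exact hcyc x hx h
      replace e : (x : G) = τ * s := e
      have hgx : g * x * g⁻¹ ∈ U := (Subgroup.mem_normalizer_iff.1 hg x).1 hx
      rcases mem_cases D (hU hgx) with h | ⟨t, ht, e'⟩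
      · exfalso
        have hc : Commute (g : G) ((g : G) * x * (g : G)⁻¹) := hcyc _ hgx h
        have hxx' : (g : G) * x * (g : G)⁻¹ = x := by
          have h5 := hc.eq
          rw [inv_mul_cancel_right] at h5
          exact mul_left_cancel h5
        have h' : (g : G) * x * (g : G)⁻¹ ∈ Subgroup.zpowers σ := h
        rw [hxx', e] at h'
        exact refl_notMem D hs h'
      replace e' : ((g * x * g⁻¹ : _) : G) = τ * t := e'
      set c := x * (g * x * g⁻¹) with hc
      have hcU : c ∈ U := U.mul_mem hx hgx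
      have hcz : (c : G) ∈ Subgroup.zpowers σ := by
        rw [hc, Subgroup.coe_mul, e, e', mul_assoc, ← mul_assoc s, tau_mul D hs, mul_assoc τ, ← mul_assoc, tau_sq D,
          one_mul]
        exact mul_mem (inv_mem hs) ht
      have hcg : Commute (g : G) (c : G) := hcyc c hcU hcz
      have hxx : (x : G) * x = 1 := by rw [e]; exact refl_sq D hs
      have h1 : (g : G) * x * (g : G)⁻¹ = x * c := by
        rw [hc, Subgroup.coe_mul, ← mul_assoc, hxx, one_mul]
        rfl
      have hpow : ∀ i : ℕ, (g : G) ^ i * x * ((g : G) ^ i)⁻¹ = x * (c : G) ^ i := by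
        intro i
        induction i with
        | zero => simp
        | succ i ih =>
          calc (g : G) ^ (i + 1) * x * ((g : G) ^ (i + 1))⁻¹
              = g * ((g : G) ^ i * x * ((g : G) ^ i)⁻¹) * (g : G)⁻¹ := by rw [pow_succ']; group
            _ = g * (x * (c : G) ^ i) * (g : G)⁻¹ := by rw [ih]
            _ = (g * x * (g : G)⁻¹) * (g * (c : G) ^ i * (g : G)⁻¹) := by group
            _ = x * c * (c : G) ^ i := by rw [h1, (hcg.pow_right i).eq, mul_inv_cancel_right]
            _ = x * (c : G) ^ (i + 1) := by rw [pow_succ', mul_assoc]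
      have h2 := hpow (orderOf (g : G))
      rw [pow_orderOf_eq_one, inv_one, one_mul, mul_one, eq_comm, mul_eq_left] at h2
      have h3 : orderOf (c : G) ∣ orderOf σ := orderOf_dvd_of_mem_zpowers hcz
      rw [D.hord] at h3
      have h4 : (c : G) = 1 := orderOf_eq_one_iff.1 (Nat.eq_one_of_dvd_coprimes
        (hgo'.pow_right (k + 2)) (orderOf_dvd_of_pow_eq_one h2) h3)
      rw [h4, mul_one] at h1
      exact mul_inv_eq_iff_eq_mul.1 h1
    exact Subgroup.mem_centralizer_iff.2 fun y hy => Subtype.ext (hfix y hy).eq.symm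
  obtain ⟨Q', N, hN, hc⟩ := Transfer.frobenius_normal_complement hloc
  have hQcard : Nat.card (Q : Subgroup H) = Nat.card (Q' : Subgroup H) := Nat.card_congr (Q.equiv Q').toEquiv
  have hodd : ¬ 2 ∣ Nat.card N := by
    rw [← Subgroup.IsComplement'.index_eq_card hc]
    exact Q'.not_dvd_index
  have hcomp : N.IsComplement' (Q : Subgroup H) := by
    refine Subgroup.isComplement'_of_coprime (by rw [hQcard]; exact hc.card_mul) ?_
    obtain ⟨a, ha⟩ := IsPGroup.iff_card.1 Q.2
    rw [ha]
    exact ((Nat.prime_two.coprime_iff_not_dvd.2 hodd).pow_left a).symm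
  refine ⟨N, hN, Q, rfl, hcomp, fun y => ⟨fun hy hd => hodd (hd.trans ?_), fun hy => ?_⟩⟩
  · rw [← Subgroup.orderOf_mk (H := N) y hy]; exact orderOf_dvd_natCard _
  · haveI := hN
    have h1 : orderOf (QuotientGroup.mk' N y) ∣ N.index := by
      rw [Subgroup.index_eq_card]; exact orderOf_dvd_natCard _
    rw [Subgroup.IsComplement'.index_eq_card hcomp.symm] at h1
    obtain ⟨a, ha⟩ := IsPGroup.iff_card.1 Q.2
    rw [ha] at h1
    exact (QuotientGroup.eq_one_iff y).1 (orderOf_eq_one_iff.1 (Nat.eq_one_of_dvd_coprimes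
      ((Nat.prime_two.coprime_iff_not_dvd.2 hy).pow_left a) h1 (orderOf_map_dvd (QuotientGroup.mk' N) y)))

end CfsgLib.ZStar.Dihedral
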