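import Cfsg.Agent.ZStar.DihedralBlock

/-!
Counting pairs of involutions against the exceptional character of a dihedral Sylow 2-subgroup with one
class of involutions.
-/

set_option autoImplicit false
set_option linter.style.haveILetI false
set_option linter.unusedSectionVars false
set_option linter.deprecated false

namespace CfsgLib.ZStar.Dihedral

open Cfsg CfsgLib.CharBasics CfsgLib.BrauerInd
open scoped ComplexConjugate Classical

universe u

variable {G : Type u} [Group G] [Finite G] [Fact (Nat.Prime 2)]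
variable {P : Sylow 2 G} {σ τ : G} {k : ℕ} (D : Data P σ τ k)

include D

theorem zp_comm {a b : G} (ha : a ∈ Subgroup.zpowers σ) (hb : b ∈ Subgroup.zpowers σ) : Commute a b := by
  obtain ⟨i, rfl⟩ := Subgroup.mem_zpowers_iff.1 ha
  obtain ⟨j, rfl⟩ := Subgroup.mem_zpowers_iff.1 hb
  exact ((Commute.refl σ).zpow_left i).zpow_right j

theorem exists_pow {s : G} (hs : s ∈ Subgroup.zpowers σ) : ∃ l < 2 ^ (k + 2), σ ^ l = s := by
  obtain ⟨l, hl⟩ := mem_powers_iff_mem_zpowers.2 hs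
  exact ⟨l % orderOf σ, D.hord ▸ Nat.mod_lt _ (orderOf_pos σ), (pow_mod_orderOf σ l).trans hl⟩

theorem wt_pow (l : ℕ) : wt k (σ ^ l) = if l % 4 = 0 then 0 else if l % 4 = 2 then 4 else 2 := by
  have hlt : (2 : ℕ) ^ (k + 1) < 2 ^ (k + 2) := Nat.pow_lt_pow_right one_lt_two (by omega)
  rcases Nat.even_or_odd l with ⟨j, rfl⟩ | hodd
  · rcases Nat.even_or_odd j with ⟨i, rfl⟩ | ⟨i, rfl⟩
    · have hd : orderOf (σ ^ (i + i + (i + i))) ∣ 2 ^ k := orderOf_dvd_of_pow_eq_one (by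
        rw [← pow_mul, show (i + i + (i + i)) * 2 ^ k = 2 ^ (k + 2) * i by ring, pow_mul, ← D.hord,
          pow_orderOf_eq_one, one_pow])
      have hle := Nat.le_of_dvd (pow_pos two_pos k) hd
      have hlt' : (2 : ℕ) ^ k < 2 ^ (k + 1) := Nat.pow_lt_pow_right one_lt_two (by omega)
      rw [wt, if_neg (by omega), if_neg (by omega), if_pos (by omega)]
    · have ho : orderOf (σ ^ (2 * i + 1 + (2 * i + 1))) = 2 ^ (k + 1) := by
        rw [show 2 * i + 1 + (2 * i + 1) = 2 * (2 * i + 1) by ring, pow_mul, Nat.Coprime.orderOf_pow,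
          orderOf_pow_of_dvd two_ne_zero (by rw [D.hord]; exact dvd_pow_self 2 (by omega)), D.hord, pow_succ _ (k + 1),
          Nat.mul_div_cancel _ two_pos]
        rw [orderOf_pow_of_dvd two_ne_zero (by rw [D.hord]; exact dvd_pow_self 2 (by omega)), D.hord, pow_succ _ (k + 1),
          Nat.mul_div_cancel _ two_pos]
        exact Nat.Coprime.pow_left _ (by simp)
      rw [wt, if_neg (by omega), if_pos ho, if_neg (by omega), if_pos (by omega)]
  · obtain ⟨i, rfl⟩ := hodd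
    have ho : orderOf (σ ^ (2 * i + 1)) = 2 ^ (k + 2) := by
      rw [Nat.Coprime.orderOf_pow, D.hord]
      rw [D.hord]
      exact Nat.Coprime.pow_left _ (by simp)
    rw [wt, if_pos ho, if_neg (by omega), if_neg (by omega)]

theorem wt_pair {s : G} (hs : s ∈ Subgroup.zpowers σ) : wt k (s * σ ^ 2) + wt k s = 4 := by
  obtain ⟨l, -, rfl⟩ := exists_pow D hs
  rw [← pow_add, wt_pow D, wt_pow D]
  have : l % 4 = 0 ∨ l % 4 = 1 ∨ l % 4 = 2 ∨ l % 4 = 3 := by omega
  rcases this with h | h | h | h <;> rw [Nat.add_mod, h] <;> norm_num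

/-- The projection of the centralizer of the central involution onto the Sylow subgroup. -/
theorem exists_pr : ∃ π : Subgroup.centralizer ({σ ^ 2 ^ (k + 1)} : Set G) →* G,
    (∀ h, π h ∈ (P : Subgroup G)) ∧
    (∀ (p : G) (hp : p ∈ (P : Subgroup G)), π ⟨p, P_le_H D hp⟩ = p) ∧
    ∀ h, π h = 1 ↔ ¬ 2 ∣ orderOf (h : G) := by
  obtain ⟨K, hKn, Q, hQ, hc, hmem⟩ := complement D
  haveI := hKn
  set e := Subgroup.IsComplement'.QuotientMulEquiv hc.symm with he
  refine ⟨((Subgroup.centralizer ({σ ^ 2 ^ (k + 1)} : Set G)).subtype.comp (Q : Subgroup _).subtype).comp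
      (e.toMonoidHom.comp (QuotientGroup.mk' K)), fun h => ?_, fun p hp => ?_, fun h => ?_⟩
  · have := (e (QuotientGroup.mk' K h)).2
    simp only [hQ] at this
    exact this
  · have hq : (⟨p, P_le_H D hp⟩ : Subgroup.centralizer ({σ ^ 2 ^ (k + 1)} : Set G)) ∈ (Q : Subgroup _) := by
      rw [hQ]; exact hp
    have h1 : e (QuotientGroup.mk' K ⟨p, P_le_H D hp⟩) = ⟨_, hq⟩ := by
      rw [← MulEquiv.eq_symm_apply]
      rfl
    exact congrArg Subtype.val (congrArg Subtype.val h1)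
  · rw [Subgroup.orderOf_coe, ← hmem, ← QuotientGroup.eq_one_iff]
    refine ⟨fun h1 => ?_, fun h1 => ?_⟩
    · refine e.injective ?_
      rw [map_one]
      exact Subtype.ext (Subtype.ext h1)
    · show ((e (QuotientGroup.mk' K h) : Subgroup.centralizer ({σ ^ 2 ^ (k + 1)} : Set G)) : G) = 1
      rw [QuotientGroup.mk'_apply, h1, map_one]
      rfl

/-- The projection. -/
noncomputable def pr : Subgroup.centralizer ({σ ^ 2 ^ (k + 1)} : Set G) →* G := (exists_pr D).choose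

theorem pr_mem (h) : pr D h ∈ (P : Subgroup G) := (exists_pr D).choose_spec.1 h

theorem pr_self {p : G} (hp : p ∈ (P : Subgroup G)) : pr D ⟨p, P_le_H D hp⟩ = p := (exists_pr D).choose_spec.2.1 p hp

theorem pr_eq_one (h) : pr D h = 1 ↔ ¬ 2 ∣ orderOf (h : G) := (exists_pr D).choose_spec.2.2 h

theorem orderOf_ppart (h : Subgroup.centralizer ({σ ^ 2 ^ (k + 1)} : Set G)) :
    orderOf (ppart 2 (h : G)) = orderOf (pr D h) := by
  obtain ⟨h1, -, ⟨a, ha⟩, h4, hm, hm'⟩ := part_spec (p := 2) (h : G)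
  set u : Subgroup.centralizer ({σ ^ 2 ^ (k + 1)} : Set G) :=
    ⟨ppart 2 (h : G), Subgroup.zpowers_le.2 h.2 hm⟩ with hu
  set r : Subgroup.centralizer ({σ ^ 2 ^ (k + 1)} : Set G) :=
    ⟨prest 2 (h : G), Subgroup.zpowers_le.2 h.2 hm'⟩ with hr
  have e : pr D h = pr D u := by
    rw [show h = u * r from Subtype.ext h1.symm, map_mul, (pr_eq_one D r).2 h4, mul_one]
  rw [e]
  refine Nat.dvd_antisymm (orderOf_dvd_of_pow_eq_one ?_) ?_
  · have h5 : pr D (u ^ orderOf (pr D u)) = 1 := by rw [map_pow, pow_orderOf_eq_one]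
    exact eq_one_of_dvd (p := 2) (k := a) (ha ▸ orderOf_pow_dvd _) ((pr_eq_one D _).1 h5)
  · refine (orderOf_map_dvd (pr D) u).trans ?_
    rw [← Subgroup.orderOf_coe]

theorem phi_eq (h : Subgroup.centralizer ({σ ^ 2 ^ (k + 1)} : Set G)) : phi k (h : G) = wt k (pr D h) :=
  wt_eq k (orderOf_ppart D h)

/-- Fusion in the centralizer is induced by the Sylow subgroup. -/
theorem conj_pr {g a b : G} (hg : g ∈ Subgroup.centralizer ({σ ^ 2 ^ (k + 1)} : Set G)) (ha : a ∈ (P : Subgroup G))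
    (hb : b ∈ (P : Subgroup G)) (h : g * a * g⁻¹ = b) : pr D ⟨g, hg⟩ * a * (pr D ⟨g, hg⟩)⁻¹ = b := by
  have e : (⟨g, hg⟩ : Subgroup.centralizer ({σ ^ 2 ^ (k + 1)} : Set G)) * ⟨a, P_le_H D ha⟩ * ⟨g, hg⟩⁻¹ =
      ⟨b, P_le_H D hb⟩ := Subtype.ext h
  rw [← pr_self D hb, ← e, map_mul, map_mul, map_inv, pr_self D ha]

theorem conj_zp {p s : G} (hp : p ∈ (P : Subgroup G)) (hs : s ∈ Subgroup.zpowers σ) :
    p * s * p⁻¹ = s ∨ p * s * p⁻¹ = s⁻¹ := by
  rcases mem_cases D hp with h | ⟨t, ht, rfl⟩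
  · left; rw [(zp_comm D h hs).eq, mul_inv_cancel_right]
  · right
    rw [← tau_conj D hs, mul_inv_rev, tau_inv D, mul_assoc τ t s, (zp_comm D ht hs).eq]
    group

theorem refl_class {s : G} (hs : s ∈ Subgroup.zpowers σ) :
    ∃ q ∈ (P : Subgroup G), q * (τ * s) * q⁻¹ = τ ∨ q * (τ * s) * q⁻¹ = σ * τ := by
  obtain ⟨l, -, rfl⟩ := exists_pow D hs
  have key : ∀ j : ℕ, σ ^ j * (τ * σ ^ l) * (σ ^ j)⁻¹ = τ * ((σ ^ (2 * j))⁻¹ * σ ^ l) := fun j => by
    rw [← mul_assoc, tau_mul D ⟨(j : ℤ), zpow_natCast σ j⟩, two_mul, pow_add]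
    have hc : Commute (σ ^ l) (σ ^ j)⁻¹ := ((Commute.refl σ).pow_pow l j).inv_right
    rw [mul_assoc, mul_assoc, hc.eq, mul_inv_rev, mul_assoc]
  rcases Nat.even_or_odd l with ⟨j, rfl⟩ | ⟨j, rfl⟩
  · refine ⟨σ ^ j, pow_mem D.hσ j, Or.inl ?_⟩
    rw [key, two_mul, inv_mul_cancel, mul_one]
  · refine ⟨σ ^ (j + 1), pow_mem D.hσ _, Or.inr ?_⟩
    rw [key, tau_mul D (Subgroup.mem_zpowers σ), show 2 * (j + 1) = 1 + (2 * j + 1) by ring, pow_add, mul_inv_rev,
      pow_one]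
    congr 1
    rw [((Commute.refl σ).pow_left (2 * j + 1)).inv_left.inv_right.eq, inv_mul_cancel_right]

theorem conj_of_one_class (hc1 : IsConj (σ ^ 2 ^ (k + 1)) τ) (hc2 : IsConj (σ ^ 2 ^ (k + 1)) (σ * τ)) {u : G}
    (hu : orderOf u = 2) : IsConj (σ ^ 2 ^ (k + 1)) u := by
  obtain ⟨Q, hQ⟩ := (IsPGroup.of_card (n := 1) (by rw [Nat.card_zpowers, hu, pow_one]) :
    IsPGroup 2 (Subgroup.zpowers u)).exists_le_sylow
  obtain ⟨c, hc⟩ := MulAction.exists_smul_eq G Q P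
  have hmem : c * u * c⁻¹ ∈ (P : Subgroup G) := by
    rw [← hc, Sylow.coe_subgroup_smul]
    exact Subgroup.smul_mem_pointwise_smul _ _ _ (hQ (Subgroup.mem_zpowers _))
  have hu' : IsConj (c * u * c⁻¹) u := isConj_iff.2 ⟨c⁻¹, by group⟩
  rcases mem_cases D hmem with h | ⟨s, hs, e⟩
  · rw [eq_J D h (by rw [← MulAut.conj_apply, MulEquiv.orderOf_eq, hu])] at hu'
    exact hu'
  · obtain ⟨q, -, hq | hq⟩ := refl_class D hs
    · exact hc1.trans ((isConj_iff.2 ⟨q⁻¹, by rw [show τ * s = q⁻¹ * (q * (τ * s) * q⁻¹) * q⁻¹⁻¹ by group, hq]⟩ : IsConj τ (τ * s)).trans (e ▸ hu'))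
    · exact hc2.trans ((isConj_iff.2 ⟨q⁻¹, by rw [show τ * s = q⁻¹ * (q * (τ * s) * q⁻¹) * q⁻¹⁻¹ by group, hq]⟩ : IsConj (σ * τ) (τ * s)).trans (e ▸ hu'))

/-- An involution of the centralizer other than the central one projects to a reflection. -/
theorem pr_invol {z : G} (hz : orderOf z = 2) (hc : Commute z (σ ^ 2 ^ (k + 1))) (hne : z ≠ σ ^ 2 ^ (k + 1)) :
    ∃ s ∈ Subgroup.zpowers σ, pr D ⟨z, Subgroup.mem_centralizer_singleton_iff.2 hc.eq⟩ = τ * s := by
  set z' : Subgroup.centralizer ({σ ^ 2 ^ (k + 1)} : Set G) := ⟨z, Subgroup.mem_centralizer_singleton_iff.2 hc.eq⟩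
    with hz'
  rcases mem_cases D (pr_mem D z') with h | h
  · exfalso
    have ho : orderOf (pr D z') = 2 := by
      rw [← orderOf_ppart D z', (part_of_pelt (p := 2) (a := z) ⟨1, by rw [hz, pow_one]⟩).1, hz]
    have hJz := eq_J D h ho
    have hJP : σ ^ 2 ^ (k + 1) ∈ (P : Subgroup G) := zp_le D (J_mem_zp D)
    have h1 : pr D (z' * ⟨_, P_le_H D hJP⟩) = 1 := by
      rw [map_mul, pr_self D hJP, hJz, ← pow_two]
      have := pow_orderOf_eq_one (σ ^ 2 ^ (k + 1))
      rwa [J_orderOf D] at this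
    have h2 := (pr_eq_one D _).1 h1
    have hJJ : σ ^ 2 ^ (k + 1) * σ ^ 2 ^ (k + 1) = 1 := by
      rw [← pow_two]
      have := pow_orderOf_eq_one (σ ^ 2 ^ (k + 1))
      rwa [J_orderOf D] at this
    have hzz : z * z = 1 := by rw [← pow_two, ← hz, pow_orderOf_eq_one]
    have h3 : (z * σ ^ 2 ^ (k + 1)) * (z * σ ^ 2 ^ (k + 1)) = 1 := by
      rw [hc.symm.mul_mul_mul_comm, hzz, hJJ, mul_one]
    have h4 : z * σ ^ 2 ^ (k + 1) = 1 := by
      by_contra h5
      exact h2 (by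
        show 2 ∣ orderOf (z * σ ^ 2 ^ (k + 1))
        rw [orderOf_eq_prime (by rw [pow_two]; exact h3) h5])
    exact hne ((mul_eq_one_iff_eq_inv.1 h4).trans (inv_eq_of_mul_eq_one_left hJJ))
  · exact h

/-- An element whose projection is a rotation and which has nonzero weight determines the central involution. -/
theorem pow_half_eq {h : Subgroup.centralizer ({σ ^ 2 ^ (k + 1)} : Set G)} (hw : phi k (h : G) ≠ 0)
    (hz : pr D h ∈ Subgroup.zpowers σ) : ppart 2 (h : G) ^ (orderOf (ppart 2 (h : G)) / 2) = σ ^ 2 ^ (k + 1) := by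
  set z := ppart 2 (h : G) with hzd
  have hm : z ∈ Subgroup.centralizer ({σ ^ 2 ^ (k + 1)} : Set G) :=
    Subgroup.zpowers_le.2 h.2 (part_spec (p := 2) (h : G)).2.2.2.2.1
  have h2 : 2 ∣ orderOf z := by
    rcases wt_ne_zero hw with e | e <;> rw [e] <;> exact dvd_pow_self 2 (by omega)
  have hpr : pr D h = pr D ⟨z, hm⟩ := by
    obtain ⟨h1, -, -, h4, -, hm'⟩ := part_spec (p := 2) (h : G)
    rw [show h = ⟨z, hm⟩ * (⟨prest 2 (h : G), Subgroup.zpowers_le.2 h.2 hm'⟩ :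
      Subgroup.centralizer ({σ ^ 2 ^ (k + 1)} : Set G)) from Subtype.ext h1.symm, map_mul, (pr_eq_one D ⟨prest 2 (h : G), Subgroup.zpowers_le.2 h.2 hm'⟩).2 h4, mul_one]
  have hox : orderOf (z ^ (orderOf z / 2)) = 2 := orderOf_pow_orderOf_div (orderOf_pos z).ne' h2
  by_contra hne
  obtain ⟨s, hs, e⟩ := pr_invol D hox (Subgroup.mem_centralizer_singleton_iff.1 (pow_mem hm (orderOf z / 2))) hne
  have e2 : (⟨z ^ (orderOf z / 2), pow_mem hm _⟩ : Subgroup.centralizer ({σ ^ 2 ^ (k + 1)} : Set G))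
      = ⟨z, hm⟩ ^ (orderOf z / 2) := Subtype.ext rfl
  rw [e2, map_pow, ← hpr] at e
  exact refl_notMem D hs (e ▸ pow_mem hz _)

section Pairs

variable [Fintype G]

/-- The involutions commuting with, and different from, `J`. -/
noncomputable def invC (J : G) : Finset G :=
  Finset.univ.filter fun z => orderOf z = 2 ∧ Commute z J ∧ z ≠ J

omit D in
theorem mem_invC {J z : G} : z ∈ invC J ↔ orderOf z = 2 ∧ Commute z J ∧ z ≠ J := by simp [invC]

theorem phi_pair {u v : G} (hu : u ∈ invC (σ ^ 2 ^ (k + 1))) (hv : v ∈ invC (σ ^ 2 ^ (k + 1))) :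
    phi k (u * v) + phi k (u * (σ * v * σ⁻¹)) = 4 := by
  obtain ⟨hu2, huc, hune⟩ := mem_invC.1 hu
  obtain ⟨hv2, hvc, hvne⟩ := mem_invC.1 hv
  obtain ⟨s, hs, es⟩ := pr_invol D hu2 huc hune
  obtain ⟨t, ht, et⟩ := pr_invol D hv2 hvc hvne
  set u' : Subgroup.centralizer ({σ ^ 2 ^ (k + 1)} : Set G) := ⟨u, Subgroup.mem_centralizer_singleton_iff.2 huc.eq⟩
  set v' : Subgroup.centralizer ({σ ^ 2 ^ (k + 1)} : Set G) := ⟨v, Subgroup.mem_centralizer_singleton_iff.2 hvc.eq⟩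
  set σ' : Subgroup.centralizer ({σ ^ 2 ^ (k + 1)} : Set G) := ⟨σ, P_le_H D D.hσ⟩ with hσ'
  have h1 : phi k (u * v) = wt k (s⁻¹ * t) := by
    rw [show u * v = ((u' * v' : Subgroup.centralizer ({σ ^ 2 ^ (k + 1)} : Set G)) : G) from rfl, phi_eq D, map_mul,
      es, et, ← mul_assoc, tau_conj D hs]
  have hsz := Subgroup.mem_zpowers σ
  have h2 : phi k (u * (σ * v * σ⁻¹)) = wt k (s⁻¹ * t * (σ ^ 2)⁻¹) := by
    rw [show u * (σ * v * σ⁻¹) = ((u' * (σ' * v' * σ'⁻¹) : Subgroup.centralizer ({σ ^ 2 ^ (k + 1)} : Set G)) : G)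
      from rfl, phi_eq D, map_mul, map_mul, map_mul, map_inv, es, et, pr_self D D.hσ]
    congr 1
    calc τ * s * (σ * (τ * t) * σ⁻¹) = τ * (s * σ) * τ * t * σ⁻¹ := by group
      _ = (s * σ)⁻¹ * t * σ⁻¹ := by rw [tau_conj D (mul_mem hs hsz)]
      _ = σ⁻¹ * (s⁻¹ * t) * σ⁻¹ := by group
      _ = (s⁻¹ * t) * σ⁻¹ * σ⁻¹ := by rw [(zp_comm D (inv_mem hsz) (mul_mem (inv_mem hs) ht)).eq]
      _ = _ := by group
  have h3 := wt_pair D (s := s⁻¹ * t * (σ ^ 2)⁻¹) (mul_mem (mul_mem (inv_mem hs) ht) (inv_mem (pow_mem hsz 2)))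
  rw [inv_mul_cancel_right] at h3
  rw [h1, h2]
  exact h3

theorem sum_invC : ∑ u ∈ invC (σ ^ 2 ^ (k + 1)), ∑ v ∈ invC (σ ^ 2 ^ (k + 1)), phi k (u * v)
    = 2 * ((invC (σ ^ 2 ^ (k + 1))).card : ℂ) ^ 2 := by
  set I := invC (σ ^ 2 ^ (k + 1)) with hI
  have hc : Commute σ (σ ^ 2 ^ (k + 1)) := J_comm D D.hσ
  have key : ∀ u ∈ I, ∑ v ∈ I, phi k (u * v) = 2 * (I.card : ℂ) := by
    intro u hu
    have h2 : ∑ v ∈ I, phi k (u * (σ * v * σ⁻¹)) = ∑ v ∈ I, phi k (u * v) := by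
      refine Finset.sum_nbij' (fun v => σ * v * σ⁻¹) (fun v => σ⁻¹ * v * σ) (fun v hv => ?_) (fun v hv => ?_)
        (fun v _ => by group) (fun v _ => by group) (fun v _ => rfl)
      · obtain ⟨a, b, c⟩ := mem_invC.1 hv
        refine mem_invC.2 ⟨by rw [← MulAut.conj_apply, MulEquiv.orderOf_eq, a], (hc.mul_left b).mul_left hc.inv_left,
          fun e => c ?_⟩
        calc v = σ⁻¹ * (σ * v * σ⁻¹) * σ := by group
          _ = σ⁻¹ * σ ^ 2 ^ (k + 1) * σ := by rw [e]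
          _ = _ := by rw [mul_assoc, ← hc.eq, inv_mul_cancel_left]
      · obtain ⟨a, b, c⟩ := mem_invC.1 hv
        refine mem_invC.2 ⟨?_, (hc.inv_left.mul_left b).mul_left hc, fun e => c ?_⟩
        · rw [show σ⁻¹ * v * σ = σ⁻¹ * v * σ⁻¹⁻¹ by group, ← MulAut.conj_apply, MulEquiv.orderOf_eq, a]
        calc v = σ * (σ⁻¹ * v * σ) * σ⁻¹ := by group
          _ = σ * σ ^ 2 ^ (k + 1) * σ⁻¹ := by rw [e]
          _ = _ := by rw [hc.eq, mul_inv_cancel_right]
    have h3 : ∑ v ∈ I, phi k (u * v) + ∑ v ∈ I, phi k (u * (σ * v * σ⁻¹)) = (I.card : ℂ) * 4 := by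
      rw [← Finset.sum_add_distrib, Finset.sum_congr rfl (fun v hv => phi_pair D hu hv), Finset.sum_const, nsmul_eq_mul]
    rw [h2] at h3
    linear_combination h3 / 2
  rw [Finset.sum_congr rfl key, Finset.sum_const, nsmul_eq_mul]
  ring

/-- The pair count. -/
theorem sum_phi (hc1 : IsConj (σ ^ 2 ^ (k + 1)) τ) (hc2 : IsConj (σ ^ 2 ^ (k + 1)) (σ * τ)) :
    ∑ v ∈ Finset.univ.filter (fun v : G => orderOf v = 2), phi k (v * σ ^ 2 ^ (k + 1))
      = 2 * ((invC (σ ^ 2 ^ (k + 1))).card : ℂ) ^ 2 := by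
  set J := σ ^ 2 ^ (k + 1) with hJ
  set A := Finset.univ.filter (fun v : G => orderOf v = 2) with hA
  have hAmem : ∀ {x : G}, x ∈ A ↔ orderOf x = 2 := fun {x} => by simp [hA]
  have hall : ∀ x ∈ A, ∃ c : G, c * J * c⁻¹ = x := fun x hx =>
    isConj_iff.1 (conj_of_one_class D hc1 hc2 (hAmem.1 hx))
  -- shift to a common second factor
  have hL : ∀ u ∈ A, ∑ v ∈ A, phi k (u * v) = ∑ v ∈ A, phi k (v * J) := by
    intro u hu
    obtain ⟨c, hc⟩ := hall u hu
    refine Finset.sum_nbij' (fun v => c⁻¹ * v * c) (fun v => c * v * c⁻¹)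
      (fun v hv => hAmem.2 (by rw [show c⁻¹ * v * c = c⁻¹ * v * c⁻¹⁻¹ by group, ← MulAut.conj_apply,
        MulEquiv.orderOf_eq, hAmem.1 hv]))
      (fun v hv => hAmem.2 (by rw [← MulAut.conj_apply, MulEquiv.orderOf_eq, hAmem.1 hv]))
      (fun v _ => by group) (fun v _ => by group) fun v hv => ?_
    rw [← phi_conj k (u * v) (c⁻¹ * v)]
    congr 1
    rw [← hc]
    have hJ2 : (c * J * c⁻¹) * (c * J * c⁻¹) = 1 := by rw [hc, ← pow_two, ← hAmem.1 hu, pow_orderOf_eq_one]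
    have hv2 : v⁻¹ = v := inv_eq_of_mul_eq_one_left (by rw [← pow_two, ← hAmem.1 hv, pow_orderOf_eq_one])
    calc c⁻¹ * v * (c * J * c⁻¹ * v) * (c⁻¹ * v)⁻¹ = c⁻¹ * v * (c * J * c⁻¹) * (v * v⁻¹) * c := by group
      _ = c⁻¹ * v * c * J := by rw [mul_inv_cancel, mul_one]; group
  -- every pair of nonzero weight belongs to one involution
  have hJof : ∀ u ∈ A, ∀ v ∈ A, phi k (u * v) ≠ 0 → ∀ J' ∈ A, u ∈ invC J' → v ∈ invC J' →
      J' = ppart 2 (u * v) ^ (orderOf (ppart 2 (u * v)) / 2) := by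
    intro u _ v _ hw J' hJ' hu hv
    obtain ⟨c, hc⟩ := hall J' hJ'
    have hmv : ∀ {w : G}, w ∈ invC J' → c⁻¹ * w * c ∈ invC J := by
      intro w hw
      obtain ⟨a, b, e⟩ := mem_invC.1 hw
      refine mem_invC.2 ⟨by rw [show c⁻¹ * w * c = c⁻¹ * w * c⁻¹⁻¹ by group, ← MulAut.conj_apply,
        MulEquiv.orderOf_eq, a], ?_, fun e' => e ?_⟩
      · show c⁻¹ * w * c * J = J * (c⁻¹ * w * c)
        calc c⁻¹ * w * c * J = c⁻¹ * (w * (c * J * c⁻¹)) * c := by group
          _ = c⁻¹ * ((c * J * c⁻¹) * w) * c := by rw [hc, b.eq]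
          _ = _ := by group
      · rw [← hc, ← e']; group
    obtain ⟨hu2, huc, hune⟩ := mem_invC.1 (hmv hu)
    obtain ⟨hv2, hvc, hvne⟩ := mem_invC.1 (hmv hv)
    obtain ⟨s, hs, es⟩ := pr_invol D hu2 huc hune
    obtain ⟨t, ht, et⟩ := pr_invol D hv2 hvc hvne
    have hcuv : c⁻¹ * u * c * (c⁻¹ * v * c) = c⁻¹ * (u * v) * c⁻¹⁻¹ := by group
    have hpz := pow_half_eq D (h := (⟨c⁻¹ * u * c, Subgroup.mem_centralizer_singleton_iff.2 huc.eq⟩ :
        Subgroup.centralizer ({σ ^ 2 ^ (k + 1)} : Set G)) * ⟨c⁻¹ * v * c, Subgroup.mem_centralizer_singleton_iff.2 hvc.eq⟩)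
      (by
        show phi k (c⁻¹ * u * c * (c⁻¹ * v * c)) ≠ 0
        rw [hcuv, phi_conj]; exact hw)
      (by rw [map_mul, es, et, ← mul_assoc, tau_conj D hs]; exact mul_mem (inv_mem hs) ht)
    rw [Subgroup.coe_mul] at hpz
    rw [hcuv, (part_conj (p := 2) (u * v) c⁻¹).1, ← MulAut.conj_apply, MulEquiv.orderOf_eq, MulAut.conj_apply,
      conj_pow] at hpz
    rw [← hc, hJ, ← hpz]
    group
  have hex : ∀ u ∈ A, ∀ v ∈ A, phi k (u * v) ≠ 0 → ∀ J', J' = ppart 2 (u * v) ^ (orderOf (ppart 2 (u * v)) / 2) →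
      J' ∈ A ∧ u ∈ invC J' ∧ v ∈ invC J' := by
    intro u hu v hv hw J' hJ'
    have hu2 : u * u = 1 := by rw [← pow_two, ← hAmem.1 hu, pow_orderOf_eq_one]
    have hv2 : v * v = 1 := by rw [← pow_two, ← hAmem.1 hv, pow_orderOf_eq_one]
    have hui := inv_eq_of_mul_eq_one_left hu2
    have hvi := inv_eq_of_mul_eq_one_left hv2
    obtain ⟨h1, h2, h3, h4, hm, -⟩ := part_spec (p := 2) (u * v)
    set z := ppart 2 (u * v) with hz
    have hd : 2 ∣ orderOf z := by
      rcases wt_ne_zero hw with e | e <;> rw [e] <;> exact dvd_pow_self 2 (by omega)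
    have hJ'2 : orderOf J' = 2 := by rw [hJ']; exact orderOf_pow_orderOf_div (orderOf_pos z).ne' hd
    have hJ'i : J'⁻¹ = J' := inv_eq_of_mul_eq_one_left (by rw [← pow_two, ← hJ'2, pow_orderOf_eq_one])
    obtain ⟨j, hj⟩ := Subgroup.mem_zpowers_iff.1 (hJ' ▸ pow_mem hm _ : J' ∈ Subgroup.zpowers (u * v))
    have huJ : Commute u J' := by
      have : u * J' * u⁻¹ = J'⁻¹ := by
        rw [← hj, ← conj_zpow, ← inv_zpow]
        congr 1
        rw [← mul_assoc, hu2, one_mul, mul_inv_rev, hui, hvi]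
      rw [hJ'i] at this
      exact mul_inv_eq_iff_eq_mul.1 this
    have hwJ : Commute (u * v) J' := hj ▸ (Commute.refl (u * v)).zpow_right j
    have hvJ : Commute v J' := by
      have h5 := huJ.mul_left hwJ
      rwa [← mul_assoc, hu2, one_mul] at h5
    have hne : ∀ w, Commute w (u * v) → w = J' → (w = u ∨ w = v) → False := by
      intro w hwc hwJ' hwuv
      have huvc : Commute u v := by
        rcases hwuv with rfl | rfl
        · have h5 := hwc.eq
          rw [← mul_assoc, hu2, one_mul] at h5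
          calc w * v = w * (w * v * w) := by rw [← h5]
            _ = v * w := by rw [← mul_assoc, ← mul_assoc, hu2, one_mul]
        · have h5 := hwc.eq
          rw [mul_assoc u w w, hv2, mul_one] at h5
          calc u * w = (w * (u * w)) * w := by rw [h5]
            _ = w * u := by rw [mul_assoc w (u * w) w, mul_assoc u w w, hv2, mul_one]
      have hsq : (u * v) * (u * v) = 1 := by rw [huvc.symm.mul_mul_mul_comm, hu2, hv2, mul_one]
      have hne1 : u * v ≠ 1 := fun e => by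
        rw [hz, e, (part_of_regular (p := 2) (a := (1 : G)) (by rw [orderOf_one]; norm_num)).1, orderOf_one] at hd
        exact absurd hd (by norm_num)
      have ho : orderOf (u * v) = 2 := orderOf_eq_prime (by rw [pow_two]; exact hsq) hne1
      have hzw : z = u * v := (part_of_pelt (p := 2) (a := u * v) ⟨1, by rw [ho, pow_one]⟩).1
      have hJw : J' = u * v := by rw [hJ', hzw, ho, Nat.div_self two_pos, pow_one]
      rcases hwuv with rfl | rfl
      · have := hwJ'.trans hJw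
        rw [eq_comm, mul_eq_left] at this
        rw [hAmem, this, orderOf_one] at hv
        omega
      · have := hwJ'.trans hJw
        rw [eq_comm, mul_eq_right] at this
        rw [hAmem, this, orderOf_one] at hu
        omega
    refine ⟨hAmem.2 hJ'2, mem_invC.2 ⟨hAmem.1 hu, huJ, fun e => hne u ?_ e (Or.inl rfl)⟩,
      mem_invC.2 ⟨hAmem.1 hv, hvJ, fun e => hne v ?_ e (Or.inr rfl)⟩⟩
    · have h5 := hwJ.symm; rwa [← e] at h5
    · have h5 := hwJ.symm; rwa [← e] at h5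
  have hone : ∀ u ∈ A, ∀ v ∈ A,
      ∑ J' ∈ A, (if u ∈ invC J' ∧ v ∈ invC J' then phi k (u * v) else 0) = phi k (u * v) := by
    intro u hu v hv
    by_cases hw : phi k (u * v) = 0
    · simp [hw]
    obtain ⟨hA', hu', hv'⟩ := hex u hu v hv hw _ rfl
    rw [Finset.sum_eq_single_of_mem _ hA' fun J' hJ' hne => if_neg fun h => hne (hJof u hu v hv hw J' hJ' h.1 h.2),
      if_pos ⟨hu', hv'⟩]
  have hR : ∀ J' ∈ A, ∑ u ∈ A, ∑ v ∈ A, (if u ∈ invC J' ∧ v ∈ invC J' then phi k (u * v) else 0)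
      = 2 * ((invC J).card : ℂ) ^ 2 := by
    intro J' hJ'
    have hsub : ∀ {x : G}, x ∈ invC J' → x ∈ A := fun hx => hAmem.2 (mem_invC.1 hx).1
    have e1 : ∑ u ∈ A, ∑ v ∈ A, (if u ∈ invC J' ∧ v ∈ invC J' then phi k (u * v) else 0)
        = ∑ u ∈ invC J', ∑ v ∈ invC J', phi k (u * v) := by
      rw [← Finset.sum_subset (fun x hx => hsub hx) (fun u _ hu => Finset.sum_eq_zero fun v _ => if_neg fun h => hu h.1)]
      refine Finset.sum_congr rfl fun u hu => ?_
      rw [← Finset.sum_subset (fun x hx => hsub hx) (fun v _ hv => if_neg fun h => hv h.2)]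
      exact Finset.sum_congr rfl fun v hv => if_pos ⟨hu, hv⟩
    obtain ⟨c, hc⟩ := hall J' hJ'
    have hmv : ∀ {w : G}, w ∈ invC J' ↔ c⁻¹ * w * c ∈ invC J := by
      intro w
      rw [mem_invC, mem_invC, show c⁻¹ * w * c = MulAut.conj c⁻¹ w by simp, MulEquiv.orderOf_eq,
        show J = MulAut.conj c⁻¹ J' by rw [← hc]; simp; group]
      exact and_congr_right fun _ => and_congr ⟨fun h => h.map (MulAut.conj c⁻¹).toMonoidHom,
          fun h => Commute.of_map (f := (MulAut.conj c⁻¹).toMonoidHom) (MulAut.conj c⁻¹).injective h⟩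
        (not_congr ⟨fun h => congrArg _ h, fun h => (MulAut.conj c⁻¹).injective h⟩)
    have hback : ∀ {w : G}, w ∈ invC J → c * w * c⁻¹ ∈ invC J' := fun {w} hw =>
      hmv.2 (by rw [show c⁻¹ * (c * w * c⁻¹) * c = w by group]; exact hw)
    rw [e1, ← sum_invC D]
    refine Finset.sum_nbij' (fun v => c⁻¹ * v * c) (fun v => c * v * c⁻¹) (fun v hv => hmv.1 hv) (fun v hv => hback hv)
      (fun v _ => by group) (fun v _ => by group) fun u _ => ?_
    refine Finset.sum_nbij' (fun v => c⁻¹ * v * c) (fun v => c * v * c⁻¹) (fun v hv => hmv.1 hv) (fun v hv => hback hv)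
      (fun v _ => by group) (fun v _ => by group) fun v _ => ?_
    rw [← phi_conj k (u * v) c⁻¹]
    congr 1
    group
  have hT : ∑ u ∈ A, ∑ v ∈ A, phi k (u * v) = (A.card : ℂ) * (2 * ((invC J).card : ℂ) ^ 2) := by
    rw [Finset.sum_congr rfl fun u hu => Finset.sum_congr rfl fun v hv => (hone u hu v hv).symm]
    rw [Finset.sum_congr rfl fun u _ => Finset.sum_comm, Finset.sum_comm, Finset.sum_congr rfl hR, Finset.sum_const,
      nsmul_eq_mul]
  rw [Finset.sum_congr rfl hL, Finset.sum_const, nsmul_eq_mul] at hT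
  refine mul_left_cancel₀ ?_ hT
  exact Nat.cast_ne_zero.2 (Finset.card_pos.2 ⟨J, hAmem.2 (J_orderOf D)⟩).ne'

/-- The involutions of the centralizer, other than the central one, in two classes. -/
theorem card_invC : ((invC (σ ^ 2 ^ (k + 1))).card : ℂ) =
    (Nat.card (Subgroup.centralizer ({σ ^ 2 ^ (k + 1)} : Set G)) : ℂ) *
      (1 / (Nat.card (Subgroup.centralizer ({σ ^ 2 ^ (k + 1), τ} : Set G)) : ℂ)
        + 1 / (Nat.card (Subgroup.centralizer ({σ ^ 2 ^ (k + 1), σ * τ} : Set G)) : ℂ)) := by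
  set J := σ ^ 2 ^ (k + 1) with hJ
  set H := Subgroup.centralizer ({J} : Set G) with hH
  have hστ : σ * τ = τ * σ⁻¹ := tau_mul D (Subgroup.mem_zpowers σ)
  have hστP : σ * τ ∈ (P : Subgroup G) := mul_mem D.hσ D.hτ
  have hστz : σ * τ ∉ Subgroup.zpowers σ := hστ ▸ refl_notMem D (inv_mem (Subgroup.mem_zpowers σ))
  let cl : G → Finset G := fun a => Finset.univ.filter fun z => ∃ g ∈ H, g * a * g⁻¹ = z
  have hcl : ∀ a ∈ H, (cl a).card * Nat.card (Subgroup.centralizer ({J, a} : Set G)) = Nat.card H := by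
    intro a ha
    rw [← card_centralizer_mul_class (G := H) ⟨a, ha⟩, mul_comm]
    have hmem : ∀ g : G, g ∈ Subgroup.centralizer ({J, a} : Set G) ↔ g ∈ H ∧ g * a = a * g := fun g => by
      rw [Subgroup.mem_centralizer_iff, Subgroup.mem_centralizer_singleton_iff]
      simp only [Set.mem_insert_iff, Set.mem_singleton_iff, forall_eq_or_imp, forall_eq]
      exact and_congr eq_comm eq_comm
    congr 1
    · refine Nat.card_congr
        { toFun := fun g => ⟨⟨g.1, ((hmem _).1 g.2).1⟩,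
            Subgroup.mem_centralizer_singleton_iff.2 (Subtype.ext ((hmem _).1 g.2).2)⟩
          invFun := fun g => ⟨g.1.1, (hmem _).2 ⟨g.1.2, congrArg Subtype.val
            (Subgroup.mem_centralizer_singleton_iff.1 g.2)⟩⟩
          left_inv := fun g => rfl
          right_inv := fun g => rfl }
    · rw [← Nat.card_eq_finsetCard]
      refine Nat.card_congr
        { toFun := fun z => ⟨⟨z.1, ?_⟩, ?_⟩
          invFun := fun z => ⟨z.1.1, ?_⟩
          left_inv := fun z => rfl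
          right_inv := fun z => rfl }
      · obtain ⟨g, hg, e⟩ := (Finset.mem_filter.1 z.2).2
        exact e ▸ mul_mem (mul_mem hg ha) (inv_mem hg)
      · obtain ⟨g, hg, e⟩ := (Finset.mem_filter.1 z.2).2
        exact isConj_iff.2 ⟨⟨g, hg⟩, Subtype.ext e⟩
      · obtain ⟨g, e⟩ := isConj_iff.1 (show IsConj (⟨a, ha⟩ : H) z.1 from z.2)
        exact Finset.mem_filter.2 ⟨Finset.mem_univ _, g.1, g.2, congrArg Subtype.val e⟩
  have hdisj : Disjoint (cl τ) (cl (σ * τ)) := by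
    rw [Finset.disjoint_left]
    intro z h1 h2
    obtain ⟨g, hg, rfl⟩ := (Finset.mem_filter.1 h1).2
    obtain ⟨g', hg', e⟩ := (Finset.mem_filter.1 h2).2
    have e' : g'⁻¹ * g * τ * (g'⁻¹ * g)⁻¹ = σ * τ := by
      calc g'⁻¹ * g * τ * (g'⁻¹ * g)⁻¹ = g'⁻¹ * (g * τ * g⁻¹) * g' := by group
        _ = g'⁻¹ * (g' * (σ * τ) * g'⁻¹) * g' := by rw [e]
        _ = _ := by group
    have e'' := conj_pr D (mul_mem (inv_mem hg') hg) D.hτ hστP e'
    have key : ∀ s ∈ Subgroup.zpowers σ, τ * s ^ 2 ≠ σ * τ := by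
      intro s hs hs'
      rw [hστ] at hs'
      have h3 : s ^ 2 = σ⁻¹ := mul_left_cancel hs'
      have h4 : σ ^ 2 ^ (k + 1) = 1 := by
        have h5 : (s ^ 2) ^ 2 ^ (k + 1) = 1 := by
          rw [← pow_mul, ← pow_succ', orderOf_dvd_iff_pow_eq_one.1 (D.hord ▸ orderOf_dvd_of_mem_zpowers hs)]
        rwa [h3, inv_pow, inv_eq_one] at h5
      have := J_orderOf D
      rw [h4, orderOf_one] at this
      omega
    rcases mem_cases D (pr_mem D ⟨g'⁻¹ * g, mul_mem (inv_mem hg') hg⟩) with h | ⟨t, ht, hpt⟩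
    · refine key _ (inv_mem h) ?_
      rw [← e'', tau_mul D h, mul_assoc, pow_two]
    · refine key t ht ?_
      rw [← e'', hpt, mul_inv_rev, tau_inv D]
      calc τ * t ^ 2 = τ * t * t := by rw [pow_two, mul_assoc]
        _ = τ * t * (τ * t⁻¹ * τ) := by rw [tau_conj D (inv_mem ht), inv_inv]
        _ = τ * t * τ * (t⁻¹ * τ) := by group
  have hunion : invC J = cl τ ∪ cl (σ * τ) := by
    ext z
    rw [Finset.mem_union]
    constructor
    · intro hz
      obtain ⟨hz2, hzc, hzne⟩ := mem_invC.1 hz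
      have hzH : z ∈ H := Subgroup.mem_centralizer_singleton_iff.2 hzc.eq
      obtain ⟨Q', hQ'⟩ := (IsPGroup.of_card (n := 1) (by rw [Nat.card_zpowers, Subgroup.orderOf_mk z hzH, hz2, pow_one]) :
        IsPGroup 2 (Subgroup.zpowers (⟨z, hzH⟩ : H))).exists_le_sylow
      obtain ⟨c, hc⟩ := MulAction.exists_smul_eq H Q' (P.subtype (P_le_H D))
      have hmem : (c : G) * z * (c : G)⁻¹ ∈ (P : Subgroup G) := by
        have h : c * ⟨z, hzH⟩ * c⁻¹ ∈ ((P.subtype (P_le_H D) : Sylow 2 H) : Subgroup H) := by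
          rw [← hc, Sylow.coe_subgroup_smul]
          exact Subgroup.smul_mem_pointwise_smul _ _ _ (hQ' (Subgroup.mem_zpowers _))
        exact h
      rcases mem_cases D hmem with h | ⟨s, hs, e⟩
      · refine absurd ?_ hzne
        have e := eq_J D h (by rw [← MulAut.conj_apply, MulEquiv.orderOf_eq, hz2])
        calc z = (c : G)⁻¹ * ((c : G) * z * (c : G)⁻¹) * c := by group
          _ = (c : G)⁻¹ * J * c := by rw [e]
          _ = J := by rw [mul_assoc, ← Subgroup.mem_centralizer_singleton_iff.1 c.2, inv_mul_cancel_left]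
      · obtain ⟨q, hq, hqe⟩ := refl_class D hs
        have hback : ∀ a : G, q * (τ * s) * q⁻¹ = a → z ∈ cl a := fun a ha => by
          refine Finset.mem_filter.2 ⟨Finset.mem_univ _, (q * (c : G))⁻¹, inv_mem (mul_mem (P_le_H D hq) c.2), ?_⟩
          rw [← ha, ← e]; group
        exact hqe.imp (hback τ) (hback (σ * τ))
    · rintro (h | h) <;> obtain ⟨g, hg, rfl⟩ := (Finset.mem_filter.1 h).2 <;>
        have hgJ := Subgroup.mem_centralizer_singleton_iff.1 hg
      · refine mem_invC.2 ⟨by rw [← MulAut.conj_apply, MulEquiv.orderOf_eq, D.hτ2],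
          ((show Commute g J from hgJ).mul_left (J_comm D D.hτ)).mul_left (show Commute g J from hgJ).inv_left,
          fun e => tau_notMem D ?_⟩
        rw [mul_inv_eq_iff_eq_mul, ← hgJ] at e
        exact mul_left_cancel e ▸ J_mem_zp D
      · refine mem_invC.2 ⟨by rw [← MulAut.conj_apply, MulEquiv.orderOf_eq, hστ,
          refl_orderOf D (inv_mem (Subgroup.mem_zpowers σ))],
          ((show Commute g J from hgJ).mul_left (J_comm D hστP)).mul_left (show Commute g J from hgJ).inv_left,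
          fun e => hστz ?_⟩
        rw [mul_inv_eq_iff_eq_mul, ← hgJ] at e
        exact mul_left_cancel e ▸ J_mem_zp D
  rw [hunion, Finset.card_union_of_disjoint hdisj, Nat.cast_add, mul_add]
  have e1 : ((cl τ).card : ℂ) * (Nat.card (Subgroup.centralizer ({J, τ} : Set G)) : ℂ) = (Nat.card H : ℂ) := by
    exact_mod_cast hcl τ (P_le_H D D.hτ)
  have e2 : ((cl (σ * τ)).card : ℂ) * (Nat.card (Subgroup.centralizer ({J, σ * τ} : Set G)) : ℂ) = (Nat.card H : ℂ) := by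
    exact_mod_cast hcl (σ * τ) (P_le_H D hστP)
  congr 1
  · rw [← e1, mul_one_div, mul_div_cancel_right₀ _ (Nat.cast_ne_zero.2 Nat.card_pos.ne')]
  · rw [← e2, mul_one_div, mul_div_cancel_right₀ _ (Nat.cast_ne_zero.2 Nat.card_pos.ne')]

end Pairs

end CfsgLib.ZStar.Dihedral
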