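import Cfsg.Agent.ZStar.DihedralCount
import Cfsg.Agent.Blocks.Subsection

/-!
The generalized characters of a group with a dihedral Sylow 2-subgroup carried by the sections of the
rotations: they are induced from the centralizer of the central involution.
-/

set_option autoImplicit false
set_option linter.style.haveILetI false
set_option linter.unusedSectionVars false
set_option linter.deprecated false

namespace CfsgLib.ZStar.DihedralRot

open Cfsg CfsgLib.CharBasics CfsgLib.BrauerInd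
open CfsgLib.ZStar.Dihedral
open scoped ComplexConjugate Classical

universe u

/-- The sum of two conjugate powers of a root of unity minus two. -/
noncomputable def rotVal (c : ℂ) (j l : ℕ) : ℂ := (c ^ (j : ℤ)) ^ l + (c ^ (-(j : ℤ))) ^ l - 2

variable {G : Type u} [Group G] [Fintype G] [Fact (Nat.Prime 2)]
variable {P : Sylow 2 G} {σ τ : G} {k : ℕ} (D : Data P σ τ k)
variable {ζ : ℂ} (hζ : IsPrimitiveRoot ζ (2 ^ (k + 2)))

include D

/-- A power of a nontrivial rotation is the central involution. -/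
theorem rot_pow {z : G} (hz : z ∈ Subgroup.zpowers σ) (h1 : z ≠ 1) :
    z ^ (orderOf z / 2) = σ ^ 2 ^ (k + 1) := by
  obtain ⟨a, -, ha⟩ := (Nat.dvd_prime_pow Nat.prime_two).1 (D.hord ▸ orderOf_dvd_of_mem_zpowers hz)
  have ha0 : a ≠ 0 := fun e => h1 (orderOf_eq_one_iff.1 (by rw [ha, e, pow_zero]))
  exact eq_J D (pow_mem hz _) (orderOf_pow_orderOf_div (orderOf_pos z).ne' (ha ▸ dvd_pow_self 2 ha0))

theorem rot_cent_le {z : G} (hz : z ∈ Subgroup.zpowers σ) (h1 : z ≠ 1) {h : G} (hh : Commute h z) :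
    h ∈ Subgroup.centralizer ({σ ^ 2 ^ (k + 1)} : Set G) :=
  Subgroup.mem_centralizer_singleton_iff.2 (rot_pow D hz h1 ▸ (hh.pow_right _).eq)

theorem rot_pelt {z : G} (hz : z ∈ Subgroup.zpowers σ) : ∃ a, orderOf z = 2 ^ a := by
  obtain ⟨a, -, ha⟩ := (Nat.dvd_prime_pow Nat.prime_two).1 (D.hord ▸ orderOf_dvd_of_mem_zpowers hz)
  exact ⟨a, ha⟩

theorem pr_self' {c : Subgroup.centralizer ({σ ^ 2 ^ (k + 1)} : Set G)} (hc : (c : G) ∈ (P : Subgroup G)) :
    pr D c = c := by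
  conv_lhs => rw [show c = ⟨(c : G), P_le_H D hc⟩ from rfl]
  exact pr_self D hc

/-- The 2-part is conjugate to the projection by an element of odd order. -/
theorem exists_conj_ppart (h : Subgroup.centralizer ({σ ^ 2 ^ (k + 1)} : Set G)) :
    ∃ c : Subgroup.centralizer ({σ ^ 2 ^ (k + 1)} : Set G), pr D c = 1 ∧
      (c : G) * pr D h * (c : G)⁻¹ = ppart 2 (h : G) := by
  obtain ⟨h1, -, ⟨a, ha⟩, h4, hm, hm'⟩ := part_spec (p := 2) (h : G)
  set u : (Subgroup.centralizer ({σ ^ 2 ^ (k + 1)} : Set G)) := ⟨ppart 2 (h : G), Subgroup.zpowers_le.2 h.2 hm⟩ with hu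
  have hpr : pr D h = pr D u := by
    set r : (Subgroup.centralizer ({σ ^ 2 ^ (k + 1)} : Set G)) := ⟨prest 2 (h : G), Subgroup.zpowers_le.2 h.2 hm'⟩ with hr
    rw [show h = u * r from Subtype.ext h1.symm, map_mul, (pr_eq_one D r).2 h4, mul_one]
  obtain ⟨Q, hQ⟩ := (IsPGroup.of_card (n := a) (by rw [Nat.card_zpowers, hu, Subgroup.orderOf_mk, ha]) :
    IsPGroup 2 (Subgroup.zpowers u)).exists_le_sylow
  obtain ⟨c, hc⟩ := MulAction.exists_smul_eq (Subgroup.centralizer ({σ ^ 2 ^ (k + 1)} : Set G)) Q (P.subtype (P_le_H D))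
  have hmem : ((c * u * c⁻¹ : (Subgroup.centralizer ({σ ^ 2 ^ (k + 1)} : Set G))) : G) ∈ (P : Subgroup G) := by
    have hh : c * u * c⁻¹ ∈ ((P.subtype (P_le_H D) : Sylow 2 (Subgroup.centralizer ({σ ^ 2 ^ (k + 1)} : Set G))) : Subgroup (Subgroup.centralizer ({σ ^ 2 ^ (k + 1)} : Set G))) := by
      rw [← hc, Sylow.coe_subgroup_smul]
      exact Subgroup.smul_mem_pointwise_smul _ _ _ (hQ (Subgroup.mem_zpowers _))
    exact hh
  set q : (Subgroup.centralizer ({σ ^ 2 ^ (k + 1)} : Set G)) := ⟨pr D c, P_le_H D (pr_mem D c)⟩ with hq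
  refine ⟨c⁻¹ * q, ?_, ?_⟩
  · rw [map_mul, map_inv, pr_self' D (c := q) (pr_mem D c)]
    exact inv_mul_cancel _
  · have e := pr_self' D hmem
    simp only [map_mul, map_inv, ← hpr] at e
    simp only [Subgroup.coe_mul, Subgroup.coe_inv] at e ⊢
    simp only [hq]
    calc (c : G)⁻¹ * pr D c * pr D h * ((c : G)⁻¹ * pr D c)⁻¹
        = (c : G)⁻¹ * (pr D c * pr D h * (pr D c)⁻¹) * c := by group
      _ = (c : G)⁻¹ * ((c : G) * u * (c : G)⁻¹) * c := by rw [e]
      _ = ppart 2 (h : G) := by rw [hu]; group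

theorem ppart_pow_J {h : Subgroup.centralizer ({σ ^ 2 ^ (k + 1)} : Set G)}
    (hz : pr D h ∈ Subgroup.zpowers σ) (h1 : pr D h ≠ 1) :
    ppart 2 (h : G) ^ (orderOf (ppart 2 (h : G)) / 2) = σ ^ 2 ^ (k + 1) := by
  obtain ⟨c, -, hc⟩ := exists_conj_ppart D h
  rw [orderOf_ppart D h, ← hc, conj_pow, rot_pow D hz h1]
  exact mul_inv_eq_iff_eq_mul.2 (Subgroup.mem_centralizer_singleton_iff.1 c.2)

/-- The support is a trivial intersection set. -/
theorem rot_TI {h h' : Subgroup.centralizer ({σ ^ 2 ^ (k + 1)} : Set G)} {x : G}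
    (hz : pr D h ∈ Subgroup.zpowers σ) (h1 : pr D h ≠ 1) (hz' : pr D h' ∈ Subgroup.zpowers σ) (h1' : pr D h' ≠ 1)
    (e : x⁻¹ * (h : G) * x = h') : x ∈ Subgroup.centralizer ({σ ^ 2 ^ (k + 1)} : Set G) := by
  have e' : x⁻¹ * (h : G) * x⁻¹⁻¹ = h' := by rw [inv_inv, e]
  have hpp : ppart 2 (h' : G) = x⁻¹ * ppart 2 (h : G) * x⁻¹⁻¹ := by rw [← e', (part_conj (p := 2) _ _).1]
  have h2 := ppart_pow_J D hz' h1'
  rw [hpp, conj_pow, show orderOf (x⁻¹ * ppart 2 (h : G) * x⁻¹⁻¹) = orderOf (ppart 2 (h : G)) by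
    rw [← MulAut.conj_apply, MulEquiv.orderOf_eq], ppart_pow_J D hz h1, inv_inv] at h2
  refine Subgroup.mem_centralizer_singleton_iff.2 ?_
  calc x * σ ^ 2 ^ (k + 1) = x * (x⁻¹ * σ ^ 2 ^ (k + 1) * x) := by rw [h2]
    _ = _ := by group

include hζ

theorem root_ne_zero : ζ ≠ 0 := hζ.ne_zero (by positivity)

theorem exists_lam : ∃ lam : Subgroup.zpowers σ →* ℂˣ, ((lam ⟨σ, Subgroup.mem_zpowers σ⟩ : ℂˣ) : ℂ) = ζ := by
  have h0 := root_ne_zero D hζ
  have hgen : ∀ x : Subgroup.zpowers σ, x ∈ Subgroup.zpowers (⟨σ, Subgroup.mem_zpowers σ⟩ : Subgroup.zpowers σ) := by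
    intro x
    obtain ⟨j, hj⟩ := Subgroup.mem_zpowers_iff.1 x.2
    exact ⟨j, Subtype.ext (by simpa using hj)⟩
  have hdvd : orderOf (Units.mk0 ζ h0) ∣ orderOf (⟨σ, Subgroup.mem_zpowers σ⟩ : Subgroup.zpowers σ) := by
    rw [Subgroup.orderOf_mk, D.hord]
    exact orderOf_dvd_of_pow_eq_one (Units.ext (by rw [Units.val_pow_eq_pow_val]; exact hζ.pow_eq_one))
  exact ⟨monoidHomOfForallMemZpowers hgen hdvd, by rw [monoidHomOfForallMemZpowers_apply_gen]; rfl⟩

/-- The function on the rotations. -/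
noncomputable def psi (j : ℕ) (z : G) : ℂ :=
  if h : z ∈ Subgroup.zpowers σ then
    ((((exists_lam D hζ).choose ^ j) ⟨z, h⟩ : ℂˣ) : ℂ) + ((((exists_lam D hζ).choose ^ j) ⟨z, h⟩⁻¹ : ℂˣ) : ℂ) - 2
  else 0

theorem psi_pow (j l : ℕ) : psi D hζ j (σ ^ l) = rotVal ζ j l := by
  have hm : σ ^ l ∈ Subgroup.zpowers σ := pow_mem (Subgroup.mem_zpowers σ) l
  rw [psi, dif_pos hm,
    show (⟨σ ^ l, hm⟩ : Subgroup.zpowers σ) = ⟨σ, Subgroup.mem_zpowers σ⟩ ^ l from Subtype.ext rfl]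
  simp only [rotVal, MonoidHom.pow_apply, map_inv, map_pow, Units.val_inv_eq_inv_val, Units.val_pow_eq_pow_val,
    (exists_lam D hζ).choose_spec, zpow_neg, zpow_natCast, inv_pow, ← pow_mul]

theorem psi_one (j : ℕ) : psi D hζ j (1 : G) = 0 := by
  rw [show (1 : G) = σ ^ 0 by rw [pow_zero], psi_pow]
  norm_num [rotVal]

theorem psi_ne {j : ℕ} {z : G} (h : psi D hζ j z ≠ 0) : z ∈ Subgroup.zpowers σ ∧ z ≠ 1 :=
  ⟨by by_contra hz; exact h (dif_neg hz), fun e => h (e ▸ psi_one D hζ j)⟩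

theorem psi_mem_genChar (j : ℕ) : (fun y : (P : Subgroup G) => psi D hζ j (y : G)) ∈ genChar (P : Subgroup G) := by
  set R := (Subgroup.zpowers σ).subgroupOf (P : Subgroup G) with hR
  set e : R →* Subgroup.zpowers σ := ((P : Subgroup G).subtype.comp R.subtype).codRestrict _ (fun r => r.2) with he
  set l : R →* ℂˣ := ((exists_lam D hζ).choose ^ j).comp e with hl
  set f : R → ℂ := fun r => (l r : ℂ) - 1 with hf
  have hfg : f ∈ genChar R := sub_mem (AddSubgroup.subset_closure (isCharacter_linear l))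
    (AddSubgroup.subset_closure (isCharacter_of_irr (oneChar : IrrCharacter R).2))
  have hRN : Nat.card R = 2 ^ (k + 2) := by
    rw [hR, Nat.card_congr (Subgroup.subgroupOfEquivOfLe (zp_le D)).toEquiv, Nat.card_zpowers, D.hord]
  suffices h : (fun y : (P : Subgroup G) => psi D hζ j (y : G)) = indFun R f by
    rw [h]; exact indFun_mem_genChar R hfg
  funext g
  rw [indFun]
  by_cases hg : (g : G) ∈ Subgroup.zpowers σ
  · set g' : R := ⟨g, hg⟩ with hg'
    have key : ∀ x : (P : Subgroup G), extendByZero R f (x⁻¹ * g * x) = if x ∈ R then f g' else f g'⁻¹ := by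
      intro x
      split_ifs with hx
      · rw [show x⁻¹ * g * x = ((g' : R) : (P : Subgroup G)) from Subtype.ext (by
          simp only [Subgroup.coe_mul, Subgroup.coe_inv, hg']
          rw [mul_assoc, (zp_comm D hg hx : Commute (g : G) (x : G)).eq, inv_mul_cancel_left]), extendByZero_coe]
      · obtain ⟨s, hs, hxs⟩ := (mem_cases D x.2).resolve_left hx
        rw [show x⁻¹ * g * x = ((g'⁻¹ : R) : (P : Subgroup G)) from Subtype.ext (by
          simp only [Subgroup.coe_mul, Subgroup.coe_inv, hg', hxs]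
          calc (τ * s)⁻¹ * g * (τ * s) = s⁻¹ * (τ⁻¹ * g * τ) * s := by group
            _ = _ := by rw [tau_inv D, tau_conj D hg, (zp_comm D (inv_mem hs) (inv_mem hg)).eq, inv_mul_cancel_right]),
          extendByZero_coe]
    rw [Finset.sum_congr rfl fun x _ => key x, Finset.sum_ite, Finset.sum_const, Finset.sum_const, nsmul_eq_mul,
      nsmul_eq_mul]
    have hc1 : (Finset.univ.filter fun x : (P : Subgroup G) => x ∈ R).card = 2 ^ (k + 2) := by
      rw [← hRN, Nat.card_eq_fintype_card, ← Fintype.card_subtype]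
    have hc2 : (Finset.univ.filter fun x : (P : Subgroup G) => x ∉ R).card = 2 ^ (k + 2) := by
      have h := Finset.card_filter_add_card_filter_not (s := (Finset.univ : Finset (P : Subgroup G))) (fun x => x ∈ R)
      rw [hc1, Finset.card_univ, ← Nat.card_eq_fintype_card, card_P D] at h
      omega
    rw [hc1, hc2, hRN]
    simp only [psi, dif_pos hg, hf, hl, MonoidHom.comp_apply, map_inv]
    rw [show e g' = ⟨(g : G), hg⟩ from rfl]
    push_cast
    field_simp
    ring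
  · rw [psi, dif_neg hg, Finset.sum_eq_zero, mul_zero]
    intro x _
    refine extendByZero_of_not_mem R f fun hx => hg ?_
    have hx' : (x : G)⁻¹ * g * x ∈ Subgroup.zpowers σ := hx
    have hback : (g : G) = x * ((x : G)⁻¹ * g * x) * (x : G)⁻¹ := by group
    rw [hback]
    rcases conj_zp D x.2 hx' with h | h <;> rw [h]
    exacts [hx', inv_mem hx']

/-- The inflation to the centralizer of the central involution. -/
noncomputable def inflA (j : ℕ) (h : Subgroup.centralizer ({σ ^ 2 ^ (k + 1)} : Set G)) : ℂ := psi D hζ j (pr D h)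

theorem inflA_mem_genChar (j : ℕ) : inflA D hζ j ∈ genChar (Subgroup.centralizer ({σ ^ 2 ^ (k + 1)} : Set G)) :=
  genChar_comp (psi_mem_genChar D hζ j) ((pr D).codRestrict _ (pr_mem D))

/-- The induced function. -/
noncomputable def rotChar (j : ℕ) : G → ℂ :=
  indFun (Subgroup.centralizer ({σ ^ 2 ^ (k + 1)} : Set G)) (inflA D hζ j)

theorem rotChar_mem_genChar (j : ℕ) : rotChar D hζ j ∈ genChar G :=
  indFun_mem_genChar _ (inflA_mem_genChar D hζ j)

theorem rotChar_apply (j : ℕ) {h : Subgroup.centralizer ({σ ^ 2 ^ (k + 1)} : Set G)}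
    (hz : pr D h ∈ Subgroup.zpowers σ) (h1 : pr D h ≠ 1) : rotChar D hζ j (h : G) = psi D hζ j (pr D h) := by
  have key : ∀ x : G, extendByZero (Subgroup.centralizer ({σ ^ 2 ^ (k + 1)} : Set G)) (inflA D hζ j) (x⁻¹ * (h : G) * x) = if x ∈ (Subgroup.centralizer ({σ ^ 2 ^ (k + 1)} : Set G)) then inflA D hζ j h else 0 := by
    intro x
    split_ifs with hx
    · rw [show x⁻¹ * (h : G) * x = ((((⟨x, hx⟩ : (Subgroup.centralizer ({σ ^ 2 ^ (k + 1)} : Set G))))⁻¹ * h * ⟨x, hx⟩ : (Subgroup.centralizer ({σ ^ 2 ^ (k + 1)} : Set G))) : G) from rfl, extendByZero_coe]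
      simpa using genChar_isClassFunction (inflA_mem_genChar D hζ j) h (⟨x, hx⟩ : (Subgroup.centralizer ({σ ^ 2 ^ (k + 1)} : Set G)))⁻¹
    · by_cases hm : x⁻¹ * (h : G) * x ∈ (Subgroup.centralizer ({σ ^ 2 ^ (k + 1)} : Set G))
      · rw [show x⁻¹ * (h : G) * x = ((⟨_, hm⟩ : (Subgroup.centralizer ({σ ^ 2 ^ (k + 1)} : Set G))) : G) from rfl, extendByZero_coe]
        by_contra h0
        obtain ⟨a, b⟩ := psi_ne D hζ h0
        exact hx (rot_TI D hz h1 a b rfl)
      · exact extendByZero_of_not_mem (Subgroup.centralizer ({σ ^ 2 ^ (k + 1)} : Set G)) _ hm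
  rw [rotChar, indFun, Finset.sum_congr rfl fun x _ => key x, ← Finset.sum_filter, Finset.sum_const, nsmul_eq_mul,
    ← Fintype.card_subtype, ← Nat.card_eq_fintype_card, ← mul_assoc]
  rw [show Nat.card {x : G // x ∈ (Subgroup.centralizer ({σ ^ 2 ^ (k + 1)} : Set G))} = Nat.card (Subgroup.centralizer ({σ ^ 2 ^ (k + 1)} : Set G)) from rfl, inv_mul_cancel₀ (Nat.cast_ne_zero.2 Nat.card_pos.ne'), one_mul]
  rfl

theorem rotChar_regular (j : ℕ) {y : G} (hy : ¬ 2 ∣ orderOf y) : rotChar D hζ j y = 0 := by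
  rw [rotChar, indFun, Finset.sum_eq_zero, mul_zero]
  intro x _
  by_cases hm : x⁻¹ * y * x ∈ Subgroup.centralizer ({σ ^ 2 ^ (k + 1)} : Set G)
  · rw [show x⁻¹ * y * x = ((⟨_, hm⟩ : Subgroup.centralizer ({σ ^ 2 ^ (k + 1)} : Set G)) : G) from rfl, extendByZero_coe,
      inflA, (pr_eq_one D ⟨_, hm⟩).2, psi_one]
    show ¬ 2 ∣ orderOf (x⁻¹ * y * x)
    rw [show x⁻¹ * y * x = x⁻¹ * y * x⁻¹⁻¹ by rw [inv_inv], ← MulAut.conj_apply, MulEquiv.orderOf_eq]
    exact hy
  · exact extendByZero_of_not_mem _ _ hm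

omit hζ in
theorem card_fiber {z : G} (hz : z ∈ (P : Subgroup G)) :
    Nat.card (P : Subgroup G) * Nat.card {h : Subgroup.centralizer ({σ ^ 2 ^ (k + 1)} : Set G) // pr D h = z}
      = Nat.card (Subgroup.centralizer ({σ ^ 2 ^ (k + 1)} : Set G)) := by
  set π : (Subgroup.centralizer ({σ ^ 2 ^ (k + 1)} : Set G)) → (P : Subgroup G) := fun h => ⟨pr D h, pr_mem D h⟩ with hπ
  have hfib : ∀ w : (P : Subgroup G), Nat.card {h // π h = w} = Nat.card {h : (Subgroup.centralizer ({σ ^ 2 ^ (k + 1)} : Set G)) // pr D h = z} := by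
    intro w
    refine Nat.card_congr ((Equiv.mulLeft (⟨z * (w : G)⁻¹, P_le_H D (mul_mem hz (inv_mem w.2))⟩ : (Subgroup.centralizer ({σ ^ 2 ^ (k + 1)} : Set G)))).subtypeEquiv
      fun h => ?_)
    show π h = w ↔ pr D ((⟨z * (w : G)⁻¹, P_le_H D (mul_mem hz (inv_mem w.2))⟩ : (Subgroup.centralizer ({σ ^ 2 ^ (k + 1)} : Set G))) * h) = z
    rw [map_mul, pr_self D (mul_mem hz (inv_mem w.2)), hπ, Subtype.ext_iff, mul_assoc, mul_eq_left,
      inv_mul_eq_one, eq_comm]
  rw [← Nat.card_congr (Equiv.sigmaFiberEquiv π), Nat.card_sigma, Finset.sum_congr rfl fun w _ => hfib w,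
    Finset.sum_const, Finset.card_univ, smul_eq_mul, ← Nat.card_eq_fintype_card]

/-- Inner products on the centralizer reduce to sums over the rotations. -/
theorem inner_inflA (j : ℕ) {F : Subgroup.centralizer ({σ ^ 2 ^ (k + 1)} : Set G) → ℂ} {f : G → ℂ}
    (hF : ∀ h, pr D h ∈ Subgroup.zpowers σ → pr D h ≠ 1 → F h = f (pr D h)) :
    classInner (inflA D hζ j) F
      = (Nat.card (P : Subgroup G) : ℂ)⁻¹ * ∑ l ∈ Finset.range (2 ^ (k + 2)), rotVal ζ j l * conj (f (σ ^ l)) := by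
  set R := Finset.univ.filter fun z : G => z ∈ Subgroup.zpowers σ with hR
  have hsum : ∑ l ∈ Finset.range (2 ^ (k + 2)), rotVal ζ j l * conj (f (σ ^ l))
      = ∑ z ∈ R, psi D hζ j z * conj (f z) := by
    refine Finset.sum_nbij (fun l => σ ^ l) (fun l _ => Finset.mem_filter.2 ⟨Finset.mem_univ _, pow_mem (Subgroup.mem_zpowers σ) l⟩)
      (fun a ha b hb h => pow_injOn_Iio_orderOf (by simpa [D.hord] using ha) (by simpa [D.hord] using hb) h)
      (fun z hz => ?_) (fun l _ => by rw [psi_pow])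
    obtain ⟨l, hl, e⟩ := exists_pow D (Finset.mem_filter.1 hz).2
    exact ⟨l, Finset.mem_range.2 hl, e⟩
  have hterm : ∀ h : (Subgroup.centralizer ({σ ^ 2 ^ (k + 1)} : Set G)), inflA D hζ j h * conj (F h) = if pr D h ∈ R then psi D hζ j (pr D h) * conj (f (pr D h)) else 0 := by
    intro h
    by_cases hne : psi D hζ j (pr D h) = 0
    · simp [inflA, hne]
    · obtain ⟨a, b⟩ := psi_ne D hζ hne
      rw [if_pos (by simp [hR, a]), hF h a b, inflA]
  rw [hsum, classInner_eq, Finset.sum_congr rfl fun h _ => hterm h, ← Finset.sum_filter,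
    ← Finset.sum_fiberwise_of_maps_to (t := R) (g := fun h => pr D h) (fun h hh => (Finset.mem_filter.1 hh).2),
    Finset.mul_sum, Finset.mul_sum]
  refine Finset.sum_congr rfl fun z hz => ?_
  have hzP : z ∈ (P : Subgroup G) := zp_le D (Finset.mem_filter.1 hz).2
  rw [Finset.filter_filter, Finset.sum_congr rfl (g := fun _ => psi D hζ j z * conj (f z))
    (fun h hh => by rw [(Finset.mem_filter.1 hh).2.2]), Finset.sum_const, nsmul_eq_mul]
  rw [show (Finset.univ.filter fun h : (Subgroup.centralizer ({σ ^ 2 ^ (k + 1)} : Set G)) => pr D h ∈ R ∧ pr D h = z).card = Nat.card {h : (Subgroup.centralizer ({σ ^ 2 ^ (k + 1)} : Set G)) // pr D h = z} by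
    rw [Nat.card_eq_fintype_card, Fintype.card_subtype]
    exact congrArg Finset.card (Finset.filter_congr fun h _ => ⟨fun h => h.2, fun h => ⟨h ▸ hz, h⟩⟩)]
  rw [← card_fiber D hzP]
  have h0 : (Nat.card (P : Subgroup G) : ℂ) ≠ 0 := Nat.cast_ne_zero.2 Nat.card_pos.ne'
  have h2 : (Nat.card {h : (Subgroup.centralizer ({σ ^ 2 ^ (k + 1)} : Set G)) // pr D h = z} : ℂ) ≠ 0 := by
    haveI : Nonempty {h : (Subgroup.centralizer ({σ ^ 2 ^ (k + 1)} : Set G)) // pr D h = z} := ⟨⟨⟨z, P_le_H D hzP⟩, pr_self D hzP⟩⟩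
    exact Nat.cast_ne_zero.2 Nat.card_pos.ne'
  push_cast
  field_simp

omit hζ in
/-- Members of the principal block are constant on the sections of the rotations. -/
theorem principal_apply {M : Ideal AlgInt} (hM : IsPModular 2 M) {χ : IrrCharacter G} (hχ : χ ∈ principalBlock M G)
    {h : Subgroup.centralizer ({σ ^ 2 ^ (k + 1)} : Set G)} (hz : pr D h ∈ Subgroup.zpowers σ) (h1 : pr D h ≠ 1) :
    (χ : G → ℂ) (h : G) = (χ : G → ℂ) (pr D h) := by
  obtain ⟨c, -, hc⟩ := exists_conj_ppart D h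
  set z := pr D h with hzd
  obtain ⟨e1, e2, -, e4, -, -⟩ := part_spec (p := 2) (h : G)
  set y := (c : G)⁻¹ * prest 2 (h : G) * (c : G) with hy
  have hyz : Commute y z := by
    show y * z = z * y
    rw [show z = (c : G)⁻¹ * ppart 2 (h : G) * c by rw [← hc]; group, hy]
    calc (c : G)⁻¹ * prest 2 (h : G) * c * ((c : G)⁻¹ * ppart 2 (h : G) * c)
        = (c : G)⁻¹ * (prest 2 (h : G) * ppart 2 (h : G)) * c := by group
      _ = (c : G)⁻¹ * (ppart 2 (h : G) * prest 2 (h : G)) * c := by rw [e2.eq]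
      _ = _ := by group
  have hyreg : ¬ 2 ∣ orderOf y := by
    rw [hy, show (c : G)⁻¹ * prest 2 (h : G) * c = (c : G)⁻¹ * prest 2 (h : G) * (c : G)⁻¹⁻¹ by rw [inv_inv],
      ← MulAut.conj_apply, MulEquiv.orderOf_eq]
    exact e4
  let f : Subgroup.centralizer ({z} : Set G) →* G := (pr D).comp (Subgroup.inclusion fun w hw =>
    rot_cent_le D hz h1 (Subgroup.mem_centralizer_singleton_iff.1 hw))
  have hcore : f.ker ≤ pPrimeCore 2 (Subgroup.centralizer ({z} : Set G)) := by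
    refine CfsgLib.PCore.le_pPrimeCore_of_not_dvd (MonoidHom.normal_ker _) fun hd => ?_
    obtain ⟨w, hw⟩ := exists_prime_orderOf_dvd_card' 2 hd
    refine (pr_eq_one D _).1 (MonoidHom.mem_ker.1 w.2) ?_
    rw [Subgroup.coe_inclusion, Subgroup.orderOf_coe, Subgroup.orderOf_coe, hw]
  have hymem : y ∈ centralizerPPrimeCore 2 z :=
    ⟨⟨y, Subgroup.mem_centralizer_singleton_iff.2 hyz.eq⟩, hcore (MonoidHom.mem_ker.2 ((pr_eq_one D _).2 hyreg)), rfl⟩
  rw [← principal_apply_mul_core hM (rot_pelt D hz) hχ hymem]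
  conv_lhs => rw [← e1, ← hc, show prest 2 (h : G) = (c : G) * y * (c : G)⁻¹ by rw [hy]; group,
    show (c : G) * z * (c : G)⁻¹ * ((c : G) * y * (c : G)⁻¹) = (c : G) * (z * y) * (c : G)⁻¹ by group]
  exact CfsgLib.CharBasics.isClassFunction (isCharacter_of_irr χ.2) _ _

omit hζ in
/-- The regular elements of the centralizer of a rotation. -/
theorem sum_section_eq_zero {M : Ideal AlgInt} (hM : IsPModular 2 M) {χ : IrrCharacter G} (hχ : χ ∉ principalBlock M G)
    {z : G} (hz : z ∈ Subgroup.zpowers σ) :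
    ∑ y : Subgroup.centralizer ({z} : Set G), (if 2 ∣ orderOf y then 0 else (χ : G → ℂ) (z * y)) = 0 := by
  haveI : Fintype (IrrCharacter (Subgroup.centralizer ({z} : Set G))) := @Fintype.ofFinite _ finite_irrCharacter
  have hx := rot_pelt D hz
  have hcls := Blocks.isClassFunction_shiftFun (x := z) (CfsgLib.CharBasics.isClassFunction (isCharacter_of_irr χ.2))
  calc ∑ y : Subgroup.centralizer ({z} : Set G), (if 2 ∣ orderOf y then 0 else (χ : G → ℂ) (z * y))
      = ∑ b ∈ Blocks.blockFinset M (Subgroup.centralizer ({z} : Set G)),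
          ∑ y : Subgroup.centralizer ({z} : Set G), Blocks.secVal 2 z b (χ : G → ℂ) y := by
        rw [Finset.sum_comm]
        refine Finset.sum_congr rfl fun y _ => ?_
        by_cases hy : 2 ∣ orderOf y
        · simp [Blocks.secVal, hy]
        · simp only [Blocks.secVal, if_neg hy]
          rw [Blocks.sum_blockPart hM hcls y]
          rfl
    _ = 0 := Finset.sum_eq_zero fun b hb => ?_
  have hb' := Blocks.mem_blockFinset.1 hb
  by_cases hb0 : b = principalBlock M (Subgroup.centralizer ({z} : Set G))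
  · refine Finset.sum_eq_zero fun y _ => Blocks.secVal_eq_zero hM hx hb' (Blocks.isPBlock_blockOf M χ)
      (Blocks.mem_blockOf_self hM χ) (fun hi => hχ ?_) y
    subst hb0
    have h0 := (isInducedBlock_principal_iff hM ⟨_, hi⟩).2 rfl
    obtain ⟨ξ, hξ⟩ := Blocks.IsPBlock.nonempty hM hi.1
    exact fun g => by
      simpa [show ((oneChar : IrrCharacter G) : G → ℂ) = fun _ => 1 from rfl] using Blocks.memLocalIdeal_sub hM (hi.2.2 ξ hξ χ (Blocks.mem_blockOf_self hM χ) g)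
        (h0.2.2 ξ hξ oneChar (Blocks.oneChar_mem_principal hM) g)
  · have e : ∀ y : Subgroup.centralizer ({z} : Set G), Blocks.secVal 2 z b (χ : G → ℂ) y =
        ∑ ξ : IrrCharacter (Subgroup.centralizer ({z} : Set G)), if ξ ∈ b then
          classInner (Blocks.shiftFun z (χ : G → ℂ)) (ξ : Subgroup.centralizer ({z} : Set G) → ℂ) *
            (if 2 ∣ orderOf y then 0 else (ξ : Subgroup.centralizer ({z} : Set G) → ℂ) y) else 0 := by
      intro y
      rw [Blocks.secVal]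
      by_cases hy : 2 ∣ orderOf y
      · simp [hy]
      · simp only [if_neg hy, blockPart_apply]
    rw [Finset.sum_congr rfl fun y _ => e y, Finset.sum_comm]
    refine Finset.sum_eq_zero fun ξ _ => ?_
    split_ifs with hξ
    · rw [← Finset.mul_sum, sum_regular_eq_zero hM, mul_zero]
      exact fun h => hb0 (Blocks.IsPBlock.eq_of_mem hM hb' Blocks.isPBlock_principal hξ h)
    · exact Finset.sum_const_zero

omit hζ in
/-- Outside the principal block the values over a rotation sum to zero. -/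
theorem sum_fiber_eq_zero {M : Ideal AlgInt} (hM : IsPModular 2 M) {χ : IrrCharacter G} (hχ : χ ∉ principalBlock M G)
    {z : G} (hz : z ∈ Subgroup.zpowers σ) (h1 : z ≠ 1) :
    ∑ h : {h : Subgroup.centralizer ({σ ^ 2 ^ (k + 1)} : Set G) // pr D h = z}, (χ : G → ℂ) (h.1 : G) = 0 := by
  have hzP : z ∈ (P : Subgroup G) := zp_le D hz
  have hcH : ∀ {y : G}, Commute y z → y ∈ (Subgroup.centralizer ({σ ^ 2 ^ (k + 1)} : Set G)) := fun h => rot_cent_le D hz h1 h
  -- the two ways of writing the elements above `z`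
  have hdec : ∀ h : {h : (Subgroup.centralizer ({σ ^ 2 ^ (k + 1)} : Set G)) // pr D h = z}, ∃ c : {c : (Subgroup.centralizer ({σ ^ 2 ^ (k + 1)} : Set G)) // pr D c = 1}, ((c.1 : G)) * z * ((c.1 : G))⁻¹ = ppart 2 (h.1 : G) := by
    intro h
    obtain ⟨c, hc1, hc⟩ := exists_conj_ppart D h.1
    exact ⟨⟨c, hc1⟩, by rw [← hc, h.2]⟩
  choose cc hcc using hdec
  let T := {y : Subgroup.centralizer ({z} : Set G) // ¬ 2 ∣ orderOf y}
  let Kz := {c : {c : (Subgroup.centralizer ({σ ^ 2 ^ (k + 1)} : Set G)) // pr D c = 1} // Commute ((c.1 : G)) z}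
  have hT : ∀ (c : {c : (Subgroup.centralizer ({σ ^ 2 ^ (k + 1)} : Set G)) // pr D c = 1}) (y : T), (c.1 : G) * (z * (y.1 : G)) * (c.1 : G)⁻¹ ∈ (Subgroup.centralizer ({σ ^ 2 ^ (k + 1)} : Set G)) ∧
      ∀ hm, pr D ⟨(c.1 : G) * (z * (y.1 : G)) * (c.1 : G)⁻¹, hm⟩ = z := by
    intro c y
    have hyH : (y.1 : G) ∈ (Subgroup.centralizer ({σ ^ 2 ^ (k + 1)} : Set G)) := hcH (Subgroup.mem_centralizer_singleton_iff.1 y.1.2)
    refine ⟨mul_mem (mul_mem c.1.2 (mul_mem (P_le_H D hzP) hyH)) (inv_mem c.1.2), fun hm => ?_⟩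
    rw [show (⟨_, hm⟩ : (Subgroup.centralizer ({σ ^ 2 ^ (k + 1)} : Set G))) = c.1 * (⟨z, P_le_H D hzP⟩ * ⟨(y.1 : G), hyH⟩) * c.1⁻¹ from rfl, map_mul, map_mul, map_mul,
      map_inv, c.2, pr_self D hzP, (pr_eq_one D ⟨(y.1 : G), hyH⟩).2 (by show ¬ 2 ∣ orderOf ((y.1 : G)); rw [Subgroup.orderOf_coe]; exact y.2)]
    simp
  let Φ : {c : (Subgroup.centralizer ({σ ^ 2 ^ (k + 1)} : Set G)) // pr D c = 1} × T → {h : (Subgroup.centralizer ({σ ^ 2 ^ (k + 1)} : Set G)) // pr D h = z} := fun x =>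
    ⟨⟨_, (hT x.1 x.2).1⟩, (hT x.1 x.2).2 _⟩
  have hpartΦ : ∀ x, ppart 2 ((Φ x).1 : G) = (x.1.1 : G) * z * (x.1.1 : G)⁻¹ ∧
      prest 2 ((Φ x).1 : G) = (x.1.1 : G) * (x.2.1 : G) * (x.1.1 : G)⁻¹ := by
    intro x
    have h := part_unique (p := 2) (g := z * (x.2.1 : G)) (a := z) (b := (x.2.1 : G)) rfl
      (Subgroup.mem_centralizer_singleton_iff.1 x.2.1.2).symm (rot_pelt D hz)
      (by rw [Subgroup.orderOf_coe]; exact x.2.2)
    exact ⟨by rw [show ((Φ x).1 : G) = (x.1.1 : G) * (z * (x.2.1 : G)) * (x.1.1 : G)⁻¹ from rfl,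
        (part_conj (p := 2) _ _).1, h.1],
      by rw [show ((Φ x).1 : G) = (x.1.1 : G) * (z * (x.2.1 : G)) * (x.1.1 : G)⁻¹ from rfl,
        (part_conj (p := 2) _ _).2, h.2]⟩
  have hfib : ∀ h : {h : (Subgroup.centralizer ({σ ^ 2 ^ (k + 1)} : Set G)) // pr D h = z}, Nat.card {x // Φ x = h} = Nat.card Kz := by
    intro h
    obtain ⟨p1, p2, -, p4, -, -⟩ := part_spec (p := 2) (h.1 : G)
    refine (Nat.card_congr ?_).symm
    refine Equiv.ofBijective (fun t => ⟨(⟨(cc h).1 * t.1.1, by rw [map_mul, (cc h).2, t.1.2, mul_one]⟩,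
      ⟨⟨((cc h).1 * t.1.1 : (Subgroup.centralizer ({σ ^ 2 ^ (k + 1)} : Set G))).1⁻¹ * prest 2 (h.1 : G) * ((cc h).1 * t.1.1 : (Subgroup.centralizer ({σ ^ 2 ^ (k + 1)} : Set G))).1, ?_⟩, ?_⟩), ?_⟩) ⟨?_, ?_⟩
    · refine Subgroup.mem_centralizer_singleton_iff.2 ?_
      have e : z = ((cc h).1 * t.1.1 : (Subgroup.centralizer ({σ ^ 2 ^ (k + 1)} : Set G))).1⁻¹ * ppart 2 (h.1 : G) * ((cc h).1 * t.1.1 : (Subgroup.centralizer ({σ ^ 2 ^ (k + 1)} : Set G))).1 := by
        rw [← hcc h, Subgroup.coe_mul]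
        have := t.2
        calc z = (t.1.1 : G)⁻¹ * ((t.1.1 : G) * z) := by group
          _ = (t.1.1 : G)⁻¹ * (z * (t.1.1 : G)) := by rw [this.eq]
          _ = _ := by group
      conv_lhs => arg 2; rw [e]
      conv_rhs => arg 1; rw [e]
      set d := ((cc h).1 * t.1.1 : (Subgroup.centralizer ({σ ^ 2 ^ (k + 1)} : Set G))).1
      calc d⁻¹ * prest 2 (h.1 : G) * d * (d⁻¹ * ppart 2 (h.1 : G) * d)
          = d⁻¹ * (prest 2 (h.1 : G) * ppart 2 (h.1 : G)) * d := by group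
        _ = d⁻¹ * (ppart 2 (h.1 : G) * prest 2 (h.1 : G)) * d := by rw [p2.eq]
        _ = _ := by group
    · rw [Subgroup.orderOf_mk]
      generalize ((cc h).1 * t.1.1 : (Subgroup.centralizer ({σ ^ 2 ^ (k + 1)} : Set G))).1 = d
      rw [show d⁻¹ * prest 2 (h.1 : G) * d = d⁻¹ * prest 2 (h.1 : G) * d⁻¹⁻¹ by rw [inv_inv], ← MulAut.conj_apply,
        MulEquiv.orderOf_eq]
      exact p4
    · refine Subtype.ext (Subtype.ext ?_)
      show ((cc h).1 * t.1.1 : (Subgroup.centralizer ({σ ^ 2 ^ (k + 1)} : Set G))).1 * (z * (((cc h).1 * t.1.1 : (Subgroup.centralizer ({σ ^ 2 ^ (k + 1)} : Set G))).1⁻¹ * prest 2 (h.1 : G) * ((cc h).1 * t.1.1 : (Subgroup.centralizer ({σ ^ 2 ^ (k + 1)} : Set G))).1))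
        * ((cc h).1 * t.1.1 : (Subgroup.centralizer ({σ ^ 2 ^ (k + 1)} : Set G))).1⁻¹ = (h.1 : G)
      conv_rhs => rw [← p1, ← hcc h]
      rw [Subgroup.coe_mul]
      have := t.2.eq
      calc ((cc h).1 : G) * (t.1.1 : G) * (z * (((((cc h).1 : G)) * (t.1.1 : G))⁻¹ * prest 2 (h.1 : G) * ((((cc h).1 : G)) * (t.1.1 : G))))
            * ((((cc h).1 : G)) * (t.1.1 : G))⁻¹
          = ((cc h).1 : G) * ((t.1.1 : G) * z) * (t.1.1 : G)⁻¹ * ((cc h).1 : G)⁻¹ * prest 2 (h.1 : G) := by group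
        _ = ((cc h).1 : G) * (z * (t.1.1 : G)) * (t.1.1 : G)⁻¹ * ((cc h).1 : G)⁻¹ * prest 2 (h.1 : G) := by rw [this]
        _ = _ := by group
    · intro t t' e
      have e' := congrArg (fun x => x.1.1.1) e
      exact Subtype.ext (Subtype.ext (mul_left_cancel e'))
    · rintro ⟨x, rfl⟩
      obtain ⟨hp, hr⟩ := hpartΦ x
      have hc := hcc (Φ x)
      rw [hp] at hc
      refine ⟨⟨⟨(cc (Φ x)).1⁻¹ * x.1.1, by rw [map_mul, map_inv, (cc (Φ x)).2, x.1.2]; simp⟩, ?_⟩, ?_⟩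
      · show (((cc (Φ x)).1⁻¹ * x.1.1 : (Subgroup.centralizer ({σ ^ 2 ^ (k + 1)} : Set G))) : G) * z = z * (((cc (Φ x)).1⁻¹ * x.1.1 : (Subgroup.centralizer ({σ ^ 2 ^ (k + 1)} : Set G))) : G)
        rw [Subgroup.coe_mul, Subgroup.coe_inv]
        calc ((cc (Φ x)).1 : G)⁻¹ * (x.1.1 : G) * z = ((cc (Φ x)).1 : G)⁻¹ * ((x.1.1 : G) * z * (x.1.1 : G)⁻¹) * x.1.1 := by group
          _ = _ := by rw [← hc]; group
      · refine Subtype.ext (Prod.ext (Subtype.ext ?_) (Subtype.ext (Subtype.ext ?_)))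
        · exact mul_inv_cancel_left _ _
        · show ((cc (Φ x)).1 * ((cc (Φ x)).1⁻¹ * x.1.1) : (Subgroup.centralizer ({σ ^ 2 ^ (k + 1)} : Set G))).1⁻¹ * prest 2 ((Φ x).1 : G) *
            ((cc (Φ x)).1 * ((cc (Φ x)).1⁻¹ * x.1.1) : (Subgroup.centralizer ({σ ^ 2 ^ (k + 1)} : Set G))).1 = (x.2.1 : G)
          rw [mul_inv_cancel_left, hr]
          group
  have hKz : Nat.card Kz ≠ 0 := by
    haveI : Nonempty Kz := ⟨⟨⟨1, map_one _⟩, Commute.one_left z⟩⟩
    exact Nat.card_pos.ne'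
  have h2 : ∑ x : {c : (Subgroup.centralizer ({σ ^ 2 ^ (k + 1)} : Set G)) // pr D c = 1} × T, (χ : G → ℂ) ((Φ x).1 : G) = 0 := by
    rw [Fintype.sum_prod_type]
    refine Finset.sum_eq_zero fun c _ => ?_
    rw [Finset.sum_congr rfl (g := fun y : T => (χ : G → ℂ) (z * (y.1 : G))) (fun y _ =>
      CfsgLib.CharBasics.isClassFunction (isCharacter_of_irr χ.2) _ _),
      ← sum_section_eq_zero D hM hχ hz, Finset.sum_ite, Finset.sum_const_zero, zero_add]
    exact (Finset.sum_subtype _ (fun y => by simp) (fun y : Subgroup.centralizer ({z} : Set G) => (χ : G → ℂ) (z * y))).symm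
  have h3 : ∑ x : {c : (Subgroup.centralizer ({σ ^ 2 ^ (k + 1)} : Set G)) // pr D c = 1} × T, (χ : G → ℂ) ((Φ x).1 : G) =
      (Nat.card Kz : ℂ) * ∑ h : {h : (Subgroup.centralizer ({σ ^ 2 ^ (k + 1)} : Set G)) // pr D h = z}, (χ : G → ℂ) (h.1 : G) := by
    rw [← Equiv.sum_comp (Equiv.sigmaFiberEquiv Φ), Fintype.sum_sigma, Finset.mul_sum]
    refine Finset.sum_congr rfl fun h _ => ?_
    rw [Finset.sum_congr rfl (g := fun _ => (χ : G → ℂ) (h.1 : G)) (fun x _ => by
      show (χ : G → ℂ) ((Φ x.1).1 : G) = _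
      rw [x.2]), Finset.sum_const, Finset.card_univ, ← Nat.card_eq_fintype_card, hfib h, nsmul_eq_mul]
  rw [h2] at h3
  exact (mul_eq_zero.1 h3.symm).resolve_left (Nat.cast_ne_zero.2 hKz)

/-- The inner product with a member of the principal block. -/
theorem inner_principal (j : ℕ) {M : Ideal AlgInt} (hM : IsPModular 2 M) {χ : IrrCharacter G}
    (hχ : χ ∈ principalBlock M G) : classInner (rotChar D hζ j) (χ : G → ℂ)
      = (Nat.card (P : Subgroup G) : ℂ)⁻¹ * ∑ l ∈ Finset.range (2 ^ (k + 2)), rotVal ζ j l * conj ((χ : G → ℂ) (σ ^ l)) := by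
  rw [rotChar, CharBasics.classInner_indFun _ _ (CfsgLib.CharBasics.isClassFunction (isCharacter_of_irr χ.2))]
  exact inner_inflA D hζ j fun h hz h1 => principal_apply D hM hχ hz h1

theorem inner_rotChar (i j : ℕ) : classInner (rotChar D hζ i) (rotChar D hζ j)
      = (Nat.card (P : Subgroup G) : ℂ)⁻¹ * ∑ l ∈ Finset.range (2 ^ (k + 2)), rotVal ζ i l * conj (rotVal ζ j l) := by
  rw [show classInner (rotChar D hζ i) (rotChar D hζ j) = _ from
    CharBasics.classInner_indFun _ (inflA D hζ i) (CharBasics.isClassFunction_indFun _ (inflA D hζ j))]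
  rw [inner_inflA D hζ i (f := psi D hζ j) fun h hz h1 => rotChar_apply D hζ j hz h1]
  simp only [psi_pow]

/-- Constituents lie in the principal block. -/
theorem inner_notMem (j : ℕ) {M : Ideal AlgInt} (hM : IsPModular 2 M) {χ : IrrCharacter G}
    (hχ : χ ∉ principalBlock M G) : classInner (rotChar D hζ j) (χ : G → ℂ) = 0 := by
  rw [rotChar, CharBasics.classInner_indFun _ _ (CfsgLib.CharBasics.isClassFunction (isCharacter_of_irr χ.2)),
    classInner_eq, ← Finset.sum_fiberwise Finset.univ (fun h : (Subgroup.centralizer ({σ ^ 2 ^ (k + 1)} : Set G)) => pr D h), Finset.sum_eq_zero, mul_zero]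
  intro z _
  rw [Finset.sum_congr rfl (g := fun h : (Subgroup.centralizer ({σ ^ 2 ^ (k + 1)} : Set G)) => psi D hζ j z * conj ((χ : G → ℂ) (h : G)))
    (fun h hh => by rw [inflA, (Finset.mem_filter.1 hh).2]), ← Finset.mul_sum]
  by_cases h0 : psi D hζ j z = 0
  · rw [h0, zero_mul]
  obtain ⟨hz, h1⟩ := psi_ne D hζ h0
  rw [← map_sum, Finset.sum_subtype (p := fun h => pr D h = z) _ (fun h => by simp), sum_fiber_eq_zero D hM hχ hz h1, map_zero, mul_zero]

end CfsgLib.ZStar.DihedralRot
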