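import Cfsg.Agent.Blocks.SectionSum
import Cfsg.Agent.ZStar.KleinBlock

/-!
# Groups with an abelian Sylow 2-subgroup on which an automizer of order three acts fixed point freely

The induced generalized characters carried by the sections of the nontrivial elements of the Sylow subgroup.
-/

set_option autoImplicit false
set_option linter.style.haveILetI false
set_option linter.unusedSectionVars false
set_option linter.deprecated false

namespace CfsgLib.ZStar.Homocyclic

open Cfsg CfsgLib.CharBasics CfsgLib.BrauerInd CfsgLib.Blocks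
open scoped ComplexConjugate Classical

universe u

variable {G : Type u} [Group G] [Fintype G] [Fact (Nat.Prime 2)]

/-- An abelian Sylow 2-subgroup whose automizer is generated by a fixed point free element of order three. -/
structure Setup (P : Sylow 2 G) (n : G) : Prop where
  hab : ∀ y ∈ (P : Subgroup G), ∀ z ∈ (P : Subgroup G), y * z = z * y
  hn : n ∈ Subgroup.normalizer ((P : Subgroup G) : Set G)
  hn3 : ∀ y ∈ (P : Subgroup G), n ^ 3 * y * (n ^ 3)⁻¹ = y
  hfpf : ∀ y ∈ (P : Subgroup G), n * y * n⁻¹ = y → y = 1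
  hnorm : ∀ m ∈ Subgroup.normalizer ((P : Subgroup G) : Set G), ∃ i < 3, ∀ y ∈ (P : Subgroup G),
    m * y * m⁻¹ = n ^ i * y * (n ^ i)⁻¹

variable {P : Sylow 2 G} {n : G} (D : Setup P n)

include D

theorem theta_mem (i : ℕ) {y : G} (hy : y ∈ (P : Subgroup G)) : n ^ i * y * (n ^ i)⁻¹ ∈ (P : Subgroup G) :=
  (Subgroup.mem_normalizer_iff.1 (pow_mem D.hn i) y).1 hy

theorem fix_one {i : ℕ} (hi : i = 1 ∨ i = 2) {y : G} (hy : y ∈ (P : Subgroup G))
    (h : n ^ i * y * (n ^ i)⁻¹ = y) : y = 1 := by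
  refine D.hfpf y hy ?_
  rcases hi with rfl | rfl
  · rwa [pow_one] at h
  · have h3 := D.hn3 y hy
    calc n * y * n⁻¹ = n * (n ^ 2 * y * (n ^ 2)⁻¹) * n⁻¹ := by rw [h]
      _ = n ^ 3 * y * (n ^ 3)⁻¹ := by group
      _ = y := h3

theorem norm_fix {m : G} (hm : m ∈ Subgroup.normalizer ((P : Subgroup G) : Set G)) {y : G}
    (hy : y ∈ (P : Subgroup G)) (hy1 : y ≠ 1) (hfix : m * y * m⁻¹ = y) :
    ∀ z ∈ (P : Subgroup G), m * z * m⁻¹ = z := by
  obtain ⟨i, hi, hm'⟩ := D.hnorm m hm
  rw [hm' y hy] at hfix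
  interval_cases i
  · intro z hz; rw [hm' z hz]; simp
  · exact absurd (fix_one D (Or.inl rfl) hy hfix) hy1
  · exact absurd (fix_one D (Or.inr rfl) hy hfix) hy1

theorem P_le_cent {x : G} (hx : x ∈ (P : Subgroup G)) :
    (P : Subgroup G) ≤ Subgroup.centralizer ({x} : Set G) := fun y hy =>
  Subgroup.mem_centralizer_singleton_iff.2 (D.hab y hy x hx)

/-- The normal 2-complement of the centralizer of a nontrivial element of the Sylow subgroup. -/
theorem cent_complement {x : G} (hx : x ∈ (P : Subgroup G)) (hx1 : x ≠ 1) :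
    ∃ K : Subgroup (Subgroup.centralizer ({x} : Set G)), K.Normal ∧
      Nat.card (P : Subgroup G) * Nat.card K = Nat.card (Subgroup.centralizer ({x} : Set G)) ∧
      ∀ y : Subgroup.centralizer ({x} : Set G), y ∈ K ↔ ¬ 2 ∣ orderOf y := by
  set C := Subgroup.centralizer ({x} : Set G) with hC
  have hPC : (P : Subgroup G) ≤ C := P_le_cent D hx
  set P' : Sylow 2 C := P.subtype hPC with hP'
  have hnc : Subgroup.normalizer ((P' : Subgroup C) : Set C) ≤ Subgroup.centralizer ((P' : Subgroup C) : Set C) := by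
    intro m hm
    have hmN : (m : G) ∈ Subgroup.normalizer ((P : Subgroup G) : Set G) := by
      refine Subgroup.mem_normalizer_iff.2 fun y => ⟨fun hy => ?_, fun hy => ?_⟩
      · exact (Subgroup.mem_normalizer_iff.1 hm ⟨y, hPC hy⟩).1 hy
      · have hyC : y ∈ C := by
          have h := mul_mem (mul_mem (inv_mem m.2) (hPC hy)) m.2
          have e : (m : G)⁻¹ * ((m : G) * y * (m : G)⁻¹) * m = y := by group
          rwa [e] at h
        exact (Subgroup.mem_normalizer_iff.1 hm ⟨y, hyC⟩).2 hy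
    have hfix : (m : G) * x * (m : G)⁻¹ = x := by
      rw [Subgroup.mem_centralizer_singleton_iff.1 m.2, mul_inv_cancel_right]
    rw [Subgroup.mem_centralizer_iff]
    intro w hw
    refine Subtype.ext ?_
    show (w : G) * m = m * w
    exact (mul_inv_eq_iff_eq_mul.1 (norm_fix D hmN hx hx1 hfix (w : G) hw)).symm
  have hK := MonoidHom.ker_transferSylow_isComplement' P' hnc
  set K := (MonoidHom.transferSylow P' hnc).ker with hKdef
  have hcardP : Nat.card (P' : Subgroup C) = Nat.card (P : Subgroup G) :=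
    Nat.card_congr (Subgroup.subgroupOfEquivOfLe hPC).toEquiv
  refine ⟨K, MonoidHom.normal_ker _, ?_, fun y => ⟨fun hy hd => ?_, fun hy => ?_⟩⟩
  · rw [← hK.card_mul, hcardP, mul_comm]
  · have h1 : orderOf y ∣ Nat.card K := by
      rw [← Subgroup.orderOf_mk (H := K) y hy]; exact orderOf_dvd_natCard _
    have h2 : Nat.card K = (P' : Subgroup C).index := hK.index_eq_card.symm
    exact P'.not_dvd_index (h2 ▸ hd.trans h1)
  · obtain ⟨j, hj⟩ := P'.2 (MonoidHom.transferSylow P' hnc y)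
    exact MonoidHom.mem_ker.2 (orderOf_eq_one_iff.1 (Nat.eq_one_of_dvd_coprimes
      ((Nat.prime_two.coprime_iff_not_dvd.2 hy).pow_left j) (orderOf_dvd_of_pow_eq_one hj) (orderOf_map_dvd _ _)))

/-- The elements with a given 2-part. -/
theorem card_fiber {x : G} (hx : x ∈ (P : Subgroup G)) (hx1 : x ≠ 1) :
    Nat.card (P : Subgroup G) * Nat.card {g : G // ppart 2 g = x} =
      Nat.card (Subgroup.centralizer ({x} : Set G)) := by
  obtain ⟨K, -, hcard, hmem⟩ := cent_complement D hx hx1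
  have hxp : ∃ j : ℕ, orderOf x = 2 ^ j := by
    obtain ⟨j, hj⟩ := IsPGroup.iff_orderOf.1 P.2 ⟨x, hx⟩
    exact ⟨j, by rwa [Subgroup.orderOf_mk] at hj⟩
  rw [← hcard]
  congr 1
  have h : ((Nat.card {g : G // ppart 2 g = x} : ℕ) : ℂ) =
      ((Nat.card {y : Subgroup.centralizer ({x} : Set G) // ¬ 2 ∣ orderOf y} : ℕ) : ℂ) := by
    simpa [Nat.card_eq_fintype_card] using sum_fiber_eq hxp (fun _ : G => (1 : ℂ))
  rw [Nat.cast_inj.1 h]
  exact Nat.card_congr (Equiv.subtypeEquivRight fun y => (hmem y).symm)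

theorem exists_conj_mem {z : G} (hz : ∃ j : ℕ, orderOf z = 2 ^ j) : ∃ c : G, c * z * c⁻¹ ∈ (P : Subgroup G) := by
  obtain ⟨j, hj⟩ := hz
  obtain ⟨Q, hQ⟩ := (IsPGroup.of_card (n := j) (by rw [Nat.card_zpowers, hj]) :
    IsPGroup 2 (Subgroup.zpowers z)).exists_le_sylow
  obtain ⟨c, hc⟩ := MulAction.exists_smul_eq G Q P
  refine ⟨c, ?_⟩
  rw [← hc, Sylow.coe_subgroup_smul]
  exact Subgroup.smul_mem_pointwise_smul _ _ _ (hQ (Subgroup.mem_zpowers _))

/-- Fusion in the Sylow subgroup. -/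
theorem fusion {x y : G} (hx : x ∈ (P : Subgroup G)) (hy : y ∈ (P : Subgroup G)) (h : IsConj x y) :
    ∃ i < 3, n ^ i * x * (n ^ i)⁻¹ = y := by
  haveI : IsMulCommutative (P : Subgroup G) := ⟨⟨fun a b => Subtype.ext (D.hab a a.2 b b.2)⟩⟩
  obtain ⟨g, hg⟩ := isConj_iff.1 h
  obtain ⟨m, hm, e⟩ := P.conj_eq_normalizer_conj_of_mem (x := x) (g := g⁻¹) hx (by rw [inv_inv, hg]; exact hy)
  rw [inv_inv, hg] at e
  obtain ⟨i, hi, hmi⟩ := D.hnorm m⁻¹ (inv_mem hm)
  refine ⟨i, hi, ?_⟩
  rw [← hmi x hx, inv_inv, e]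

/-- Each orbit has three elements. -/
theorem orbit_card {x : G} (hx : x ∈ (P : Subgroup G)) (hx1 : x ≠ 1) :
    (Finset.univ.filter fun y : (P : Subgroup G) => y ≠ 1 ∧ IsConj x (y : G)).card = 3 := by
  set f : ℕ → (P : Subgroup G) := fun i => ⟨n ^ i * x * (n ^ i)⁻¹, theta_mem D i hx⟩ with hf
  have hinj : ∀ i < 3, ∀ j < 3, f i = f j → i = j := by
    intro i hi j hj h
    have h' : n ^ i * x * (n ^ i)⁻¹ = n ^ j * x * (n ^ j)⁻¹ := congrArg Subtype.val h
    by_contra hne
    wlog hij : i < j generalizing i j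
    · exact this j hj i hi h.symm h'.symm (Ne.symm hne) (by omega)
    refine hx1 (fix_one D (i := j - i) (by omega) hx ?_)
    calc n ^ (j - i) * x * (n ^ (j - i))⁻¹
        = (n ^ i)⁻¹ * (n ^ (i + (j - i)) * x * (n ^ (i + (j - i)))⁻¹) * n ^ i := by rw [pow_add]; group
      _ = (n ^ i)⁻¹ * (n ^ j * x * (n ^ j)⁻¹) * n ^ i := by rw [Nat.add_sub_cancel' hij.le]
      _ = x := by rw [← h']; group
  have e : (Finset.univ.filter fun y : (P : Subgroup G) => y ≠ 1 ∧ IsConj x (y : G)) = (Finset.range 3).image f := by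
    ext y
    simp only [Finset.mem_filter, Finset.mem_univ, true_and, Finset.mem_image, Finset.mem_range]
    constructor
    · rintro ⟨-, h⟩
      obtain ⟨i, hi, e⟩ := fusion D hx y.2 h
      exact ⟨i, hi, Subtype.ext e⟩
    · rintro ⟨i, -, rfl⟩
      refine ⟨fun h => hx1 ?_, isConj_iff.2 ⟨n ^ i, rfl⟩⟩
      have h' : n ^ i * x * (n ^ i)⁻¹ = 1 := congrArg Subtype.val h
      exact conj_eq_one_iff.1 h'
  rw [e, Finset.card_image_of_injOn fun i hi j hj h => hinj i (by simpa using hi) j (by simpa using hj) h,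
    Finset.card_range]

theorem elt_pelt {x : G} (hx : x ∈ (P : Subgroup G)) : ∃ j : ℕ, orderOf x = 2 ^ j := by
  obtain ⟨j, hj⟩ := IsPGroup.iff_orderOf.1 P.2 ⟨x, hx⟩
  exact ⟨j, by rwa [Subgroup.orderOf_mk] at hj⟩

/-- Sums of class functions carried by the sections. -/
theorem sum_sections {F : G → ℂ} (hcls : IsClassFunction G F) (h0 : ∀ g, ppart 2 g = 1 → F g = 0)
    (hpp : ∀ g, ppart 2 g ≠ 1 → F g = F (ppart 2 g)) :
    3 * (Nat.card (P : Subgroup G) : ℂ) * ∑ g, F g =
      (Nat.card G : ℂ) * ∑ y ∈ Finset.univ.filter (fun y : (P : Subgroup G) => y ≠ 1), F (y : G) := by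
  have hA : ∀ g, 3 * F g = ∑ y ∈ Finset.univ.filter (fun y : (P : Subgroup G) => y ≠ 1),
      if IsConj (ppart 2 g) (y : G) then F (y : G) else 0 := by
    intro g
    by_cases hg : ppart 2 g = 1
    · rw [h0 g hg, mul_zero, Finset.sum_eq_zero]
      intro y hy
      rw [if_neg]
      intro h
      rw [hg, isConj_one_right] at h
      exact (Finset.mem_filter.1 hy).2 (Subtype.ext h)
    obtain ⟨c, hc⟩ := exists_conj_mem D (part_spec (p := 2) g).2.2.1
    have hc1 : c * ppart 2 g * c⁻¹ ≠ 1 := fun e => hg (conj_eq_one_iff.1 e)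
    have hiff : ∀ y : (P : Subgroup G), IsConj (ppart 2 g) (y : G) ↔ IsConj (c * ppart 2 g * c⁻¹) (y : G) := fun y =>
      ⟨fun h => IsConj.trans (isConj_iff.2 ⟨c, rfl⟩ : IsConj (ppart 2 g) _).symm h,
        fun h => IsConj.trans (isConj_iff.2 ⟨c, rfl⟩) h⟩
    rw [← Finset.sum_filter, Finset.filter_filter, Finset.sum_congr rfl (g := fun _ => F g) (fun y hy => by
      obtain ⟨d, hd⟩ := isConj_iff.1 (Finset.mem_filter.1 hy).2.2
      rw [← hd, hcls (ppart 2 g) d, ← hpp g hg]), Finset.sum_const, nsmul_eq_mul]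
    rw [show ((Finset.univ.filter fun y : (P : Subgroup G) => y ≠ 1 ∧ IsConj (ppart 2 g) (y : G)).card) = 3 by
      rw [← orbit_card D hc hc1]
      exact congrArg Finset.card (Finset.filter_congr fun y _ => and_congr_right fun _ => hiff y)]
    norm_num
  have h1 : 3 * ∑ g, F g = ∑ y ∈ Finset.univ.filter (fun y : (P : Subgroup G) => y ≠ 1),
      ((Finset.univ.filter fun g : G => IsConj (ppart 2 g) (y : G)).card : ℂ) * F (y : G) := by
    rw [Finset.mul_sum, Finset.sum_congr rfl fun g _ => hA g, Finset.sum_comm]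
    exact Finset.sum_congr rfl fun y _ => by rw [← Finset.sum_filter, Finset.sum_const, nsmul_eq_mul]
  calc 3 * (Nat.card (P : Subgroup G) : ℂ) * ∑ g, F g = (Nat.card (P : Subgroup G) : ℂ) * (3 * ∑ g, F g) := by ring
    _ = _ := by
      rw [h1, Finset.mul_sum, Finset.mul_sum]
      refine Finset.sum_congr rfl fun y hy => ?_
      have hy1 : (y : G) ≠ 1 := fun e => (Finset.mem_filter.1 hy).2 (Subtype.ext e)
      rw [← mul_assoc]
      congr 1
      rw [← Nat.cast_mul, Nat.cast_inj]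
      have hcard : (Finset.univ.filter fun g : G => IsConj (ppart 2 g) (y : G)).card =
          Nat.card (conjugatesOf (y : G)) * Nat.card {g : G // ppart 2 g = (y : G)} := by
        let π : {g : G // IsConj (ppart 2 g) (y : G)} → conjugatesOf (y : G) := fun g => ⟨ppart 2 g.1, g.2.symm⟩
        rw [← Fintype.card_subtype, ← Nat.card_eq_fintype_card, ← Nat.card_congr (Equiv.sigmaFiberEquiv π), Nat.card_sigma,
          Finset.sum_congr rfl (g := fun _ => Nat.card {g : G // ppart 2 g = (y : G)}) (fun v _ => ?_), Finset.sum_const,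
          Finset.card_univ, ← Nat.card_eq_fintype_card, smul_eq_mul]
        obtain ⟨c, hc⟩ := isConj_iff.1 (v.2 : IsConj (y : G) v.1)
        have hcv : ∀ g : G, ppart 2 g = (y : G) → ppart 2 (c * g * c⁻¹) = v.1 := fun g hg => by
          rw [(part_conj (p := 2) g c).1, hg, hc]
        exact (Nat.card_congr
          { toFun := fun g : {g : G // ppart 2 g = (y : G)} => (⟨⟨c * g.1 * c⁻¹, by
              show IsConj (ppart 2 (c * g.1 * c⁻¹)) (y : G)
              rw [hcv g.1 g.2]; exact (v.2 : IsConj (y : G) v.1).symm⟩, Subtype.ext (hcv g.1 g.2)⟩ : {x // π x = v})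
            invFun := fun x => ⟨c⁻¹ * x.1.1 * c⁻¹⁻¹, by
              rw [(part_conj (p := 2) x.1.1 c⁻¹).1, show ppart 2 x.1.1 = v.1 from congrArg Subtype.val x.2, ← hc]
              group⟩
            left_inv := fun g => Subtype.ext (by group)
            right_inv := fun x => Subtype.ext (Subtype.ext (by group)) }).symm
      rw [hcard, ← card_centralizer_mul_class (y : G), ← card_fiber D y.2 hy1]
      ring

/-- Members of the principal block are constant on the sections. -/
theorem principal_const {M : Ideal AlgInt} (hM : IsPModular 2 M) {χ : IrrCharacter G} (hχ : χ ∈ principalBlock M G)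
    {g : G} (hg : ppart 2 g ≠ 1) : (χ : G → ℂ) g = (χ : G → ℂ) (ppart 2 g) := by
  obtain ⟨c, hc⟩ := exists_conj_mem D (part_spec (p := 2) g).2.2.1
  have hc1 : c * ppart 2 g * c⁻¹ ≠ 1 := fun e => hg (conj_eq_one_iff.1 e)
  have hcls := CfsgLib.CharBasics.isClassFunction (isCharacter_of_irr χ.2)
  obtain ⟨h1, h2, hp, h4, -, -⟩ := part_spec (p := 2) (c * g * c⁻¹)
  rw [(part_conj (p := 2) g c).1] at h1 h2 hp
  obtain ⟨K, hKn, -, hKmem⟩ := cent_complement D hc hc1
  have hcore : K ≤ pPrimeCore 2 (Subgroup.centralizer ({c * ppart 2 g * c⁻¹} : Set G)) := by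
    refine CfsgLib.PCore.le_pPrimeCore_of_not_dvd hKn fun hd => ?_
    obtain ⟨y, hy⟩ := exists_prime_orderOf_dvd_card' 2 hd
    exact (hKmem y).1 y.2 (by rw [Subgroup.orderOf_coe, hy])
  have hymem : prest 2 (c * g * c⁻¹) ∈ centralizerPPrimeCore 2 (c * ppart 2 g * c⁻¹) :=
    ⟨⟨_, Subgroup.mem_centralizer_singleton_iff.2 h2.symm.eq⟩,
      hcore ((hKmem _).2 (by rw [Subgroup.orderOf_mk]; exact h4)), rfl⟩
  have h5 := principal_apply_mul_core hM hp hχ hymem
  rw [h1, hcls g c, hcls (ppart 2 g) c] at h5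
  exact h5

end CfsgLib.ZStar.Homocyclic
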