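import Cfsg.Agent.ZStar.Homocyclic
import Cfsg.Agent.ZStar.Expand
import Cfsg.Agent.Clifford.LinChar

/-!
# The characters attached to the orbits of the automizer, and the normality of the Sylow subgroup

The generalized characters `3 - (sum over an orbit)` lift isometrically; the class relation at a pair of
involutions forces two of the characters of the principal block to be linear.
-/

set_option autoImplicit false
set_option linter.style.haveILetI false
set_option linter.unusedSectionVars false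
set_option linter.deprecated false

namespace CfsgLib.ZStar.Homocyclic

open Cfsg CfsgLib.CharBasics CfsgLib.BrauerInd CfsgLib.Blocks
open scoped ComplexConjugate

universe u

/-- Triples meeting pairwise in two points have two points in common once there are five of them. -/
theorem exists_common_pair {α : Type*} [DecidableEq α] (F : Finset (Finset α)) (h5 : 5 ≤ F.card)
    (h3 : ∀ A ∈ F, A.card = 3) (h2 : ∀ A ∈ F, ∀ B ∈ F, A ≠ B → (A ∩ B).card = 2) :
    ∃ a b, a ≠ b ∧ ∀ A ∈ F, a ∈ A ∧ b ∈ A := by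
  obtain ⟨A, hA⟩ := Finset.card_pos.1 (show 0 < F.card by omega)
  obtain ⟨B, hB'⟩ := Finset.card_pos.1 (show 0 < (F.erase A).card by rw [Finset.card_erase_of_mem hA]; omega)
  obtain ⟨hBA, hB⟩ := Finset.mem_erase.1 hB'
  obtain ⟨a, b, hab, hAB⟩ := Finset.card_eq_two.1 (h2 A hA B hB hBA.symm)
  refine ⟨a, b, hab, fun C hC => ?_⟩
  by_contra hno
  set U := A ∪ B with hU
  have hUcard : U.card = 4 := by
    have := Finset.card_union_add_card_inter A B
    rw [h3 A hA, h3 B hB, h2 A hA B hB hBA.symm] at this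
    rw [hU]
    omega
  have hsub : ∀ X ∈ F, (a ∈ X ∧ b ∈ X) ∨ X ⊆ U := by
    intro X hX
    by_cases hX' : a ∈ X ∧ b ∈ X
    · exact Or.inl hX'
    refine Or.inr ?_
    have hXA : X ≠ A := by
      rintro rfl
      exact hX' ⟨(Finset.mem_inter.1 (hAB ▸ (by simp) : a ∈ X ∩ B)).1, (Finset.mem_inter.1 (hAB ▸ (by simp) : b ∈ X ∩ B)).1⟩
    have hXB : X ≠ B := by
      rintro rfl
      exact hX' ⟨(Finset.mem_inter.1 (hAB ▸ (by simp) : a ∈ A ∩ X)).2, (Finset.mem_inter.1 (hAB ▸ (by simp) : b ∈ A ∩ X)).2⟩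
    have e1 := h2 X hX A hA hXA
    have e2 := h2 X hX B hB hXB
    have e3 : ((X ∩ A) ∩ (X ∩ B)).card ≤ 1 := by
      by_contra h
      have hs : (X ∩ A) ∩ (X ∩ B) ⊆ A ∩ B := fun z hz => by
        simp only [Finset.mem_inter] at hz ⊢
        exact ⟨hz.1.2, hz.2.2⟩
      have heq := Finset.eq_of_subset_of_card_le hs (by rw [h2 A hA B hB hBA.symm]; omega)
      rw [hAB] at heq
      have ha : a ∈ (X ∩ A) ∩ (X ∩ B) := heq ▸ (by simp)
      have hb : b ∈ (X ∩ A) ∩ (X ∩ B) := heq ▸ (by simp)
      simp only [Finset.mem_inter] at ha hb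
      exact hX' ⟨ha.1.1, hb.1.1⟩
    have e4 := Finset.card_union_add_card_inter (X ∩ A) (X ∩ B)
    have hs : (X ∩ A) ∪ (X ∩ B) ⊆ X := Finset.union_subset Finset.inter_subset_left Finset.inter_subset_left
    have heq := Finset.eq_of_subset_of_card_le hs (by rw [h3 X hX]; omega)
    intro z hz
    rw [← heq, Finset.mem_union, Finset.mem_inter, Finset.mem_inter] at hz
    rw [hU, Finset.mem_union]
    tauto
  have hCU : C ⊆ U := (hsub C hC).resolve_left hno
  by_cases hall : ∀ X ∈ F, X ⊆ U
  · have hle : F.card ≤ (U.powersetCard 3).card := Finset.card_le_card fun X hX =>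
      Finset.mem_powersetCard.2 ⟨hall X hX, h3 X hX⟩
    rw [Finset.card_powersetCard, hUcard] at hle
    norm_num [Nat.choose] at hle
    omega
  · push Not at hall
    obtain ⟨X, hX, hXU⟩ := hall
    obtain ⟨hXa, hXb⟩ := (hsub X hX).resolve_right hXU
    obtain ⟨z, hzX, hzU⟩ := Finset.not_subset.1 hXU
    have hXC : X ≠ C := fun e => hXU (e ▸ hCU)
    have hXeq : X = {a, b, z} := by
      refine (Finset.eq_of_subset_of_card_le (fun w hw => ?_) ?_).symm
      · simp only [Finset.mem_insert, Finset.mem_singleton] at hw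
        rcases hw with rfl | rfl | rfl <;> assumption
      · have haU : a ∈ U := Finset.mem_union_left _ (Finset.mem_inter.1 (hAB ▸ (by simp) : a ∈ A ∩ B)).1
        have hbU : b ∈ U := Finset.mem_union_left _ (Finset.mem_inter.1 (hAB ▸ (by simp) : b ∈ A ∩ B)).1
        rw [h3 X hX, Finset.card_eq_three.2 ⟨a, b, z, hab, fun e : a = z => hzU (e ▸ haU),
          fun e : b = z => hzU (e ▸ hbU), rfl⟩]
    have e := h2 X hX C hC hXC
    have hs : X ∩ C ⊆ {a, b} := fun w hw => by
      obtain ⟨h1, h2'⟩ := Finset.mem_inter.1 hw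
      rw [hXeq] at h1
      simp only [Finset.mem_insert, Finset.mem_singleton] at h1 ⊢
      rcases h1 with h1 | h1 | h1
      · exact Or.inl h1
      · exact Or.inr h1
      · exact absurd (hCU (h1 ▸ h2')) hzU
    have heq := Finset.eq_of_subset_of_card_le hs (by rw [e, Finset.card_pair hab])
    have ha : a ∈ X ∩ C := heq ▸ (by simp)
    have hb : b ∈ X ∩ C := heq ▸ (by simp)
    exact hno ⟨(Finset.mem_inter.1 ha).2, (Finset.mem_inter.1 hb).2⟩

theorem key_mixed {A B q : ℤ} (hA : 15 ≤ A) (hB : B ≤ -15) (hsum : A + B = 2 + 16 * q)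
    (hkey : (A + B) * (1 + A) * (1 + B) = 8 * A * B) : False := by
  have hABneg : A * B < 0 := mul_neg_of_pos_of_neg (by omega) (by omega)
  have h1 : (1 + A) * (1 + B) < 0 := mul_neg_of_pos_of_neg (by omega) (by omega)
  rcases lt_trichotomy q 0 with hq | hq | hq
  · have := mul_pos_of_neg_of_neg (show A + B < 0 by omega) h1
    rw [← mul_assoc] at this
    linarith
  · have hB' : B = 2 - A := by omega
    subst hB'
    nlinarith [mul_le_mul hA hA (by norm_num) (by omega)]
  · have hs : 18 ≤ A + B := by omega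
    have h2 : A * B ≤ -15 * (A + B + 15) := by
      have := mul_le_mul (show A + B + 15 ≤ A by omega) (show 15 ≤ -B by omega) (by norm_num) (by omega)
      linarith
    have h3 := mul_le_mul_of_nonneg_left h2 (show 0 ≤ A + B - 8 by omega)
    have h4 : 0 ≤ (A + B - 18) * (A + B) := mul_nonneg (by omega) (by omega)
    linarith

theorem eq_one_of_key {A B : ℤ} (hA : A = 1 ∨ 15 ≤ A ∨ A ≤ -15) (hB : B = 1 ∨ 15 ≤ B ∨ B ≤ -15)
    (hmod : 16 ∣ A + B - 2) (hkey : (A + B) * (1 + A) * (1 + B) = 8 * A * B) : A = 1 ∧ B = 1 := by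
  have hone : ∀ x : ℤ, (1 + x) * (1 + 1) * (1 + x) = 8 * 1 * x → x = 1 := by
    intro x hx
    have : (x - 1) ^ 2 = 0 := by linarith
    exact sub_eq_zero.1 ((pow_eq_zero_iff (by norm_num)).1 this)
  obtain ⟨q, hq⟩ := hmod
  rcases hA with hA | hA | hA
  · subst hA; exact ⟨rfl, hone B hkey⟩
  all_goals rcases hB with hB | hB | hB
  · subst hB; exact ⟨hone A (by linarith), rfl⟩
  · exfalso
    have h1 : (30 : ℤ) ≤ A + B := by omega
    have h2 : A * B < (1 + A) * (1 + B) := by linarith
    have h3 : 0 < A * B := mul_pos (by omega) (by omega)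
    have h4 := mul_lt_mul_of_pos_left h2 (show 0 < A + B by omega)
    have h5 := mul_le_mul_of_nonneg_right h1 h3.le
    rw [← mul_assoc] at h4
    linarith
  · exact (key_mixed (q := q) hA hB (by linarith) hkey).elim
  · subst hB; exact ⟨hone A (by linarith), rfl⟩
  · exact (key_mixed (q := q) hB hA (by linarith) (by linarith)).elim
  · exfalso
    have h1 : 0 < (1 + A) * (1 + B) := mul_pos_of_neg_of_neg (by omega) (by omega)
    have h2 := mul_neg_of_neg_of_pos (show A + B < 0 by omega) h1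
    have h3 : 0 < A * B := mul_pos_of_neg_of_neg (by omega) (by omega)
    rw [← mul_assoc] at h2
    linarith

open scoped Classical

variable {G : Type u} [Group G] [Fintype G] [Fact (Nat.Prime 2)]
variable {P : Sylow 2 G} {n : G} (D : Setup P n)

include D

/-- The automorphism of the Sylow subgroup. -/
def theta (i : ℕ) : (P : Subgroup G) →* (P : Subgroup G) where
  toFun y := ⟨n ^ i * y * (n ^ i)⁻¹, theta_mem D i y.2⟩
  map_one' := Subtype.ext (by simp)
  map_mul' a b := Subtype.ext (by simp only [Subgroup.coe_mul]; group)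

theorem theta_coe (i : ℕ) (y : (P : Subgroup G)) : ((theta D i y : (P : Subgroup G)) : G) = n ^ i * y * (n ^ i)⁻¹ := rfl

theorem theta_comp (i j : ℕ) (y : (P : Subgroup G)) : theta D i (theta D j y) = theta D (i + j) y :=
  Subtype.ext (by simp only [theta_coe, pow_add]; group)

theorem theta_three (y : (P : Subgroup G)) : theta D 3 y = y := Subtype.ext (D.hn3 y y.2)

theorem theta_mod (i : ℕ) (y : (P : Subgroup G)) : theta D i y = theta D (i % 3) y := by
  induction i using Nat.strong_induction_on with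
  | _ i ih =>
    by_cases hi : i < 3
    · rw [Nat.mod_eq_of_lt hi]
    · rw [show i = 3 + (i - 3) by omega, ← theta_comp, theta_three, ih (i - 3) (by omega),
        show (3 + (i - 3)) % 3 = (i - 3) % 3 by omega]

theorem theta_bijective (i : ℕ) : Function.Bijective (theta D i) := by
  rw [← Finite.injective_iff_bijective]
  intro a b h
  have h' := congrArg Subtype.val h
  simp only [theta_coe] at h'
  exact Subtype.ext (mul_left_cancel (mul_right_cancel h'))

/-- The action on the characters. -/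
noncomputable def shift (i : ℕ) (μ : IrrCharacter (P : Subgroup G)) : IrrCharacter (P : Subgroup G) :=
  ⟨fun y => (μ : ↥(P : Subgroup G) → ℂ) (theta D i y), irr_comp_of_surjective μ.2 (theta D i) (theta_bijective D i).2⟩

theorem shift_apply (i : ℕ) (μ : IrrCharacter (P : Subgroup G)) (y : (P : Subgroup G)) :
    (shift D i μ : ↥(P : Subgroup G) → ℂ) y = (μ : ↥(P : Subgroup G) → ℂ) (theta D i y) := rfl

theorem shift_shift (i j : ℕ) (μ : IrrCharacter (P : Subgroup G)) : shift D i (shift D j μ) = shift D ((j + i) % 3) μ :=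
  Subtype.ext (funext fun y => by rw [shift_apply, shift_apply, shift_apply, theta_comp, theta_mod])

theorem shift_zero (μ : IrrCharacter (P : Subgroup G)) : shift D 0 μ = μ :=
  Subtype.ext (funext fun y => by rw [shift_apply]; exact congrArg _ (Subtype.ext (by simp [theta_coe])))

theorem mu_hom (μ : IrrCharacter (P : Subgroup G)) :
    (μ : ↥(P : Subgroup G) → ℂ) 1 = 1 ∧ ∀ x y, (μ : ↥(P : Subgroup G) → ℂ) (x * y) =
      (μ : ↥(P : Subgroup G) → ℂ) x * (μ : ↥(P : Subgroup G) → ℂ) y := by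
  haveI : IsMulCommutative (P : Subgroup G) := ⟨⟨fun a b => Subtype.ext (D.hab a a.2 b b.2)⟩⟩
  exact irr_comm_hom μ.2

theorem shift_ne {μ : IrrCharacter (P : Subgroup G)} (hμ : μ ≠ oneChar) {i : ℕ} (hi : i = 1 ∨ i = 2) :
    shift D i μ ≠ μ := by
  intro h
  refine hμ (Subtype.ext (funext fun z => ?_))
  have hinj : Function.Injective fun y : (P : Subgroup G) => theta D i y * y⁻¹ := by
    intro a b hab
    have h1 : theta D i (a * b⁻¹) = a * b⁻¹ := by
      have hab' : theta D i a * a⁻¹ = theta D i b * b⁻¹ := hab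
      letI : CommGroup (P : Subgroup G) :=
        { (inferInstance : Group (P : Subgroup G)) with
          mul_comm := fun x y => Subtype.ext (D.hab x x.2 y y.2) }
      rw [map_mul, map_inv]
      calc theta D i a * (theta D i b)⁻¹ = theta D i a * a⁻¹ * (a * (theta D i b)⁻¹) := by group
        _ = theta D i b * b⁻¹ * (a * (theta D i b)⁻¹) := by rw [hab']
        _ = theta D i b * (theta D i b)⁻¹ * (a * b⁻¹) := by ac_rfl
        _ = a * b⁻¹ := by rw [mul_inv_cancel, one_mul]
    have h2 : n ^ i * ((a * b⁻¹ : (P : Subgroup G)) : G) * (n ^ i)⁻¹ = ((a * b⁻¹ : (P : Subgroup G)) : G) :=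
      congrArg Subtype.val h1
    exact mul_inv_eq_one.1 (Subtype.ext (fix_one D hi (a * b⁻¹).2 h2) : a * b⁻¹ = 1)
  obtain ⟨y, hy⟩ := Finite.injective_iff_surjective.1 hinj z
  obtain ⟨h1, hm⟩ := mu_hom D μ
  have hy' : theta D i y = z * y := by rw [← hy]; simp
  have h2 : (μ : ↥(P : Subgroup G) → ℂ) (theta D i y) = (μ : ↥(P : Subgroup G) → ℂ) y :=
    congrFun (congrArg Subtype.val h) y
  rw [hy', hm] at h2
  have h0 : (μ : ↥(P : Subgroup G) → ℂ) y ≠ 0 := fun e => by
    have := hm y y⁻¹
    rw [mul_inv_cancel, h1, e, zero_mul] at this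
    exact one_ne_zero this
  exact (mul_eq_right₀ h0).1 h2

/-- The sum over an orbit. -/
noncomputable def orbSum (μ : IrrCharacter (P : Subgroup G)) (y : (P : Subgroup G)) : ℂ :=
  ∑ i ∈ Finset.range 3, (shift D i μ : ↥(P : Subgroup G) → ℂ) y

theorem orbSum_one (μ : IrrCharacter (P : Subgroup G)) : orbSum D μ 1 = 3 := by
  simp [orbSum, (mu_hom D _).1]

theorem orbSum_theta (μ : IrrCharacter (P : Subgroup G)) (i : ℕ) (y : (P : Subgroup G)) :
    orbSum D μ (theta D i y) = orbSum D μ y := by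
  simp only [orbSum, shift_apply, theta_comp, Finset.sum_range_succ, Finset.sum_range_zero, zero_add]
  rw [theta_mod D (i), theta_mod D (1 + i), theta_mod D (2 + i)]
  have : i % 3 = 0 ∨ i % 3 = 1 ∨ i % 3 = 2 := by omega
  rcases this with h | h | h <;>
    simp only [show (1 + i) % 3 = (1 + i % 3) % 3 by omega, show (2 + i) % 3 = (2 + i % 3) % 3 by omega, h] <;>
    norm_num <;> ring

theorem sum_orbSum {μ : IrrCharacter (P : Subgroup G)} (hμ : μ ≠ oneChar) :
    ∑ y : (P : Subgroup G), orbSum D μ y = 0 := by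
  simp only [orbSum]
  rw [Finset.sum_comm]
  refine Finset.sum_eq_zero fun i _ => ?_
  have hne : shift D i μ ≠ oneChar := fun h => hμ (Subtype.ext (funext fun z => by
    obtain ⟨y, rfl⟩ := (theta_bijective D i).2 z
    exact congrFun (congrArg Subtype.val h) y))
  have h := sum_mul_conj (shift D i μ) oneChar
  rw [if_neg hne] at h
  simpa [oneChar_apply] using h

theorem sum_orbSum_mul (μ ν : IrrCharacter (P : Subgroup G)) :
    ∑ y : (P : Subgroup G), orbSum D μ y * conj (orbSum D ν y)
      = (Nat.card (P : Subgroup G) : ℂ) *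
        ∑ i ∈ Finset.range 3, ∑ j ∈ Finset.range 3, (if shift D i μ = shift D j ν then (1 : ℂ) else 0) := by
  simp only [orbSum, map_sum, Finset.sum_mul_sum]
  rw [Finset.sum_comm, Finset.mul_sum]
  refine Finset.sum_congr rfl fun i _ => ?_
  rw [Finset.sum_comm, Finset.mul_sum]
  refine Finset.sum_congr rfl fun j _ => ?_
  rw [sum_mul_conj]
  split_ifs <;> simp

/-- The function on the Sylow subgroup. -/
noncomputable def orbFun (μ : IrrCharacter (P : Subgroup G)) (y : (P : Subgroup G)) : ℂ := 3 - orbSum D μ y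

theorem exists_lift (μ : IrrCharacter (P : Subgroup G)) :
    ∃ Φ : G → ℂ, Φ ∈ genChar G ∧ IsClassFunction G Φ ∧
      ∀ (g : G) (y : (P : Subgroup G)), IsConj (ppart 2 g) (y : G) → Φ g = orbFun D μ y := by
  refine exists_ppart_ext P ?_ fun x y h => ?_
  · have e : orbFun D μ = (3 : ℕ) • ((oneChar : IrrCharacter (P : Subgroup G)) : ↥(P : Subgroup G) → ℂ) -
        ∑ i ∈ Finset.range 3, (shift D i μ : ↥(P : Subgroup G) → ℂ) := by
      funext y
      simp [orbFun, orbSum, oneChar_apply]
    rw [e]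
    exact sub_mem ((genChar _).nsmul_mem (AddSubgroup.subset_closure (isCharacter_of_irr oneChar.2)) 3)
      (AddSubgroup.sum_mem _ fun i _ => AddSubgroup.subset_closure (isCharacter_of_irr (shift D i μ).2))
  · obtain ⟨i, -, e⟩ := fusion D x.2 y.2 h
    rw [show y = theta D i x from Subtype.ext e.symm, orbFun, orbFun, orbSum_theta]

/-- The lifted generalized character. -/
noncomputable def lift (μ : IrrCharacter (P : Subgroup G)) : G → ℂ := (exists_lift D μ).choose

theorem lift_genChar (μ : IrrCharacter (P : Subgroup G)) : lift D μ ∈ genChar G := (exists_lift D μ).choose_spec.1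

theorem lift_class (μ : IrrCharacter (P : Subgroup G)) : IsClassFunction G (lift D μ) :=
  (exists_lift D μ).choose_spec.2.1

theorem lift_val (μ : IrrCharacter (P : Subgroup G)) {g : G} {y : (P : Subgroup G)}
    (h : IsConj (ppart 2 g) (y : G)) : lift D μ g = orbFun D μ y := (exists_lift D μ).choose_spec.2.2 g y h

theorem lift_coe (μ : IrrCharacter (P : Subgroup G)) (y : (P : Subgroup G)) : lift D μ (y : G) = orbFun D μ y :=
  lift_val D μ (by rw [(part_of_pelt (p := 2) (elt_pelt D y.2)).1])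

theorem lift_ppart (μ : IrrCharacter (P : Subgroup G)) (g : G) : lift D μ g = lift D μ (ppart 2 g) := by
  obtain ⟨c, hc⟩ := exists_conj_mem D (part_spec (p := 2) g).2.2.1
  have h : IsConj (ppart 2 g) ((⟨_, hc⟩ : (P : Subgroup G)) : G) := isConj_iff.2 ⟨c, rfl⟩
  rw [lift_val D μ h, lift_val D μ (g := ppart 2 g) (y := ⟨_, hc⟩)
    (by rw [(part_of_pelt (p := 2) (part_spec (p := 2) g).2.2.1).1]; exact h)]

theorem lift_regular (μ : IrrCharacter (P : Subgroup G)) {g : G} (hg : ppart 2 g = 1) : lift D μ g = 0 := by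
  rw [lift_val D μ (y := 1) (by rw [hg]; exact IsConj.refl _), orbFun, orbSum_one, sub_self]

theorem inner_lift (μ : IrrCharacter (P : Subgroup G)) {F : G → ℂ} (hF : IsClassFunction G F)
    (hc : ∀ g, ppart 2 g ≠ 1 → F g = F (ppart 2 g)) :
    3 * (Nat.card (P : Subgroup G) : ℂ) * classInner (lift D μ) F =
      ∑ y : (P : Subgroup G), orbFun D μ y * conj (F (y : G)) := by
  have hG : (Nat.card G : ℂ) ≠ 0 := Nat.cast_ne_zero.2 Nat.card_pos.ne'
  rw [classInner_eq, mul_left_comm, inv_mul_eq_iff_eq_mul₀ hG,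
    sum_sections D (F := fun g => lift D μ g * conj (F g))
    (fun g h => by dsimp only; rw [lift_class D μ g h, hF g h])
    (fun g hg => by rw [lift_regular D μ hg, zero_mul]) (fun g hg => by rw [← lift_ppart D μ g, hc g hg])]
  congr 1
  simp only [lift_coe]
  refine Finset.sum_filter_of_ne fun y _ hne e => hne ?_
  subst e
  rw [orbFun, orbSum_one, sub_self, zero_mul]

theorem principal_apply_eq {M : Ideal AlgInt} (hM : IsPModular 2 M) {χ : IrrCharacter G} (hχ : χ ∈ principalBlock M G)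
    (v : ↥(P : Subgroup G) → ℂ) (hv : ∀ y i, v (theta D i y) = v y)
    (hsum : ∀ μ : IrrCharacter (P : Subgroup G), μ ≠ oneChar →
      ∑ y : (P : Subgroup G), orbFun D μ y * conj (v y) =
        3 * (Nat.card (P : Subgroup G) : ℂ) * classInner (lift D μ) (χ : G → ℂ))
    {y : (P : Subgroup G)} (hy : y ≠ 1) : (χ : G → ℂ) (y : G) = v y := by
  set d : ↥(P : Subgroup G) → ℂ := fun y => (χ : G → ℂ) (y : G) - v y with hd
  have hcls := CfsgLib.CharBasics.isClassFunction (isCharacter_of_irr χ.2)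
  have hdθ : ∀ y i, d (theta D i y) = d y := fun y i => by
    show (χ : G → ℂ) (n ^ i * (y : G) * (n ^ i)⁻¹) - v (theta D i y) = _
    rw [hv, hcls]
  set Dsum := ∑ y, d y with hDsum
  have hμ : ∀ μ : IrrCharacter (P : Subgroup G), ∑ y, d y * conj ((μ : ↥(P : Subgroup G) → ℂ) y) = Dsum := by
    intro μ
    by_cases h1 : μ = oneChar
    · simp [h1, oneChar_apply, hDsum]
    have h0 : ∑ y, orbFun D μ y * conj (d y) = 0 := by
      simp only [hd, map_sub, mul_sub, Finset.sum_sub_distrib]
      rw [hsum μ h1, inner_lift D μ hcls fun g hg => principal_const D hM hχ hg, sub_self]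
    have h0' : ∑ y, conj (orbFun D μ y) * d y = 0 := by
      have := congrArg conj h0
      simpa [map_sum] using this
    simp only [orbFun, map_sub, map_ofNat, sub_mul, Finset.sum_sub_distrib, ← Finset.mul_sum, orbSum, map_sum,
      Finset.sum_mul] at h0'
    rw [← hDsum, Finset.sum_comm, Finset.sum_congr (s₁ := Finset.range 3) rfl (g := fun _ => ∑ y, d y * conj ((μ : ↥(P : Subgroup G) → ℂ) y))
      (fun i _ => ?_), Finset.sum_const, Finset.card_range, nsmul_eq_mul] at h0'
    · push_cast at h0'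
      linear_combination (-1 / 3 : ℂ) * h0'
    · rw [← (theta_bijective D i).sum_comp fun y => d y * conj ((μ : ↥(P : Subgroup G) → ℂ) y)]
      exact Finset.sum_congr rfl fun y _ => by rw [hdθ, shift_apply, mul_comm]
  set g : ↥(P : Subgroup G) → ℂ := fun y => d y - if y = 1 then Dsum else 0 with hg
  have hgcls : IsClassFunction (P : Subgroup G) g := fun a b => by
    rw [show b * a * b⁻¹ = a from Subtype.ext (by
      simp only [Subgroup.coe_mul, Subgroup.coe_inv]; rw [D.hab b b.2 a a.2, mul_inv_cancel_right])]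
  have hg0 : g = 0 := by
    refine eq_zero_of_classInner hgcls fun μ => ?_
    rw [classInner_eq]
    simp only [hg, sub_mul, ite_mul, zero_mul, Finset.sum_sub_distrib, Finset.sum_ite_eq', Finset.mem_univ, if_true,
      (mu_hom D μ).1, map_one, mul_one, hμ, sub_self, mul_zero]
  have h := congrFun hg0 y
  simp only [hg, hd, if_neg hy, sub_zero, Pi.zero_apply] at h
  exact sub_eq_zero.1 h

theorem sum_same {μ : IrrCharacter (P : Subgroup G)} (hμ : μ ≠ oneChar) :
    ∑ i ∈ Finset.range 3, ∑ j ∈ Finset.range 3, (if shift D i μ = shift D j μ then (1 : ℂ) else 0) = 3 := by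
  have h : ∀ i < 3, ∀ j < 3, shift D i μ = shift D j μ → i = j := by
    intro i hi j hj e
    by_contra hne
    have h1 := congrArg (shift D (3 - i)) e
    rw [shift_shift, shift_shift, show (i + (3 - i)) % 3 = 0 by omega, shift_zero] at h1
    exact shift_ne D hμ (i := (j + (3 - i)) % 3) (by omega) h1.symm
  rw [Finset.sum_congr rfl (g := fun _ => (1 : ℂ)) (fun i hi => by
    rw [Finset.sum_eq_single i (fun j hj hne => if_neg fun e => hne
      (h i (Finset.mem_range.1 hi) j (Finset.mem_range.1 hj) e).symm) (fun h' => absurd hi h'), if_pos rfl]),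
    Finset.sum_const, Finset.card_range]
  norm_num

set_option maxHeartbeats 2000000 in
/-- The main theorem: with a trivial odd core the Sylow subgroup is normal. -/
theorem sylow_normal {M : Ideal AlgInt} (hM : IsPModular 2 M) (h16 : 16 ≤ Nat.card (P : Subgroup G))
    (lam₀ : IrrCharacter (P : Subgroup G)) (hlam : lam₀ ≠ oneChar)
    (hinv : ∀ y : (P : Subgroup G), orderOf (y : G) = 2 → (lam₀ : ↥(P : Subgroup G) → ℂ) y = 1)
    (hO : ∀ N : Subgroup G, N.Normal → Odd (Nat.card N) → N = ⊥) : (P : Subgroup G).Normal := by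
  haveI : Fintype (IrrCharacter G) := @Fintype.ofFinite _ finite_irrCharacter
  haveI : Fintype (IrrCharacter (P : Subgroup G)) := @Fintype.ofFinite _ finite_irrCharacter
  haveI : IsMulCommutative (P : Subgroup G) := ⟨⟨fun a b => Subtype.ext (D.hab a a.2 b b.2)⟩⟩
  have hP0 : (Nat.card (P : Subgroup G) : ℂ) ≠ 0 := Nat.cast_ne_zero.2 Nat.card_pos.ne'
  have h3P : 3 * (Nat.card (P : Subgroup G) : ℂ) ≠ 0 := mul_ne_zero three_ne_zero hP0
  have honeB : (oneChar : IrrCharacter G) ∈ principalBlock M G := Blocks.oneChar_mem_principal hM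
  -- inner products
  have hinn1 : ∀ μ : IrrCharacter (P : Subgroup G), μ ≠ oneChar →
      classInner (lift D μ) ((oneChar : IrrCharacter G) : G → ℂ) = ((1 : ℤ) : ℂ) := by
    intro μ hμ
    refine mul_left_cancel₀ h3P ?_
    rw [inner_lift D μ (fun g h => by simp [oneChar_apply]) (fun g _ => by simp [oneChar_apply])]
    simp only [oneChar_apply, map_one, mul_one, orbFun, Finset.sum_sub_distrib, sum_orbSum D hμ, Finset.sum_const,
      Finset.card_univ, ← Nat.card_eq_fintype_card, nsmul_eq_mul, Int.cast_one, sub_zero]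
    ring
  have hinn2 : ∀ μ ν : IrrCharacter (P : Subgroup G), μ ≠ oneChar → ν ≠ oneChar →
      3 * classInner (lift D μ) (lift D ν) =
        9 + ∑ i ∈ Finset.range 3, ∑ j ∈ Finset.range 3, (if shift D i μ = shift D j ν then (1 : ℂ) else 0) := by
    intro μ ν hμ hν
    refine mul_left_cancel₀ hP0 ?_
    rw [← mul_assoc, mul_comm (Nat.card (P : Subgroup G) : ℂ) 3,
      inner_lift D μ (lift_class D ν) (fun g _ => lift_ppart D ν g)]
    have hsν : ∑ y, conj (orbSum D ν y) = 0 := by rw [← map_sum, sum_orbSum D hν, map_zero]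
    simp only [lift_coe, orbFun, map_sub, map_ofNat, mul_sub, sub_mul, Finset.sum_sub_distrib, ← Finset.mul_sum,
      ← Finset.sum_mul, sum_orbSum D hμ, hsν, sum_orbSum_mul, Finset.sum_const, Finset.card_univ,
      ← Nat.card_eq_fintype_card, nsmul_eq_mul]
    ring
  -- the constituents
  have hE : ∀ μ : IrrCharacter (P : Subgroup G), ∃ (S : Finset (IrrCharacter G)) (c : IrrCharacter G → ℤ), μ ≠ oneChar →
      S.card = 3 ∧ oneChar ∉ S ∧ (∀ χ ∈ S, c χ = 1 ∨ c χ = -1) ∧
      (∀ χ ∈ S, classInner (lift D μ) (χ : G → ℂ) = (c χ : ℂ)) ∧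
      (∀ χ, χ ∉ S → χ ≠ oneChar → classInner (lift D μ) (χ : G → ℂ) = 0) ∧
      ∀ g, lift D μ g = ((1 : ℤ) : ℂ) + ∑ χ ∈ S, (c χ : ℂ) * (χ : G → ℂ) g := by
    intro μ
    by_cases hμ : μ = oneChar
    · exact ⟨∅, 0, fun h => absurd hμ h⟩
    have hnorm : classInner (lift D μ) (lift D μ) = ((1 : ℤ) : ℂ) * ((1 : ℤ) : ℂ) + (3 : ℕ) := by
      refine mul_left_cancel₀ (three_ne_zero : (3 : ℂ) ≠ 0) ?_
      rw [hinn2 μ μ hμ hμ, sum_same D hμ]
      push_cast; ring
    obtain ⟨S, c, h⟩ := exists_small_expansion (lift_genChar D μ) (lift_class D μ) (c₀ := 1) (N := 3) le_rfl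
      (hinn1 μ hμ) hnorm
    exact ⟨S, c, fun _ => h⟩
  choose S c hSc using hE
  have hnot : ∀ μ, μ ≠ oneChar → ∀ χ ∈ S μ, χ ∈ principalBlock M G := by
    intro μ hμ χ hχ
    by_contra hB
    obtain ⟨-, -, hpm, hin, -, -⟩ := hSc μ hμ
    have h := (hin χ hχ).symm.trans (classInner_ppart_eq_zero hM hB (lift_ppart D μ))
    rcases hpm χ hχ with e | e <;> rw [e] at h <;> norm_num at h
  -- two different orbits share exactly two constituents, with the same signs
  have hcross : ∀ μ ν, μ ≠ oneChar → ν ≠ oneChar → (∀ i < 3, ν ≠ shift D i μ) →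
      (S μ ∩ S ν).card = 2 ∧ ∀ x ∈ S μ ∩ S ν, c μ x = c ν x := by
    intro μ ν hμ hν hne
    obtain ⟨hcardμ, hoμ, hpmμ, hinμ, houtμ, -⟩ := hSc μ hμ
    obtain ⟨-, hoν, hpmν, -, -, hexpν⟩ := hSc ν hν
    have h := hinn2 μ ν hμ hν
    rw [Finset.sum_eq_zero (fun i hi => Finset.sum_eq_zero fun j hj => if_neg fun e => ?_), add_zero] at h
    · have h' : classInner (lift D μ) (lift D ν) = 1 + ((∑ x ∈ S μ ∩ S ν, c μ x * c ν x : ℤ) : ℂ) := by
        rw [show lift D ν = ((oneChar : IrrCharacter G) : G → ℂ) + ∑ χ ∈ S ν, (c ν χ : ℂ) • (χ : G → ℂ) from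
          funext fun g => by
            simp only [hexpν g, Pi.add_apply, Finset.sum_apply, Pi.smul_apply, smul_eq_mul, oneChar_apply, Int.cast_one],
          classInner_comm, classInner_add_left, map_add, ← classInner_comm, hinn1 μ hμ,
          classInner_sum_left, map_sum, Int.cast_one, add_right_inj, Int.cast_sum]
        rw [← Finset.sum_subset (Finset.inter_subset_right : S μ ∩ S ν ⊆ S ν) (fun x hx hno => ?_)]
        · refine Finset.sum_congr rfl fun x hx => ?_
          rw [classInner_smul_left, map_mul, ← classInner_comm, map_intCast, hinμ x (Finset.mem_inter.1 hx).1]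
          push_cast; ring
        · rw [classInner_smul_left, map_mul, ← classInner_comm,
            houtμ x (fun hm => hno (Finset.mem_inter.2 ⟨hm, hx⟩)) (fun (e : x = oneChar) => hoν (e ▸ hx)), mul_zero]
      rw [h'] at h
      have hsum : ∑ x ∈ S μ ∩ S ν, c μ x * c ν x = 2 := by
        refine Int.cast_injective (α := ℂ) ?_
        push_cast at h ⊢
        linear_combination h / 3
      have hterm : ∀ x ∈ S μ ∩ S ν, c μ x * c ν x ≤ 1 ∧ (c μ x * c ν x = 1 → c μ x = c ν x) ∧
          (c μ x * c ν x = 1 ∨ c μ x * c ν x = -1) := fun x hx => by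
        rcases hpmμ x (Finset.mem_inter.1 hx).1 with e | e <;> rcases hpmν x (Finset.mem_inter.1 hx).2 with e' | e' <;>
          simp [e, e']
      have hle : (S μ ∩ S ν).card ≤ 3 := hcardμ ▸ Finset.card_le_card Finset.inter_subset_left
      have hge : (∑ x ∈ S μ ∩ S ν, c μ x * c ν x) ≤ ((S μ ∩ S ν).card : ℤ) := by
        have := Finset.sum_le_card_nsmul _ _ 1 fun x hx => (hterm x hx).1
        simpa using this
      have hc2 : (S μ ∩ S ν).card = 2 := by
        rcases (show (S μ ∩ S ν).card = 2 ∨ (S μ ∩ S ν).card = 3 by omega) with h2 | h3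
        · exact h2
        · exfalso
          obtain ⟨x, y, z, hxy, hxz, hyz, hs⟩ := Finset.card_eq_three.1 h3
          rw [hs, Finset.sum_insert (by simp [hxy, hxz]), Finset.sum_pair hyz] at hsum
          have a1 := (hterm x (by rw [hs]; simp)).2.2
          have a2 := (hterm y (by rw [hs]; simp)).2.2
          have a3 := (hterm z (by rw [hs]; simp)).2.2
          omega
      refine ⟨hc2, fun x hx => (hterm x hx).2.1 ?_⟩
      by_contra hx1
      have hx' := (hterm x hx).2.2.resolve_left hx1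
      rw [← Finset.add_sum_erase _ _ hx, hx'] at hsum
      have : ∑ y ∈ (S μ ∩ S ν).erase x, c μ y * c ν y ≤ (((S μ ∩ S ν).erase x).card : ℤ) := by
        have := Finset.sum_le_card_nsmul ((S μ ∩ S ν).erase x) (fun y => c μ y * c ν y) 1 fun y hy => (hterm y (Finset.mem_of_mem_erase hy)).1
        simpa using this
      rw [Finset.card_erase_of_mem hx, hc2] at this
      push_cast at this
      omega
    · have h1 := congrArg (shift D (3 - j)) e
      have hj' := Finset.mem_range.1 hj
      rw [shift_shift, shift_shift, show (j + (3 - j)) % 3 = 0 by omega, shift_zero] at h1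
      exact hne _ (Nat.mod_lt _ (by norm_num)) h1.symm
  set Λ := (Finset.univ : Finset (IrrCharacter (P : Subgroup G))).erase oneChar with hΛ
  have hΛmem : ∀ {μ}, μ ∈ Λ ↔ μ ≠ oneChar := fun {μ} => by simp [hΛ]
  have hinjS : ∀ μ ∈ Λ, ∀ ν ∈ Λ, S μ = S ν → ∃ i < 3, ν = shift D i μ := by
    intro μ hμ ν hν e
    by_contra hno
    push Not at hno
    have := (hcross μ ν (hΛmem.1 hμ) (hΛmem.1 hν) hno).1
    rw [e, Finset.inter_self, (hSc ν (hΛmem.1 hν)).1] at this
    omega
  have h5 : 5 ≤ (Λ.image S).card := by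
    have hle : Λ.card ≤ 3 * (Λ.image S).card := Finset.card_le_mul_card_image Λ 3 fun A hA => by
      obtain ⟨μ, hμ, rfl⟩ := Finset.mem_image.1 hA
      refine (Finset.card_le_card (t := (Finset.range 3).image fun i => shift D i μ) fun ν hν => ?_).trans
        (Finset.card_image_le.trans (Finset.card_range 3).le)
      obtain ⟨hνΛ, hνS⟩ := Finset.mem_filter.1 hν
      obtain ⟨i, hi, rfl⟩ := hinjS μ hμ ν hνΛ hνS.symm
      exact Finset.mem_image.2 ⟨i, Finset.mem_range.2 hi, rfl⟩
    have hP : Λ.card + 1 = Nat.card (P : Subgroup G) := by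
      rw [hΛ, Finset.card_erase_add_one (Finset.mem_univ _), Finset.card_univ, ← Nat.card_eq_fintype_card, card_irr]
      have : Function.Bijective (fun z : ↥(P : Subgroup G) => ConjClasses.mk z) :=
        ⟨fun a b h => by
          obtain ⟨x, hx⟩ := isConj_iff.1 (ConjClasses.mk_eq_mk_iff_isConj.1 h)
          rwa [show x * a = a * x from Subtype.ext (D.hab x x.2 a a.2), mul_inv_cancel_right] at hx,
          ConjClasses.mk_surjective⟩
      exact (Nat.card_eq_of_bijective _ this).symm
    omega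
  obtain ⟨a, b, hab, habS⟩ := exists_common_pair (Λ.image S) h5
    (fun A hA => by obtain ⟨μ, hμ, rfl⟩ := Finset.mem_image.1 hA; exact (hSc μ (hΛmem.1 hμ)).1)
    (fun A hA B hB hne => by
      obtain ⟨μ, hμ, rfl⟩ := Finset.mem_image.1 hA
      obtain ⟨ν, hν, rfl⟩ := Finset.mem_image.1 hB
      refine (hcross μ ν (hΛmem.1 hμ) (hΛmem.1 hν) fun i _ e => hne ?_).1
      subst e
      -- the same orbit gives the same generalized character
      have hlift : lift D (shift D i μ) = lift D μ := funext fun g => by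
        obtain ⟨d, hd⟩ := exists_conj_mem D (part_spec (p := 2) g).2.2.1
        have hd' : IsConj (ppart 2 g) ((⟨_, hd⟩ : (P : Subgroup G)) : G) := isConj_iff.2 ⟨d, rfl⟩
        rw [lift_val D _ hd', lift_val D _ hd', orbFun, orbFun]
        congr 1
        rw [← orbSum_theta D μ i ⟨_, hd⟩]
        simp only [orbSum, shift_apply, theta_comp]
        exact Finset.sum_congr rfl fun j _ => by rw [add_comm i j]
      obtain ⟨-, hoμ, hpmμ, hinμ, houtμ, -⟩ := hSc μ (hΛmem.1 hμ)
      obtain ⟨-, hoν, hpmν, hinν, houtν, -⟩ := hSc _ (hΛmem.1 hν)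
      ext x
      constructor
      · intro hx
        by_contra hno
        have h := (hinμ x hx).symm.trans (hlift ▸ houtν x hno (fun (e : x = oneChar) => hoμ (e ▸ hx)))
        rcases hpmμ x hx with e | e <;> rw [e] at h <;> norm_num at h
      · intro hx
        by_contra hno
        have h := (hinν x hx).symm.trans (hlift.symm ▸ houtμ x hno (fun (e : x = oneChar) => hoν (e ▸ hx)))
        rcases hpmν x hx with e | e <;> rw [e] at h <;> norm_num at h)
  have hab' : ∀ μ, μ ≠ oneChar → a ∈ S μ ∧ b ∈ S μ := fun μ hμ =>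
    habS _ (Finset.mem_image_of_mem _ (hΛmem.2 hμ))
  -- the third constituent
  have hthird : ∀ μ, ∃ x, μ ≠ oneChar → S μ = {a, b, x} ∧ x ≠ a ∧ x ≠ b := by
    intro μ
    by_cases hμ : μ = oneChar
    · exact ⟨a, fun h => absurd hμ h⟩
    obtain ⟨ha, hb⟩ := hab' μ hμ
    have hb' : b ∈ (S μ).erase a := Finset.mem_erase.2 ⟨hab.symm, hb⟩
    obtain ⟨x, hx⟩ := Finset.card_eq_one.1 (show (((S μ).erase a).erase b).card = 1 by
      rw [Finset.card_erase_of_mem hb', Finset.card_erase_of_mem ha, (hSc μ hμ).1])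
    have hxm : x ∈ ((S μ).erase a).erase b := by rw [hx]; exact Finset.mem_singleton_self x
    refine ⟨x, fun _ => ⟨?_, Finset.ne_of_mem_erase (Finset.mem_of_mem_erase hxm), Finset.ne_of_mem_erase hxm⟩⟩
    rw [← Finset.insert_erase ha, ← Finset.insert_erase hb', hx]
  choose ξ hξ using hthird
  have hsign : ∀ x, (∀ μ, μ ≠ oneChar → x ∈ S μ) → ∀ μ, μ ≠ oneChar → c μ x = c lam₀ x := by
    intro x hx μ hμ
    by_cases horb : ∃ i < 3, lam₀ = shift D i μ
    · obtain ⟨i, -, rfl⟩ := horb
      have hlift : lift D (shift D i μ) = lift D μ := funext fun g => by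
        obtain ⟨d, hd⟩ := exists_conj_mem D (part_spec (p := 2) g).2.2.1
        have hd' : IsConj (ppart 2 g) ((⟨_, hd⟩ : (P : Subgroup G)) : G) := isConj_iff.2 ⟨d, rfl⟩
        rw [lift_val D _ hd', lift_val D _ hd', orbFun, orbFun]
        congr 1
        rw [← orbSum_theta D μ i ⟨_, hd⟩]
        simp only [orbSum, shift_apply, theta_comp]
        exact Finset.sum_congr rfl fun j _ => by rw [add_comm i j]
      refine Int.cast_injective (α := ℂ) ?_
      rw [← (hSc μ hμ).2.2.2.1 x (hx μ hμ), ← (hSc _ hlam).2.2.2.1 x (hx _ hlam), hlift]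
    · push Not at horb
      exact (hcross μ lam₀ hμ hlam horb).2 x (Finset.mem_inter.2 ⟨hx μ hμ, hx _ hlam⟩)
  have hval : ∀ x, (∀ μ, μ ≠ oneChar → x ∈ S μ) → ∀ y : (P : Subgroup G), y ≠ 1 →
      (x : G → ℂ) (y : G) = (c lam₀ x : ℂ) := by
    intro x hx y hy
    refine principal_apply_eq D hM (hnot lam₀ hlam x (hx _ hlam)) (fun _ => (c lam₀ x : ℂ)) (fun _ _ => rfl)
      (fun μ hμ => ?_) hy
    rw [(hSc μ hμ).2.2.2.1 x (hx μ hμ), hsign x hx μ hμ, map_intCast, ← Finset.sum_mul]
    simp only [orbFun, Finset.sum_sub_distrib, sum_orbSum D hμ, Finset.sum_const, Finset.card_univ,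
      ← Nat.card_eq_fintype_card, nsmul_eq_mul, sub_zero]
    ring
  have hξval : ∀ ν, ν ≠ oneChar → ∀ y : (P : Subgroup G), y ≠ 1 →
      (ξ ν : G → ℂ) (y : G) = -(c ν (ξ ν) : ℂ) * orbSum D ν y := by
    intro ν hν y hy
    obtain ⟨hSν, hξa, hξb⟩ := hξ ν hν
    have hxS : ξ ν ∈ S ν := by rw [hSν]; simp
    refine principal_apply_eq D hM (hnot ν hν _ hxS) (fun y => -(c ν (ξ ν) : ℂ) * orbSum D ν y)
      (fun y i => by simp only [orbSum_theta]) (fun μ hμ => ?_) hy
    have hLHS : ∑ y, orbFun D μ y * conj (-(c ν (ξ ν) : ℂ) * orbSum D ν y) =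
        (c ν (ξ ν) : ℂ) * ((Nat.card (P : Subgroup G) : ℂ) *
          ∑ i ∈ Finset.range 3, ∑ j ∈ Finset.range 3, (if shift D i μ = shift D j ν then (1 : ℂ) else 0)) := by
      rw [← sum_orbSum_mul D μ ν, Finset.mul_sum]
      have h0 : ∑ y, conj (orbSum D ν y) = 0 := by rw [← map_sum, sum_orbSum D hν, map_zero]
      rw [← sub_eq_zero, ← Finset.sum_sub_distrib,
        Finset.sum_congr rfl (g := fun y => -(3 * (c ν (ξ ν) : ℂ)) * conj (orbSum D ν y))
        (fun y _ => by simp only [orbFun, map_mul, map_neg, map_intCast]; ring), ← Finset.mul_sum, h0, mul_zero]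
    rw [hLHS]
    by_cases horb : ∃ i < 3, μ = shift D i ν
    · obtain ⟨i₀, hi₀, rfl⟩ := horb
      have hlift : lift D (shift D i₀ ν) = lift D ν := funext fun g => by
        obtain ⟨d, hd⟩ := exists_conj_mem D (part_spec (p := 2) g).2.2.1
        have hd' : IsConj (ppart 2 g) ((⟨_, hd⟩ : (P : Subgroup G)) : G) := isConj_iff.2 ⟨d, rfl⟩
        rw [lift_val D _ hd', lift_val D _ hd', orbFun, orbFun]
        congr 1
        rw [← orbSum_theta D ν i₀ ⟨_, hd⟩]
        simp only [orbSum, shift_apply, theta_comp]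
        exact Finset.sum_congr rfl fun j _ => by rw [add_comm i₀ j]
      rw [hlift, (hSc ν hν).2.2.2.1 _ hxS]
      have e : ∑ i ∈ Finset.range 3, ∑ j ∈ Finset.range 3,
          (if shift D i (shift D i₀ ν) = shift D j ν then (1 : ℂ) else 0) = 3 := by
        rw [← sum_same D hν]
        simp only [shift_shift, Finset.sum_range_succ, Finset.sum_range_zero, zero_add]
        interval_cases i₀ <;> norm_num <;> ring
      rw [e]
      ring
    · push Not at horb
      rw [Finset.sum_eq_zero (fun i hi => Finset.sum_eq_zero fun j hj => if_neg fun e => ?_), mul_zero, mul_zero,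
        (hSc μ hμ).2.2.2.2.1 (ξ ν) ?_ (fun (e : ξ ν = oneChar) => (hSc ν hν).2.1 (e ▸ hxS)), mul_zero]
      · intro hmem
        have hne : ∀ i < 3, μ ≠ shift D i ν := horb
        have h2 := (hcross ν μ hν hμ hne).1
        obtain ⟨ha', hb'⟩ := hab' μ hμ
        have hsub : S ν ⊆ S ν ∩ S μ := by
          intro z hz
          refine Finset.mem_inter.2 ⟨hz, ?_⟩
          rw [hSν] at hz
          simp only [Finset.mem_insert, Finset.mem_singleton] at hz
          rcases hz with rfl | rfl | rfl <;> assumption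
        have := Finset.card_le_card hsub
        rw [(hSc ν hν).1, h2] at this
        omega
      · have h1 := congrArg (shift D (3 - i)) e
        have hi' := Finset.mem_range.1 hi
        rw [shift_shift, shift_shift, show (i + (3 - i)) % 3 = 0 by omega, shift_zero] at h1
        exact horb _ (Nat.mod_lt _ (by norm_num)) h1
  -- the relation at a pair of involutions
  obtain ⟨t₀, ht₀⟩ := exists_prime_orderOf_dvd_card' 2 (show 2 ∣ Nat.card (P : Subgroup G) by
    obtain ⟨j, hj⟩ := P.2.exists_card_eq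
    rw [hj] at h16 ⊢
    exact dvd_pow_self 2 (fun e => by subst e; norm_num at h16))
  set t : G := (t₀ : G) with ht
  have ht2 : orderOf t = 2 := by rw [ht, Subgroup.orderOf_coe, ht₀]
  have ht1 : t₀ ≠ 1 := fun e => by rw [e, orderOf_one] at ht₀; omega
  have hrelv : ∀ x : G, lift D lam₀ (x * t * x⁻¹ * t) = 0 := by
    intro x
    set u := x * t * x⁻¹ * t with hu
    obtain ⟨d, hd⟩ := exists_conj_mem D (part_spec (p := 2) u).2.2.1
    have hd' : IsConj (ppart 2 u) ((⟨_, hd⟩ : (P : Subgroup G)) : G) := isConj_iff.2 ⟨d, rfl⟩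
    rw [lift_val D _ hd', orbFun, sub_eq_zero]
    set y : (P : Subgroup G) := ⟨_, hd⟩ with hy
    by_cases hy1 : y = 1
    · rw [hy1, orbSum_one]
    have htt : t * t = 1 := by rw [← pow_two, ← ht2, pow_orderOf_eq_one]
    have hrev : t * u * t⁻¹ = u⁻¹ := by
      have hti : t⁻¹ = t := inv_eq_of_mul_eq_one_left htt
      rw [hu, mul_inv_rev, mul_inv_rev, mul_inv_rev, inv_inv, hti]
      calc t * (x * t * x⁻¹ * t) * t = t * x * t * x⁻¹ * (t * t) := by group
        _ = t * (x * (t * x⁻¹)) := by rw [htt, mul_one]; group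
    have hu' : t * ppart 2 u * t⁻¹ = (ppart 2 u)⁻¹ := by
      rw [← (part_conj (p := 2) u t).1, hrev]
      refine (part_unique (a := (ppart 2 u)⁻¹) (b := (prest 2 u)⁻¹) ?_ ?_ ?_ ?_).1
      · obtain ⟨h1, h2, -⟩ := part_spec (p := 2) u
        rw [← mul_inv_rev, ← h2.eq, h1]
      · exact (part_spec (p := 2) u).2.1.inv_inv
      · simpa [orderOf_inv] using (part_spec (p := 2) u).2.2.1
      · rw [orderOf_inv]; exact (part_spec (p := 2) u).2.2.2.1
    have hyc : IsConj (y : G) (y : G)⁻¹ := by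
      refine isConj_iff.2 ⟨d * t * d⁻¹, ?_⟩
      rw [hy]
      show d * t * d⁻¹ * (d * ppart 2 u * d⁻¹) * (d * t * d⁻¹)⁻¹ = (d * ppart 2 u * d⁻¹)⁻¹
      calc d * t * d⁻¹ * (d * ppart 2 u * d⁻¹) * (d * t * d⁻¹)⁻¹ = d * (t * ppart 2 u * t⁻¹) * d⁻¹ := by group
        _ = _ := by rw [hu']; group
    obtain ⟨i, hi, hiy⟩ := fusion D y.2 (inv_mem y.2) hyc
    have hy2 : orderOf (y : G) = 2 := by
      have hyne : (y : G) ≠ 1 := fun e => hy1 (Subtype.ext e)
      refine orderOf_eq_prime ?_ hyne
      have hθθ : n ^ (i + i) * y * (n ^ (i + i))⁻¹ = y := by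
        calc n ^ (i + i) * y * (n ^ (i + i))⁻¹ = n ^ i * (n ^ i * y * (n ^ i)⁻¹) * (n ^ i)⁻¹ := by rw [pow_add]; group
          _ = n ^ i * (y : G)⁻¹ * (n ^ i)⁻¹ := by rw [hiy]
          _ = (n ^ i * y * (n ^ i)⁻¹)⁻¹ := by group
          _ = y := by rw [hiy, inv_inv]
      rcases (show i = 0 ∨ i = 1 ∨ i = 2 by omega) with rfl | rfl | rfl
      · simp at hiy
        rw [pow_two]
        nth_rewrite 1 [hiy]
        exact inv_mul_cancel _
      · exact absurd (fix_one D (Or.inr rfl) y.2 hθθ) hyne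
      · refine absurd (fix_one D (i := 1) (Or.inl rfl) y.2 ?_) hyne
        have h3 := D.hn3 y y.2
        calc n ^ 1 * (y : G) * (n ^ 1)⁻¹ = n ^ 1 * (n ^ 3 * y * (n ^ 3)⁻¹) * (n ^ 1)⁻¹ := by rw [h3]
          _ = n ^ (2 + 2) * y * (n ^ (2 + 2))⁻¹ := by group
          _ = y := hθθ
    have hθ2 : ∀ i, orderOf ((theta D i y : (P : Subgroup G)) : G) = 2 := fun i => by
      rw [theta_coe, ← MulAut.conj_apply, MulEquiv.orderOf_eq, hy2]
    simp [orbSum, shift_apply, hinv _ (hθ2 _)]
  obtain ⟨hS0, hξa, hξb⟩ := hξ lam₀ hlam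
  obtain ⟨-, ho0, hpm0, -, -, hexp0⟩ := hSc lam₀ hlam
  have hrel := expansion_relation (u := t) (c₀ := ((1 : ℤ) : ℂ)) hexp0 hrelv
  have hsumS : ∀ f : IrrCharacter G → ℂ, ∑ x ∈ S lam₀, f x = f a + f b + f (ξ lam₀) := by
    intro f
    rw [hS0, Finset.sum_insert (by simp [hab, hξa.symm]), Finset.sum_pair hξb.symm, add_assoc]
  have haS : ∀ μ, μ ≠ oneChar → a ∈ S μ := fun μ hμ => (hab' μ hμ).1
  have hbS : ∀ μ, μ ≠ oneChar → b ∈ S μ := fun μ hμ => (hab' μ hμ).2
  have hta := hval a haS t₀ ht1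
  have htb := hval b hbS t₀ ht1
  have htξ : (ξ lam₀ : G → ℂ) t = -3 * (c lam₀ (ξ lam₀) : ℂ) := by
    rw [ht, hξval lam₀ hlam t₀ ht1]
    have hθ2 : ∀ i, orderOf ((theta D i t₀ : (P : Subgroup G)) : G) = 2 := fun i => by
      rw [theta_coe, ← MulAut.conj_apply, MulEquiv.orderOf_eq, ← ht, ht2]
    simp only [orbSum, shift_apply, hinv _ (hθ2 _), Finset.sum_const, Finset.card_range, nsmul_eq_mul]
    push_cast; ring
  -- congruences for the degrees of the common constituents
  have hcong : ∀ x, (∀ μ, μ ≠ oneChar → x ∈ S μ) →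
      ((Nat.card (P : Subgroup G) : ℤ)) ∣ (c lam₀ x * (charDegree (x : G → ℂ) : ℤ) - 1) := by
    intro x hx
    haveI : Fintype (P : Subgroup G) := Fintype.ofFinite _
    obtain ⟨q, hq⟩ := classInner_genChar
      (genChar_comp (AddSubgroup.subset_closure (isCharacter_of_irr x.2) : (x : G → ℂ) ∈ genChar G)
        (P : Subgroup G).subtype) (isCharacter_of_irr (oneChar : IrrCharacter (P : Subgroup G)).2)
    rw [classInner_eq, inv_mul_eq_iff_eq_mul₀ hP0, ← Finset.add_sum_erase _ _ (Finset.mem_univ (1 : (P : Subgroup G)))] at hq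
    simp only [oneChar_apply, map_one, mul_one] at hq
    simp only [Subgroup.coe_subtype, Subgroup.coe_one] at hq
    rw [Finset.sum_congr rfl (g := fun _ => (c lam₀ x : ℂ)) (fun w hw => hval x hx w (Finset.ne_of_mem_erase hw)),
      Finset.sum_const, Finset.card_erase_of_mem (Finset.mem_univ _), Finset.card_univ, ← Nat.card_eq_fintype_card,
      nsmul_eq_mul, Nat.cast_sub (show 1 ≤ Nat.card (P : Subgroup G) from Nat.card_pos)] at hq
    rw [apply_one (isCharacter_of_irr x.2)] at hq
    refine ⟨c lam₀ x * q - 1, Int.cast_injective (α := ℂ) ?_⟩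
    have hsq : (c lam₀ x : ℂ) * c lam₀ x = 1 := by
      rcases hpm0 x (hx _ hlam) with e | e <;> rw [e] <;> simp
    push_cast at hq ⊢
    linear_combination (c lam₀ x : ℂ) * hq + (1 - (Nat.card (P : Subgroup G) : ℂ)) * hsq
  set A : ℤ := c lam₀ a * (charDegree (a : G → ℂ) : ℤ) with hA
  set B : ℤ := c lam₀ b * (charDegree (b : G → ℂ) : ℤ) with hB
  set C : ℤ := c lam₀ (ξ lam₀) * (charDegree (ξ lam₀ : G → ℂ) : ℤ) with hC
  have hdeg : 1 + A + B + C = 0 := by
    have h := hexp0 1
    rw [lift_regular D lam₀ (part_of_regular (p := 2) (a := (1 : G)) (by rw [orderOf_one]; norm_num)).1, hsumS,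
      apply_one (isCharacter_of_irr a.2), apply_one (isCharacter_of_irr b.2),
      apply_one (isCharacter_of_irr (ξ lam₀).2)] at h
    refine Int.cast_injective (α := ℂ) ?_
    rw [hA, hB, hC]
    push_cast at h ⊢
    linear_combination -h
  have hne : ∀ x ∈ S lam₀, c lam₀ x * (charDegree (x : G → ℂ) : ℤ) ≠ 0 := fun x hx => by
    have := charDegree_pos x.2
    rcases hpm0 x hx with e | e <;> rw [e] <;> omega
  have hξS : ξ lam₀ ∈ S lam₀ := by rw [hS0]; simp
  have heq : A * B * C + B * C + A * C + 9 * A * B = 0 := by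
    have hA0 : (A : ℂ) ≠ 0 := Int.cast_ne_zero.2 (hne a (haS _ hlam))
    have hB0 : (B : ℂ) ≠ 0 := Int.cast_ne_zero.2 (hne b (hbS _ hlam))
    have hC0 : (C : ℂ) ≠ 0 := Int.cast_ne_zero.2 (hne _ hξS)
    rw [hsumS, hta, htb, htξ] at hrel
    have e1 : ∀ x ∈ S lam₀, ∀ r : ℂ, (c lam₀ x : ℂ) * (r * (c lam₀ x : ℂ) * (r * (c lam₀ x : ℂ)) / (x : G → ℂ) 1) =
        r * r / ((c lam₀ x * (charDegree (x : G → ℂ) : ℤ) : ℤ) : ℂ) := by
      intro x hx r
      have h0 : (charDegree (x : G → ℂ) : ℂ) ≠ 0 := Nat.cast_ne_zero.2 (charDegree_pos x.2).ne'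
      rw [apply_one (isCharacter_of_irr x.2)]
      rcases hpm0 x hx with e | e <;> rw [e] <;> push_cast <;> field_simp
    have ea := e1 a (haS _ hlam) 1
    have eb := e1 b (hbS _ hlam) 1
    have ec := e1 _ hξS (-3)
    rw [one_mul, ← hA] at ea
    rw [one_mul, ← hB] at eb
    rw [← hC] at ec
    rw [ea, eb, ec] at hrel
    refine Int.cast_injective (α := ℂ) ?_
    push_cast at hrel ⊢
    field_simp at hrel
    linear_combination hrel
  have hkey : (A + B) * (1 + A) * (1 + B) = 8 * A * B := by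
    have hC' : C = -(1 + A + B) := by omega
    rw [hC'] at heq
    nlinarith [heq]
  have hAB : A = 1 ∧ B = 1 := by
    have hA16 : A = 1 ∨ 15 ≤ A ∨ A ≤ -15 := by
      obtain ⟨q, hq⟩ := hcong a haS
      rw [← hA] at hq
      rcases lt_trichotomy q 0 with h | h | h
      · right; right; nlinarith
      · left; rw [h] at hq; linarith
      · right; left; nlinarith
    have hB16 : B = 1 ∨ 15 ≤ B ∨ B ≤ -15 := by
      obtain ⟨q, hq⟩ := hcong b hbS
      rw [← hB] at hq
      rcases lt_trichotomy q 0 with h | h | h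
      · right; right; nlinarith
      · left; rw [h] at hq; linarith
      · right; left; nlinarith
    have hmod : (16 : ℤ) ∣ A + B - 2 := by
      obtain ⟨j, hj⟩ := P.2.exists_card_eq
      have hj4 : 4 ≤ j := by
        by_contra h
        have := Nat.pow_le_pow_right two_pos (show j ≤ 3 by omega)
        omega
      have h16' : (16 : ℤ) ∣ (Nat.card (P : Subgroup G) : ℤ) := by
        rw [hj]; push_cast
        exact ⟨2 ^ (j - 4), by rw [show (16 : ℤ) = 2 ^ 4 by norm_num, ← pow_add, Nat.add_sub_cancel' hj4]⟩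
      have h1 := h16'.trans (hcong a haS)
      have h2 := h16'.trans (hcong b hbS)
      rw [← hA] at h1
      rw [← hB] at h2
      have := dvd_add h1 h2
      rwa [show A - 1 + (B - 1) = A + B - 2 by ring] at this
    exact eq_one_of_key hA16 hB16 hmod hkey
  obtain ⟨hA1, hB1⟩ := hAB
  have hlin : ∀ x ∈ S lam₀, c lam₀ x * (charDegree (x : G → ℂ) : ℤ) = 1 →
      c lam₀ x = 1 ∧ charDegree (x : G → ℂ) = 1 := by
    intro x hx h
    have := charDegree_pos x.2
    rcases hpm0 x hx with e | e <;> rw [e] at h <;> constructor <;> omega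
  obtain ⟨hca, hda⟩ := hlin a (haS _ hlam) hA1
  obtain ⟨hcb, hdb⟩ := hlin b (hbS _ hlam) hB1
  obtain ⟨fa, hfa⟩ := CfsgLib.Clifford.exists_hom_of_linear (isCharacter_of_irr a.2)
    (by rw [apply_one (isCharacter_of_irr a.2), hda, Nat.cast_one])
  obtain ⟨fb, hfb⟩ := CfsgLib.Clifford.exists_hom_of_linear (isCharacter_of_irr b.2)
    (by rw [apply_one (isCharacter_of_irr b.2), hdb, Nat.cast_one])
  set L := fa.ker ⊓ fb.ker with hL
  have hPL : (P : Subgroup G) ≤ L := by
    intro y hy
    by_cases hy1 : y = 1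
    · rw [hy1]; exact one_mem _
    refine Subgroup.mem_inf.2 ⟨MonoidHom.mem_ker.2 ?_, MonoidHom.mem_ker.2 ?_⟩
    · show (fun g => fa g) y = 1
      rw [← hfa, hval a haS ⟨y, hy⟩ (fun e => hy1 (congrArg Subtype.val e)), hca]; simp
    · show (fun g => fb g) y = 1
      rw [← hfb, hval b hbS ⟨y, hy⟩ (fun e => hy1 (congrArg Subtype.val e)), hcb]; simp
  -- every regular element of `L` lies in the kernel of the block
  have hker : ∀ g ∈ L, ¬ 2 ∣ orderOf g → ∀ χ ∈ principalBlock M G, (χ : G → ℂ) g = (χ : G → ℂ) 1 := by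
    intro g hg hgreg χ hχ
    have hga : (a : G → ℂ) g = 1 := by
      rw [hfa]; exact MonoidHom.mem_ker.1 (Subgroup.mem_inf.1 hg).1
    have hgb : (b : G → ℂ) g = 1 := by
      rw [hfb]; exact MonoidHom.mem_ker.1 (Subgroup.mem_inf.1 hg).2
    by_cases h1 : χ = oneChar
    · simp [h1, oneChar_apply]
    by_cases ha' : χ = a
    · rw [ha', hga, apply_one (isCharacter_of_irr a.2), hda, Nat.cast_one]
    by_cases hb' : χ = b
    · rw [hb', hgb, apply_one (isCharacter_of_irr b.2), hdb, Nat.cast_one]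
    by_cases hex : ∃ μ, μ ≠ oneChar ∧ χ = ξ μ
    · obtain ⟨μ, hμ, rfl⟩ := hex
      obtain ⟨hSμ, hxa, hxb⟩ := hξ μ hμ
      obtain ⟨-, -, hpmμ, -, -, hexpμ⟩ := hSc μ hμ
      have hsum2 : ∀ f : IrrCharacter G → ℂ, ∑ x ∈ S μ, f x = f a + f b + f (ξ μ) := by
        intro f
        rw [hSμ, Finset.sum_insert (by simp [hab, hxa.symm]), Finset.sum_pair hxb.symm, add_assoc]
      have hg' : ppart 2 g = 1 := (part_of_regular (p := 2) hgreg).1
      have hone' : ppart 2 (1 : G) = 1 := (part_of_regular (p := 2) (a := (1 : G)) (by rw [orderOf_one]; norm_num)).1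
      have e1 := hexpμ g
      have e2 := hexpμ 1
      rw [lift_regular D μ hg', hsum2, hga, hgb] at e1
      rw [lift_regular D μ hone', hsum2, apply_one (isCharacter_of_irr a.2), apply_one (isCharacter_of_irr b.2),
        hda, hdb, Nat.cast_one] at e2
      have hc0 : (c μ (ξ μ) : ℂ) ≠ 0 := by
        rcases hpmμ (ξ μ) (by rw [hSμ]; simp) with e | e <;> rw [e] <;> simp
      refine mul_left_cancel₀ hc0 ?_
      linear_combination e2 - e1
    · exfalso
      push Not at hex
      refine apply_ne_zero_of_principal hM hχ (x := t) (fun hd => P.not_dvd_index (hd.trans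
        (Subgroup.index_dvd_of_le (P_le_cent D t₀.2)))) ?_
      refine principal_apply_eq D hM hχ (fun _ => 0) (fun _ _ => rfl) (fun μ hμ => ?_) ht1
      rw [(hSc μ hμ).2.2.2.2.1 χ ?_ h1]
      · simp
      rw [(hξ μ hμ).1]
      simp [ha', hb', hex μ hμ]
  have hLtriv : ∀ g ∈ L, ¬ 2 ∣ orderOf g → g = 1 := by
    intro g hg hgreg
    set Ker : Subgroup G := ⨅ χ ∈ principalBlock M G, CfsgLib.CharBasics.charKer (χ : G → ℂ) (isCharacter_of_irr χ.2) with hKer
    have hKmem : ∀ z, z ∈ Ker ↔ ∀ χ ∈ principalBlock M G, (χ : G → ℂ) z = (χ : G → ℂ) 1 := fun z => by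
      simp [hKer, Subgroup.mem_iInf, CfsgLib.CharBasics.mem_charKer]
    haveI hKn : Ker.Normal := ⟨fun z hz w => (hKmem _).2 fun χ hχ => by
      rw [CfsgLib.CharBasics.isClassFunction (isCharacter_of_irr χ.2), (hKmem z).1 hz χ hχ]⟩
    have hodd : Odd (Nat.card Ker) := by
      rw [← Nat.not_even_iff_odd, even_iff_two_dvd]
      intro hd
      obtain ⟨z, hz⟩ := exists_prime_orderOf_dvd_card' 2 hd
      have hz2 : orderOf (z : G) = 2 := by rw [Subgroup.orderOf_coe, hz]
      obtain ⟨d, hd'⟩ := exists_conj_mem D (z := (z : G)) ⟨1, by rw [hz2, pow_one]⟩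
      set w : (P : Subgroup G) := ⟨_, hd'⟩ with hw
      have hwK : (w : G) ∈ Ker := hKn.conj_mem _ z.2 d
      have hw1 : w ≠ 1 := fun e => by
        have h : d * (z : G) * d⁻¹ = 1 := congrArg Subtype.val e
        rw [conj_eq_one_iff] at h
        rw [h, orderOf_one] at hz2
        omega
      refine hw1 ?_
      have hall : ∀ μ : IrrCharacter (P : Subgroup G), (μ : ↥(P : Subgroup G) → ℂ) w = 1 := by
        intro μ
        by_cases hμ : μ = oneChar
        · simp [hμ, oneChar_apply]
        obtain ⟨hSμ, hxa, hxb⟩ := hξ μ hμ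
        obtain ⟨-, -, hpmμ, -, -, hexpμ⟩ := hSc μ hμ
        have hxS : ξ μ ∈ S μ := by rw [hSμ]; simp
        have hxB := hnot μ hμ _ hxS
        have e1 : -(c μ (ξ μ) : ℂ) * orbSum D μ w = (ξ μ : G → ℂ) 1 := by
          rw [← hξval μ hμ w hw1]
          exact (hKmem _).1 hwK _ hxB
        have e2 := hexpμ 1
        rw [lift_regular D μ (part_of_regular (p := 2) (a := (1 : G)) (by rw [orderOf_one]; norm_num)).1, hSμ,
          Finset.sum_insert (by simp [hab, hxa.symm]), Finset.sum_pair hxb.symm,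
          apply_one (isCharacter_of_irr a.2), apply_one (isCharacter_of_irr b.2), hda, hdb,
          hsign a haS μ hμ, hca, hsign b hbS μ hμ, hcb] at e2
        push_cast at e2
        have hsq : (c μ (ξ μ) : ℂ) * c μ (ξ μ) = 1 := by
          rcases hpmμ _ hxS with e | e <;> rw [e] <;> simp
        have h3 : orbSum D μ w = ((3 : ℕ) : ℂ) := by
          push_cast
          linear_combination (-(c μ (ξ μ) : ℂ)) * e1 - orbSum D μ w * hsq + e2
        have hnorm : ∀ i : Fin 3, ‖(shift D i μ : ↥(P : Subgroup G) → ℂ) w‖ = 1 := by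
          intro i
          refine Complex.norm_eq_one_of_pow_eq_one (n := orderOf w) ?_ (orderOf_pos w).ne'
          have hp : ∀ r : ℕ, (shift D i μ : ↥(P : Subgroup G) → ℂ) (w ^ r) =
              (shift D i μ : ↥(P : Subgroup G) → ℂ) w ^ r := by
            intro r
            induction r with
            | zero => rw [pow_zero, pow_zero, (mu_hom D _).1]
            | succ r ih => rw [pow_succ, (mu_hom D _).2, ih, pow_succ]
          rw [← hp, pow_orderOf_eq_one, (mu_hom D _).1]
        have := eq_one_of_sum_eq_card (fun i : Fin 3 => (shift D i μ : ↥(P : Subgroup G) → ℂ) w) hnorm (by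
          rw [Fintype.card_fin, ← h3, orbSum, ← Fin.sum_univ_eq_sum_range
            (fun i => (shift D i μ : ↥(P : Subgroup G) → ℂ) w) 3]) 0
        rwa [Fin.val_zero, shift_zero] at this
      by_contra hne'
      have hcls : IsClassFunction (P : Subgroup G) (fun y => (if y = w then (1 : ℂ) else 0) - if y = 1 then 1 else 0) :=
        fun y z => by
          rw [show z * y * z⁻¹ = y from Subtype.ext (by
            simp only [Subgroup.coe_mul, Subgroup.coe_inv]; rw [D.hab z z.2 y y.2, mul_inv_cancel_right])]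
      have h0 := eq_zero_of_classInner hcls fun μ => by
        rw [classInner_eq]
        simp [sub_mul, Finset.sum_sub_distrib, hall μ, (mu_hom D μ).1]
      have := congrFun h0 w
      simp [hne'] at this
    have := hO Ker hKn hodd
    have hgK : g ∈ Ker := (hKmem g).2 (hker g hg hgreg)
    rw [this, Subgroup.mem_bot] at hgK
    exact hgK
  -- so `L` is the Sylow subgroup
  have hLp : IsPGroup 2 L := by
    refine IsPGroup.iff_orderOf.2 fun g => ?_
    obtain ⟨h1, -, ⟨j, hj⟩, h4, -, hm'⟩ := part_spec (p := 2) (g : G)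
    refine ⟨j, ?_⟩
    rw [hLtriv (prest 2 (g : G)) (Subgroup.zpowers_le.2 g.2 hm') h4, mul_one] at h1
    rw [← Subgroup.orderOf_coe, ← h1]
    exact hj
  have hLP : L = (P : Subgroup G) := P.3 hLp hPL
  rw [← hLP]
  haveI := MonoidHom.normal_ker fa
  haveI := MonoidHom.normal_ker fb
  rw [hL]
  infer_instance

end CfsgLib.ZStar.Homocyclic
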